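import Cfsg.Agent.Helper55.N9Defs

/-! CALL S4409, piece T6: `[Y, K]` is a `Y`- and `K`-invariant subgroup of `Y`. -/

set_option autoImplicit false

namespace Cfsg.Agent.Helper74.N9

open Subgroup Cfsg.Agent.Helper55.N9
open scoped commutatorElement

variable {G : Type*} [Group G] [Finite G]

theorem n9_comm_inv (Y K : Subgroup G) (hinv : K ≤ normalizer (Y : Set G)) :
    ⁅Y, K⁆ ≤ Y ∧ Y ≤ normalizer ((⁅Y, K⁆ : Subgroup G) : Set G) ∧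
      K ≤ normalizer ((⁅Y, K⁆ : Subgroup G) : Set G) := by
  have hsub : ⁅Y, K⁆ ≤ Y := by
    rw [Subgroup.commutator_le]
    intro y hy k hk
    have hkN := hinv hk
    rw [mem_normalizer_iff] at hkN
    have h1 : k * y⁻¹ * k⁻¹ ∈ Y := (hkN y⁻¹).1 (inv_mem hy)
    have h2 : ⁅y, k⁆ = y * (k * y⁻¹ * k⁻¹) := by
      simp only [commutatorElement_def, mul_assoc]
    rw [h2]
    exact mul_mem hy h1
  -- conjugation by `g` maps `[Y, K]` into itself as soon as it maps generators into it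
  have key : ∀ g : G, (∀ y ∈ Y, ∀ k ∈ K, g * ⁅y, k⁆ * g⁻¹ ∈ ⁅Y, K⁆) →
      ∀ x ∈ ⁅Y, K⁆, g * x * g⁻¹ ∈ ⁅Y, K⁆ := by
    intro g hg x hx
    have hle : ⁅Y, K⁆ ≤ (⁅Y, K⁆ : Subgroup G).comap (MulAut.conj g).toMonoidHom := by
      rw [Subgroup.commutator_le]
      intro y hy k hk
      rw [Subgroup.mem_comap]
      exact hg y hy k hk
    have := hle hx
    rw [Subgroup.mem_comap] at this
    exact this
  have key2 : ∀ g : G, (∀ y ∈ Y, ∀ k ∈ K, g * ⁅y, k⁆ * g⁻¹ ∈ ⁅Y, K⁆) →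
      (∀ y ∈ Y, ∀ k ∈ K, g⁻¹ * ⁅y, k⁆ * g⁻¹⁻¹ ∈ ⁅Y, K⁆) →
      g ∈ normalizer ((⁅Y, K⁆ : Subgroup G) : Set G) := by
    intro g h1 h2
    rw [mem_normalizer_iff]
    intro x
    refine ⟨key g h1 x, fun hx => ?_⟩
    have := key g⁻¹ h2 _ hx
    simpa [mul_assoc] using this
  -- `Y` normalizes: `z [y,k] z⁻¹ = [z y, k] [z, k]⁻¹`
  have hYgen : ∀ z ∈ Y, ∀ y ∈ Y, ∀ k ∈ K, z * ⁅y, k⁆ * z⁻¹ ∈ ⁅Y, K⁆ := by
    intro z hz y hy k hk
    have h : z * ⁅y, k⁆ * z⁻¹ = ⁅z * y, k⁆ * ⁅z, k⁆⁻¹ := by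
      simp only [commutatorElement_def]; group
    rw [h]
    exact mul_mem (Subgroup.commutator_mem_commutator (mul_mem hz hy) hk)
      (inv_mem (Subgroup.commutator_mem_commutator hz hk))
  -- `K` normalizes: `l [y,k] l⁻¹ = [l y l⁻¹, l k l⁻¹]`
  have hKgen : ∀ l ∈ K, ∀ y ∈ Y, ∀ k ∈ K, l * ⁅y, k⁆ * l⁻¹ ∈ ⁅Y, K⁆ := by
    intro l hl y hy k hk
    have h : l * ⁅y, k⁆ * l⁻¹ = ⁅l * y * l⁻¹, l * k * l⁻¹⁆ := by
      simp only [commutatorElement_def]; group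
    rw [h]
    have hlN := hinv hl
    rw [mem_normalizer_iff] at hlN
    exact Subgroup.commutator_mem_commutator ((hlN y).1 hy)
      (mul_mem (mul_mem hl hk) (inv_mem hl))
  refine ⟨hsub, fun z hz => ?_, fun l hl => ?_⟩
  · exact key2 z (hYgen z hz) (hYgen z⁻¹ (inv_mem hz))
  · exact key2 l (hKgen l hl) (hKgen l⁻¹ (inv_mem hl))

end Cfsg.Agent.Helper74.N9
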