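import Mathlib
import Cfsg.Agent.Helper71.T4Defs

/-!
# CALL S5637 piece GL2 (helper74): gluing two half descriptions into a Kronecker product
-/

set_option autoImplicit false

namespace Cfsg.Agent.Helper74.T4GL2

open Matrix Cfsg.Agent.Helper71.T4
open scoped Kronecker

variable {F : Type*} [Field F] {a b : ℕ}

/-! ## Piece GL2 -/
theorem glue2 (ha : 1 ≤ a) (y : Matrix (Fin a × Fin b) (Fin a × Fin b) F) (hy : y.det ≠ 0)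
    (β₁ β₂ p₁ p₂ w₀ : Fin b → F)
    (hp11 : β₁ ⬝ᵥ p₁ = 1) (hp12 : β₁ ⬝ᵥ p₂ = 0) (hp21 : β₂ ⬝ᵥ p₁ = 0) (hp22 : β₂ ⬝ᵥ p₂ = 1)
    (hw₀ : w₀ ≠ 0) (h1 : β₁ ⬝ᵥ w₀ = 0) (h2 : β₂ ⬝ᵥ w₀ = 0)
    (A₁ A₂ : Matrix (Fin a) (Fin a) F) (Λ₁ Λ₂ : (Fin b → F) → (Fin b → F))
    (hA₁ : ∀ w : Fin b → F, β₁ ⬝ᵥ w = 0 → ∀ β' : Fin b → F, blk y β' w = (β' ⬝ᵥ Λ₁ w) • A₁)
    (hA₂ : ∀ w : Fin b → F, β₂ ⬝ᵥ w = 0 → ∀ β' : Fin b → F, blk y β' w = (β' ⬝ᵥ Λ₂ w) • A₂) :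
    IsKron y := by
  classical
  have hk : ∃ k : Fin b, blk y (Pi.single k 1) w₀ ≠ 0 := by
    by_contra hcon
    have hcon' : ∀ k : Fin b, blk y (Pi.single k 1) w₀ = 0 := by
      intro k
      by_contra hne
      exact hcon ⟨k, hne⟩
    have h0 : y *ᵥ pt (Pi.single (⟨0, ha⟩ : Fin a) (1 : F)) w₀ = 0 := by
      ext ⟨i, k⟩
      rw [mulVec_pt, hcon' k]
      simp
    have h3 := Matrix.eq_zero_of_mulVec_eq_zero hy h0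
    obtain ⟨l, hl⟩ : ∃ l, w₀ l ≠ 0 := by
      by_contra h
      apply hw₀
      funext l
      by_contra hne
      exact h ⟨l, hne⟩
    have h4 := congrFun h3 (⟨0, ha⟩, l)
    simp [pt] at h4
    exact hl h4
  obtain ⟨k, hk⟩ := hk
  have e1 := hA₁ w₀ h1 (Pi.single k 1)
  have e2 := hA₂ w₀ h2 (Pi.single k 1)
  have hc₂ : (Pi.single k 1 : Fin b → F) ⬝ᵥ Λ₂ w₀ ≠ 0 := by
    intro h
    apply hk
    rw [e2, h, zero_smul]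
  have hA : A₂ = (((Pi.single k 1 : Fin b → F) ⬝ᵥ Λ₂ w₀)⁻¹ *
      ((Pi.single k 1 : Fin b → F) ⬝ᵥ Λ₁ w₀)) • A₁ := by
    rw [mul_smul, ← e1, e2, smul_smul, inv_mul_cancel₀ hc₂, one_smul]
  have key : ∀ β' w : Fin b → F, ∃ c : F, blk y β' w = c • A₁ := by
    intro β' w
    obtain ⟨w', hw'⟩ : ∃ w' : Fin b → F, w' = w - (β₁ ⬝ᵥ w) • p₁ - (β₂ ⬝ᵥ w) • p₂ := ⟨_, rfl⟩
    have hw : w = w' + (β₁ ⬝ᵥ w) • p₁ + (β₂ ⬝ᵥ w) • p₂ := by rw [hw']; abel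
    have hb1 : β₁ ⬝ᵥ w' = 0 := by
      rw [hw', dotProduct_sub, dotProduct_sub, dotProduct_smul, dotProduct_smul, hp11, hp12]
      simp
    refine ⟨β' ⬝ᵥ Λ₁ w' + (β₁ ⬝ᵥ w) * ((β' ⬝ᵥ Λ₂ p₁) *
      (((Pi.single k 1 : Fin b → F) ⬝ᵥ Λ₂ w₀)⁻¹ * ((Pi.single k 1 : Fin b → F) ⬝ᵥ Λ₁ w₀)))
      + (β₂ ⬝ᵥ w) * (β' ⬝ᵥ Λ₁ p₂), ?_⟩
    have h5 : blk y β' w = blk y β' (w' + (β₁ ⬝ᵥ w) • p₁ + (β₂ ⬝ᵥ w) • p₂) := by rw [← hw]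
    rw [h5, blk_add_right, blk_add_right, blk_smul_right, blk_smul_right, hA₁ w' hb1 β',
      hA₂ p₁ hp21 β', hA₁ p₂ hp12 β']
    conv_lhs => rw [hA]
    module
  exact isKron_of_blk y A₁ (fun k l => key _ _)

end Cfsg.Agent.Helper74.T4GL2
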