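import Mathlib
import Cfsg.Agent.Helper71.T4Defs
import Cfsg.Agent.Helper39.T4RP
import Cfsg.Agent.Helper76.T4SY
import Cfsg.Agent.Helper4.T4CR

/-!
# CALL S5637 piece PP (helper74): elements of `M` map pure tensors to pure tensors
-/

set_option autoImplicit false

namespace Cfsg.Agent.Helper74.T4PP

open Matrix Cfsg.Agent.Helper71.T4
open scoped Kronecker

variable {F : Type*} [Field F] {a b : ℕ}

/-! ## Piece PP -/
theorem pure_to_pure [Finite F] (ha : 1 ≤ a) (hab : a < b) (hb : 3 ≤ b)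
    (M : Subgroup (GL (Fin a × Fin b) F)) (hS : HasS M) (hNS : NS M)
    (g : GL (Fin a × Fin b) F) (hg : g ∈ M) (u : Fin a → F) (w : Fin b → F) :
    ∃ (u' : Fin a → F) (w' : Fin b → F),
      (g : Matrix (Fin a × Fin b) (Fin a × Fin b) F) *ᵥ pt u w = pt u' w' := by
  classical
  by_cases hw : w = 0
  · refine ⟨0, 0, ?_⟩
    have h0 : pt u w = 0 := by
      ext q
      simp [pt, hw]
    rw [h0, Matrix.mulVec_zero]
    ext q
    simp [pt]
  haveI : Fact (ringChar F).Prime := ⟨CharP.char_is_prime F _⟩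
  obtain ⟨v, hv⟩ : ∃ v : Fin a × Fin b → F,
      v = (g : Matrix (Fin a × Fin b) (Fin a × Fin b) F) *ᵥ pt u w := ⟨_, rfl⟩
  obtain ⟨β, hβ0, hβv⟩ : ∃ β : Fin b → F, β ≠ 0 ∧ ∀ i : Fin a, ∑ k, β k * v (i, k) = 0 := by
    let f : (Fin b → F) →ₗ[F] (Fin a → F) :=
      { toFun := fun β i => ∑ k, β k * v (i, k)
        map_add' := by
          intro x y
          ext i
          simp [add_mul, Finset.sum_add_distrib]
        map_smul' := by
          intro c x
          ext i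
          simp [Finset.mul_sum, mul_assoc] }
    have hk : LinearMap.ker f ≠ ⊥ := by
      apply LinearMap.ker_ne_bot_of_finrank_lt
      simp only [Module.finrank_pi, Fintype.card_fin]
      exact hab
    obtain ⟨β, hβ, hβ0⟩ := (Submodule.ne_bot_iff _).1 hk
    exact ⟨β, hβ0, fun i => congrFun (LinearMap.mem_ker.1 hβ) i⟩
  obtain ⟨w₁, hw₁0, hw₁⟩ := exists_perp1 (by omega : 2 ≤ b) β
  have hβw₁ : β ⬝ᵥ w₁ = 0 := by rw [dotProduct_comm]; exact hw₁
  obtain ⟨β'', hβ''0, hβ''⟩ := exists_perp1 (by omega : 2 ≤ b) w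
  obtain ⟨t', ht'M, ht'⟩ := root_inM M hS w₁ β hβw₁
  obtain ⟨t'', ht''M, ht''⟩ := root_inM M hS w β'' hβ''
  let T : Set (GL (Fin a × Fin b) F) := {t | ∃ w β : Fin b → F, β ⬝ᵥ w = 0 ∧ w ≠ 0 ∧ β ≠ 0 ∧
    (t : Matrix (Fin a × Fin b) (Fin a × Fin b) F)
      = 1 + (1 : Matrix (Fin a) (Fin a) F) ⊗ₖ vecMulVec w β}
  have hTM : ∀ t ∈ T, t ∈ M := by
    rintro t ⟨w, β, h, -, -, ht⟩
    apply mem_of_inM
    rw [ht]
    exact root_inM M hS w β h
  have hTH : ∀ t ∈ T, t ∈ kronSub a b F := by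
    rintro t ⟨w, β, h, -, -, ht⟩
    rw [mem_kronSub, ht]
    exact ⟨1, 1 + vecMulVec w β, by rw [Matrix.kronecker_add, Matrix.one_kronecker_one]⟩
  have hTp : ∀ t ∈ T, t ^ (ringChar F) = 1 := by
    rintro t ⟨w, β, h, -, -, ht⟩
    exact Cfsg.Agent.Helper39.T4RP.root_pow (ringChar F) t w β h ht
  have hi : ∀ t ∈ T, ∀ g ∈ M, g * t * g⁻¹ ∈ kronSub a b F → g ∈ kronSub a b F := by
    rintro t ⟨w, β, h, hw, hβ, ht⟩ g hg hgt
    rw [mem_kronSub] at hgt ⊢
    apply Cfsg.Agent.Helper4.T4CR.conj_root ha hab hb M hS hNS g hg w β hw hβ h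
    rw [← ht]
    rw [Units.val_mul, Units.val_mul] at hgt
    exact hgt
  let C : Subgroup (GL (Fin a × Fin b) F) :=
    { carrier := {c | (c : Matrix (Fin a × Fin b) (Fin a × Fin b) F) *ᵥ pt u w = pt u w}
      mul_mem' := by
        intro c₁ c₂ h₁ h₂
        show ((c₁ * c₂ : GL (Fin a × Fin b) F) : Matrix (Fin a × Fin b) (Fin a × Fin b) F)
          *ᵥ pt u w = pt u w
        have h₁' : (c₁ : Matrix (Fin a × Fin b) (Fin a × Fin b) F) *ᵥ pt u w = pt u w := h₁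
        have h₂' : (c₂ : Matrix (Fin a × Fin b) (Fin a × Fin b) F) *ᵥ pt u w = pt u w := h₂
        rw [Units.val_mul, ← Matrix.mulVec_mulVec, h₂', h₁']
      one_mem' := by
        show ((1 : GL (Fin a × Fin b) F) : Matrix (Fin a × Fin b) (Fin a × Fin b) F)
          *ᵥ pt u w = pt u w
        rw [Units.val_one, Matrix.one_mulVec]
      inv_mem' := by
        intro c hc
        show ((c⁻¹ : GL (Fin a × Fin b) F) : Matrix (Fin a × Fin b) (Fin a × Fin b) F)
          *ᵥ pt u w = pt u w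
        have hc' : (c : Matrix (Fin a × Fin b) (Fin a × Fin b) F) *ᵥ pt u w = pt u w := hc
        conv_lhs => rw [← hc']
        rw [Matrix.mulVec_mulVec, ← Units.val_mul, inv_mul_cancel, Units.val_one,
          Matrix.one_mulVec] }
  have hCmem : ∀ c : GL (Fin a × Fin b) F, c ∈ C ↔
      (c : Matrix (Fin a × Fin b) (Fin a × Fin b) F) *ᵥ pt u w = pt u w := fun c => Iff.rfl
  have h1 : t'' ∈ C := by
    rw [hCmem, ht'', Matrix.add_mulVec, Matrix.one_mulVec, kron_mulVec_pt]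
    have h3 : vecMulVec w β'' *ᵥ w = 0 := by
      rw [Matrix.vecMulVec_mulVec, hβ'']
      simp
    rw [h3]
    have h4 : pt ((1 : Matrix (Fin a) (Fin a) F) *ᵥ u) (0 : Fin b → F) = 0 := by
      ext q
      simp [pt]
    rw [h4, add_zero]
  have ht'v : (t' : Matrix (Fin a × Fin b) (Fin a × Fin b) F) *ᵥ v = v := by
    rw [ht', Matrix.add_mulVec, Matrix.one_mulVec]
    have h3 : ((1 : Matrix (Fin a) (Fin a) F) ⊗ₖ vecMulVec w₁ β) *ᵥ v = 0 := by
      ext ⟨i, k⟩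
      simp only [Matrix.mulVec, dotProduct, Matrix.kronecker_apply, Matrix.one_apply,
        Matrix.vecMulVec_apply, Fintype.sum_prod_type, Pi.zero_apply]
      rw [Finset.sum_eq_single i]
      · rw [if_pos rfl]
        have h5 : ∀ l : Fin b, 1 * (w₁ k * β l) * v (i, l) = w₁ k * (β l * v (i, l)) := by
          intro l; ring
        rw [Finset.sum_congr rfl (fun l _ => h5 l), ← Finset.mul_sum, hβv i, mul_zero]
      · intro j _ hj
        rw [if_neg (Ne.symm hj)]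
        simp
      · intro hne
        exact absurd (Finset.mem_univ _) hne
    rw [h3, add_zero]
  have h2 : g⁻¹ * t' * g ∈ C := by
    rw [hCmem, Units.val_mul, Units.val_mul, ← Matrix.mulVec_mulVec, ← Matrix.mulVec_mulVec,
      ← hv, ht'v, hv, Matrix.mulVec_mulVec, ← Units.val_mul, inv_mul_cancel, Units.val_one,
      Matrix.one_mulVec]
  obtain ⟨m, hmM, hmC, hmH⟩ := Cfsg.Agent.Helper76.T4SY.syl_conj (ringChar F) M (kronSub a b F) T hTM hTH hTp hi C
    g t' t'' hg ⟨w₁, β, hβw₁, hw₁0, hβ0, ht'⟩ ⟨w, β'', hβ'', hw, hβ''0, ht''⟩ h1 h2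
  have hgm : g * m⁻¹ ∈ kronSub a b F := by
    have h3 := (kronSub a b F).inv_mem hmH
    rwa [_root_.mul_inv_rev, inv_inv] at h3
  obtain ⟨A, B, hAB⟩ := mem_kronSub.mp hgm
  refine ⟨A *ᵥ u, B *ᵥ w, ?_⟩
  have hm' : ((m⁻¹ : GL (Fin a × Fin b) F) : Matrix (Fin a × Fin b) (Fin a × Fin b) F)
      *ᵥ pt u w = pt u w := (hCmem _).mp (C.inv_mem hmC)
  rw [← kron_mulVec_pt, ← hAB, Units.val_mul, ← Matrix.mulVec_mulVec, hm']

end Cfsg.Agent.Helper74.T4PP
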