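-- helper74: pieces P5a-d of CALL S4460 (helper15): induced irreducible characters from a normal
-- subgroup with trivial inertia, separation by linear characters of an abelian quotient, the
-- dual fixed-point-free property, and existence of a character of degree `|G : N|`.
import Mathlib
import Cfsg.Agent.Helper3.MGroup
import Cfsg.Agent.Helper3.Taketa
import Cfsg.Agent.Helper15.CharInner
import Cfsg.Agent.Helper79.Induced
import Cfsg.Agent.Helper4.TwoDegMain

set_option autoImplicit false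
universe u
open Cfsg

namespace Cfsg.Agent.Helper74

/-- Piece P5a of CALL S4460. -/
theorem cd3_ind_irr {G : Type u} [Group G] [Fintype G] (N : Subgroup G) [N.Normal] [Fintype N]
    (θ : N → ℂ) (hθ : IsIrrCharacter N θ)
    (hT : ∀ g : G, Helper75.conjFun N g θ = θ → g ∈ N) :
    IsIrrCharacter G (indFun N θ) := by
  classical
  have hθc := Helper79.isCharacter_of_irr hθ
  have hΦ : IsCharacter G (indFun N θ) := Helper3.isCharacter_indFun N θ hθc
  have hΦ1 : indFun N θ 1 ≠ 0 := by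
    rw [Helper3.indFun_apply_one]
    exact mul_ne_zero (by exact_mod_cast Subgroup.index_ne_zero_of_finite)
      (Helper3.irr_apply_one_ne_zero hθ)
  obtain ⟨χ, hχ, hne⟩ := Helper75.exists_irr_constituent hΦ hΦ1
  have hχc := Helper79.isCharacter_of_irr hχ
  have hcl : IsClassFunction G χ := Helper15.isClassFunction_of_isChar hχc
  rw [Helper3.frobenius_reciprocity N θ χ hcl] at hne
  have hne' : classInner (fun n : N => χ n) θ ≠ 0 := by
    rw [Helper79.classInner_conj_symm]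
    intro h0
    apply hne
    have := congrArg (starRingEnd ℂ) h0
    simpa using this
  have hTiff : ∀ g : G, g ∈ N ↔ Helper75.conjFun N g θ = θ := by
    intro g
    constructor
    · intro hg
      funext h
      rw [Helper75.conjFun_apply]
      have := Helper79.isCharacter_conj_eq hθc h ⟨g, hg⟩
      rw [← this]
      congr 1
    · exact hT g
  have hf : classInner (Helper75.resTo (le_refl N) θ) θ ≠ 0 := by
    have : Helper75.resTo (le_refl N) θ = θ := by
      funext n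
      rfl
    rw [this, Helper15.irr_inner_self hθ]
    exact one_ne_zero
  have := (Helper75.clifford_correspondence (le_refl N) hθ hTiff hθ hχ hf hne').1
  rw [this]
  exact hχ

/-- Commutativity of the quotient `N ⧸ (K ∩ N)`. -/
theorem cd3_quot_comm {G : Type u} [Group G] (N K : Subgroup G) [N.Normal] [K.Normal]
    (hNK : ∀ x ∈ N, ∀ y ∈ N, x * y * x⁻¹ * y⁻¹ ∈ K) (a b : N ⧸ K.subgroupOf N) :
    a * b = b * a := by
  induction a using QuotientGroup.induction_on with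
  | H a =>
    induction b using QuotientGroup.induction_on with
    | H b =>
      rw [← QuotientGroup.mk_mul, ← QuotientGroup.mk_mul, QuotientGroup.eq,
        Subgroup.mem_subgroupOf]
      have h := hNK (b⁻¹ : N) (b⁻¹ : N).2 (a⁻¹ : N) (a⁻¹ : N).2
      have e : (((a * b)⁻¹ * (b * a) : N) : G)
          = ((b⁻¹ : N) : G) * ((a⁻¹ : N) : G) * ((b⁻¹ : N) : G)⁻¹ * ((a⁻¹ : N) : G)⁻¹ := by
        push_cast
        group
      rw [e]
      exact h

/-- Piece P5b of CALL S4460. -/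
theorem cd3_exists_hom_sep {G : Type u} [Group G] [Finite G] (N K : Subgroup G)
    [N.Normal] [K.Normal] (hKN : K ≤ N)
    (hNK : ∀ x ∈ N, ∀ y ∈ N, x * y * x⁻¹ * y⁻¹ ∈ K) (x : N) (hx : (x : G) ∉ K) :
    ∃ μ : N →* ℂˣ, (∀ y : N, (y : G) ∈ K → μ y = 1) ∧ μ x ≠ 1 := by
  letI : CommGroup (N ⧸ K.subgroupOf N) :=
    { (inferInstance : Group (N ⧸ K.subgroupOf N)) with
      mul_comm := cd3_quot_comm N K hNK }
  have hne : ((x : N) : N ⧸ K.subgroupOf N) ≠ 1 := by
    intro h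
    apply hx
    have := (QuotientGroup.eq_one_iff x).mp h
    exact Subgroup.mem_subgroupOf.mp this
  obtain ⟨f, hf⟩ := CommGroup.exists_apply_ne_one_of_hasEnoughRootsOfUnity
    (N ⧸ K.subgroupOf N) ℂ hne
  refine ⟨f.comp (QuotientGroup.mk' (K.subgroupOf N)), ?_, ?_⟩
  · intro y hy
    have h1 : ((y : N) : N ⧸ K.subgroupOf N) = 1 :=
      (QuotientGroup.eq_one_iff y).mpr (Subgroup.mem_subgroupOf.mpr hy)
    show f ((y : N) : N ⧸ K.subgroupOf N) = 1
    rw [h1, map_one]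
  · exact hf

/-- Piece P5c of CALL S4460. -/
theorem cd3_fpf_dual {G : Type u} [Group G] [Finite G] (N K : Subgroup G) [N.Normal] [K.Normal]
    (hKN : K ≤ N) (hNK : ∀ x ∈ N, ∀ y ∈ N, x * y * x⁻¹ * y⁻¹ ∈ K)
    (hfp : ∀ g : G, g ∉ N → ∀ x ∈ N, g * x * g⁻¹ * x⁻¹ ∈ K → x ∈ K)
    (g : G) (hg : g ∉ N) (μ : N →* ℂˣ) (hμ : ∀ x : N, (x : G) ∈ K → μ x = 1)
    (hfix : Helper75.conjFun N g (fun x => ((μ x : ℂˣ) : ℂ)) = (fun x => ((μ x : ℂˣ) : ℂ))) :
    μ = 1 := by
  classical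
  have hNn : N.Normal := inferInstance
  -- the commutator map
  have hcmem : ∀ x : N, g * (x : G) * g⁻¹ * (x : G)⁻¹ ∈ N := fun x =>
    N.mul_mem (hNn.conj_mem x x.2 g) (N.inv_mem x.2)
  have hμc : ∀ x : N, μ ⟨g * (x : G) * g⁻¹ * (x : G)⁻¹, hcmem x⟩ = 1 := by
    intro x
    have h1 := congrFun hfix x
    rw [Helper75.conjFun_apply] at h1
    have h2 : μ ⟨g * (x : G) * g⁻¹, hNn.conj_mem x x.2 g⟩ = μ x := Units.ext h1
    have h3 : (⟨g * (x : G) * g⁻¹ * (x : G)⁻¹, hcmem x⟩ : N)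
        = ⟨g * (x : G) * g⁻¹, hNn.conj_mem x x.2 g⟩ * x⁻¹ := by
      apply Subtype.ext
      simp
    rw [h3, map_mul, h2, map_inv, mul_inv_cancel]
  letI : CommGroup (N ⧸ K.subgroupOf N) :=
    { (inferInstance : Group (N ⧸ K.subgroupOf N)) with
      mul_comm := cd3_quot_comm N K hNK }
  let φ : N →* N ⧸ K.subgroupOf N := MonoidHom.mk'
    (fun x => ((⟨g * (x : G) * g⁻¹ * (x : G)⁻¹, hcmem x⟩ : N) : N ⧸ K.subgroupOf N))
    (by
      intro x y
      rw [← QuotientGroup.mk_mul, QuotientGroup.eq, Subgroup.mem_subgroupOf]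
      have hv : g * (y : G) * g⁻¹ ∈ N := hNn.conj_mem y y.2 g
      have hw : (y : G) * (g * (y : G) * g⁻¹)⁻¹ ∈ N := N.mul_mem y.2 (N.inv_mem hv)
      have h := hNK (x : G) x.2 _ hw
      have e : (((⟨g * ((x * y : N) : G) * g⁻¹ * ((x * y : N) : G)⁻¹, hcmem (x * y)⟩ : N)⁻¹
          * ((⟨g * (x : G) * g⁻¹ * (x : G)⁻¹, hcmem x⟩ : N)
            * (⟨g * (y : G) * g⁻¹ * (y : G)⁻¹, hcmem y⟩ : N)) : N) : G)
          = (x : G) * ((y : G) * (g * (y : G) * g⁻¹)⁻¹) * (x : G)⁻¹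
            * ((y : G) * (g * (y : G) * g⁻¹)⁻¹)⁻¹ := by
        push_cast
        group
      rw [e]
      exact h)
  have hφ : ∀ x : N, φ x = ((⟨g * (x : G) * g⁻¹ * (x : G)⁻¹, hcmem x⟩ : N) : N ⧸ K.subgroupOf N) :=
    fun x => rfl
  have hker : φ.ker = K.subgroupOf N := by
    ext x
    rw [MonoidHom.mem_ker, hφ, QuotientGroup.eq_one_iff, Subgroup.mem_subgroupOf,
      Subgroup.mem_subgroupOf]
    constructor
    · intro h
      exact hfp g hg x x.2 h
    · intro h
      have hKn : K.Normal := inferInstance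
      exact K.mul_mem (hKn.conj_mem x h g) (K.inv_mem h)
  have hsurj : Function.Surjective φ := by
    rw [← MonoidHom.range_eq_top]
    apply Subgroup.eq_top_of_card_eq
    have h1 : Nat.card φ.range = φ.ker.index := by
      rw [Subgroup.index_ker]
    rw [h1, hker]
    rfl
  ext y
  obtain ⟨x, hx⟩ := hsurj (y : N ⧸ K.subgroupOf N)
  rw [hφ, QuotientGroup.eq, Subgroup.mem_subgroupOf] at hx
  have h1 := hμ _ hx
  rw [map_mul, map_inv, hμc x, inv_one, one_mul] at h1
  rw [h1]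
  rfl

/-- Piece P5d of CALL S4460. -/
theorem cd3_exists_degree_index {G : Type u} [Group G] [Finite G] (N K : Subgroup G)
    [N.Normal] [K.Normal] (hKN : K ≤ N) (hne : K ≠ N)
    (hNK : ∀ x ∈ N, ∀ y ∈ N, x * y * x⁻¹ * y⁻¹ ∈ K)
    (hfp : ∀ g : G, g ∉ N → ∀ x ∈ N, g * x * g⁻¹ * x⁻¹ ∈ K → x ∈ K) :
    ∃ χ : IrrCharacter G, charDegree (χ : G → ℂ) = N.index := by
  classical
  let _ : Fintype G := Fintype.ofFinite G
  let _ : Fintype N := Fintype.ofFinite N
  obtain ⟨x, hxN, hxK⟩ : ∃ x, x ∈ N ∧ x ∉ K := by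
    by_contra hcon
    push Not at hcon
    exact hne (le_antisymm hKN hcon)
  obtain ⟨μ, hμK, hμx⟩ := cd3_exists_hom_sep N K hKN hNK ⟨x, hxN⟩ hxK
  have hirr : IsIrrCharacter G (indFun N (fun h => ((μ h : ℂˣ) : ℂ))) := by
    apply cd3_ind_irr N _ (Helper79.isIrrCharacter_of_hom μ)
    intro g hfix
    by_contra hg
    have h1 := cd3_fpf_dual N K hKN hNK hfp g hg μ hμK hfix
    apply hμx
    rw [h1]
    rfl
  refine ⟨⟨_, hirr⟩, ?_⟩
  show charDegree (indFun N (fun h => ((μ h : ℂˣ) : ℂ))) = N.index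
  rw [Helper79.charDegree_indFun N (Helper79.isCharacter_of_irr (Helper79.isIrrCharacter_of_hom μ))]
  have h1 : charDegree (fun h : N => ((μ h : ℂˣ) : ℂ)) = 1 := by
    simp [charDegree]
  rw [h1, mul_one]

end Cfsg.Agent.Helper74
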