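-- helper74: piece P1 of CALL S4460 (helper15): a group with an abelian normal subgroup `L` and
-- nilpotent quotient `G ⧸ L` is an M-group (every irreducible character is monomial).
import Mathlib
import Cfsg.Agent.Helper3.MGroup

set_option autoImplicit false
universe u
open Cfsg

namespace Cfsg.Agent.Helper74

/-- The quotient of a subgroup `T` by `L ∩ T` is nilpotent when `G ⧸ L` is. -/
theorem cd3_nilpotent_subgroupOf {G : Type u} [Group G] (L : Subgroup G) [L.Normal]
    (hnil : Group.IsNilpotent (G ⧸ L)) (T : Subgroup G) :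
    Group.IsNilpotent (T ⧸ L.subgroupOf T) := by
  let f : T →* G ⧸ L := (QuotientGroup.mk' L).comp T.subtype
  have hker : f.ker = L.subgroupOf T := by
    ext x
    rw [MonoidHom.mem_ker, Subgroup.mem_subgroupOf]
    show ((x : G) : G ⧸ L) = 1 ↔ (x : G) ∈ L
    exact QuotientGroup.eq_one_iff (x : G)
  have h1 : Group.IsNilpotent f.range := inferInstance
  have e1 : T ⧸ f.ker ≃* f.range := QuotientGroup.quotientKerEquivRange f
  have e2 : T ⧸ f.ker ≃* T ⧸ L.subgroupOf T := QuotientGroup.quotientMulEquivOfEq hker
  exact Group.nilpotent_of_mulEquiv (e1.symm.trans e2)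

theorem cd3_mgroup_aux (n : ℕ) :
    ∀ (G : Type u) [Group G] [Fintype G] (L : Subgroup G) [L.Normal],
      (∀ a ∈ L, ∀ b ∈ L, a * b = b * a) → Group.IsNilpotent (G ⧸ L) → Nat.card G = n →
      ∀ χ : G → ℂ, IsIrrCharacter G χ →
        ∃ (H : Subgroup G) (lam : H →* ℂˣ), χ = indFun H (fun h => ((lam h : ℂˣ) : ℂ)) := by
  induction n using Nat.strong_induction_on with
  | _ n ih =>
    intro G _ _ L _ hLab hnil hn χ hχ
    classical
    have hχc := Helper79.isCharacter_of_irr hχ
    by_cases hlin : χ 1 = 1
    · exact Helper3.exists_indFun_top_of_linear χ hχc hlin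
    by_cases hker : Helper79.charKer hχc = ⊥
    · -- faithful case
      by_cases hLc : L ≤ Subgroup.center G
      · haveI : Group.IsNilpotent G :=
          Subgroup.isNilpotent_of_ker_le_center (QuotientGroup.mk' L)
            (by rw [QuotientGroup.ker_mk']; exact hLc)
        exact Helper3.nilpotent_mgroup χ hχ
      have hfaith : ∀ g : G, χ g = χ 1 → g = 1 := by
        intro g hg
        have : g ∈ Helper79.charKer hχc := hg
        rw [hker] at this
        exact Subgroup.mem_bot.mp this
      obtain ⟨x, hxA, hxZ⟩ : ∃ x, x ∈ L ∧ x ∉ Subgroup.center G := by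
        by_contra hcon
        push Not at hcon
        exact hLc hcon
      obtain ⟨A, hAL⟩ : ∃ A : Subgroup G, A = L := ⟨L, rfl⟩
      have hAn : A.Normal := by rw [hAL]; infer_instance
      have hAab : ∀ a ∈ A, ∀ b ∈ A, a * b = b * a := by rw [hAL]; exact hLab
      have hxA : x ∈ A := by rw [hAL]; exact hxA
      have : Fintype A := Fintype.ofFinite A
      have hresc : IsCharacter A (fun a : A => χ a) :=
        Helper79.isCharacter_restrict hχc A
      have hχ1 : χ 1 ≠ 0 := Helper3.irr_apply_one_ne_zero hχ
      obtain ⟨lamA, hlamA, hne⟩ := Helper75.exists_irr_constituent hresc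
        (by simpa using hχ1)
      have hlamA1 : lamA 1 = 1 :=
        Helper3.irr_apply_one_of_comm (fun a b => Subtype.ext (hAab a a.2 b b.2)) hlamA
      obtain ⟨T, hT⟩ : ∃ T : Subgroup G, T = Helper3.inertia A lamA := ⟨_, rfl⟩
      have hTmem : ∀ g : G, g ∈ T ↔ Helper75.conjFun A g lamA = lamA := by
        intro g
        rw [hT]
        rfl
      have hAT : A ≤ T := by
        intro a ha
        rw [hTmem]
        funext h
        rw [Helper75.conjFun_apply]
        congr 1
        apply Subtype.ext
        show a * h * a⁻¹ = h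
        rw [hAab a ha h h.2]
        group
      have hTtop : T ≠ ⊤ := by
        intro htop
        have hinv : ∀ g : G, Helper75.conjFun A g lamA = lamA := fun g => by
          rw [← hTmem, htop]
          trivial
        have hcl := Helper75.clifford_restrict A hχ hlamA hne
        have hset : {ψ : A → ℂ | ∃ g : G, ψ = Helper75.conjFun A g lamA} = {lamA} := by
          ext ψ
          constructor
          · rintro ⟨g, rfl⟩
            exact hinv g
          · intro h
            rw [Set.mem_singleton_iff] at h
            exact ⟨1, by rw [h, Helper75.conjFun_one]⟩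
        rw [hset, finsum_mem_singleton] at hcl
        obtain ⟨e, he⟩ : ∃ e : ℂ, e = classInner (fun n : A => χ n) lamA := ⟨_, rfl⟩
        rw [← he] at hcl
        have hxe : χ x = e * lamA ⟨x, hxA⟩ := by
          have := congrFun hcl ⟨x, hxA⟩
          simpa using this
        have h1e : χ 1 = e := by
          have := congrFun hcl 1
          simp only [Pi.smul_apply, smul_eq_mul, hlamA1, mul_one] at this
          simpa using this
        obtain ⟨f, hf⟩ := Helper79.isCharacter_linear
          (Helper79.isCharacter_of_irr hlamA) hlamA1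
        have hnorm : ‖lamA ⟨x, hxA⟩‖ = 1 := by
          rw [hf]
          exact Helper79.norm_hom_apply f _
        obtain ⟨m, ρ, hirr, hρ⟩ := hχ
        have hnx : ‖ρ.character x‖ = (Module.finrank ℂ (Fin m → ℂ) : ℝ) := by
          rw [hρ, hxe, norm_mul, hnorm, mul_one, ← h1e, ← hρ, Representation.char_one]
          simp
        obtain ⟨ω, hω⟩ := Helper3.rep_scalar_of_norm_eq ρ x hnx
        apply hxZ
        rw [Subgroup.mem_center_iff]
        intro g
        have hcomm : ρ (g * x * g⁻¹ * x⁻¹) = 1 := by
          have h1 : ρ (g * x * g⁻¹ * x⁻¹) = ρ g * ρ x * ρ g⁻¹ * ρ x⁻¹ := by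
            simp only [map_mul]
          have h2 : ρ g * ρ x = ρ x * ρ g := by
            rw [hω]
            ext v
            simp
          rw [h1, h2, mul_assoc (ρ x), ← map_mul, mul_inv_cancel, map_one, mul_one, ← map_mul,
            mul_inv_cancel, map_one]
        have hval : χ (g * x * g⁻¹ * x⁻¹) = χ 1 := by
          rw [← hρ]
          have h1' : ρ 1 = 1 := map_one ρ
          show LinearMap.trace ℂ _ (ρ (g * x * g⁻¹ * x⁻¹)) = LinearMap.trace ℂ _ (ρ 1)
          rw [hcomm, h1']
        have h3 := hfaith _ hval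
        calc g * x = (g * x * g⁻¹ * x⁻¹) * x * g := by group
          _ = x * g := by rw [h3, one_mul]
      have : Fintype T := Fintype.ofFinite T
      obtain ⟨ψ, hψ, hc, hf⟩ := Helper75.exists_irr_over hAT
        (Helper79.isCharacter_of_irr hlamA) hχc hne
      have hcorr := (Helper75.clifford_correspondence hAT hlamA hTmem hψ hχ hf hc).1
      have hcardT : Nat.card T < n := by
        rw [← hn]
        have hle := Subgroup.card_le_card_group T
        rcases hle.lt_or_eq with h | h
        · exact h
        · exact absurd (Subgroup.eq_top_of_card_eq T h) hTtop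
      have hLTab : ∀ a ∈ L.subgroupOf T, ∀ b ∈ L.subgroupOf T, a * b = b * a := by
        intro a ha b hb
        apply Subtype.ext
        exact hLab a ha b hb
      obtain ⟨H₀, μ, hμ⟩ := ih (Nat.card T) hcardT T (L.subgroupOf T) hLTab
        (cd3_nilpotent_subgroupOf L hnil T) rfl ψ hψ
      obtain ⟨lam, hlam⟩ := Helper3.indFun_trans_map T H₀ μ
      exact ⟨H₀.map T.subtype, lam, by rw [← hcorr, hμ, hlam]⟩
    · -- non-faithful case: pass to the quotient by the kernel
      have hKn : (Helper79.charKer hχc).Normal := Helper79.charKer_normal hχc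
      have : Fintype (G ⧸ Helper79.charKer hχc) := Fintype.ofFinite _
      obtain ⟨ψ, hψ, hψχ⟩ := Helper79.exists_irr_deflation
        (Helper79.charKer hχc) hχ (fun x hx => hx)
      have hcard : Nat.card (G ⧸ Helper79.charKer hχc) < n := by
        rw [← hn, Subgroup.card_eq_card_quotient_mul_card_subgroup (Helper79.charKer hχc)]
        have h1 : 1 < Nat.card (Helper79.charKer hχc) :=
          (Subgroup.one_lt_card_iff_ne_bot _).mpr hker
        have h2 : 0 < Nat.card (G ⧸ Helper79.charKer hχc) := Nat.card_pos
        nlinarith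
      have hLbn : (L.map (QuotientGroup.mk' (Helper79.charKer hχc))).Normal :=
        Subgroup.Normal.map inferInstance _ (QuotientGroup.mk'_surjective _)
      have hLbab : ∀ a ∈ L.map (QuotientGroup.mk' (Helper79.charKer hχc)),
          ∀ b ∈ L.map (QuotientGroup.mk' (Helper79.charKer hχc)), a * b = b * a := by
        rintro _ ⟨a, ha, rfl⟩ _ ⟨b, hb, rfl⟩
        rw [← map_mul, ← map_mul, hLab a ha b hb]
      have hnilb : Group.IsNilpotent
          ((G ⧸ Helper79.charKer hχc) ⧸ L.map (QuotientGroup.mk' (Helper79.charKer hχc))) := by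
        let φ : G ⧸ L →* (G ⧸ Helper79.charKer hχc) ⧸
            L.map (QuotientGroup.mk' (Helper79.charKer hχc)) :=
          QuotientGroup.map L (L.map (QuotientGroup.mk' (Helper79.charKer hχc)))
            (QuotientGroup.mk' (Helper79.charKer hχc)) (Subgroup.le_comap_map _ _)
        have hφ : Function.Surjective φ := by
          intro y
          obtain ⟨y', rfl⟩ := QuotientGroup.mk_surjective y
          obtain ⟨g, rfl⟩ := QuotientGroup.mk_surjective y'
          exact ⟨(g : G ⧸ L), rfl⟩
        exact Group.nilpotent_of_surjective φ hφ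
      obtain ⟨Hb, μ, hμ⟩ := ih (Nat.card (G ⧸ Helper79.charKer hχc)) hcard
        (G ⧸ Helper79.charKer hχc) (L.map (QuotientGroup.mk' (Helper79.charKer hχc)))
        hLbab hnilb rfl ψ hψ
      refine ⟨Hb.comap (QuotientGroup.mk' (Helper79.charKer hχc)),
        μ.comp ((QuotientGroup.mk' (Helper79.charKer hχc)).subgroupComap Hb), ?_⟩
      funext g
      rw [← hψχ g, hμ, Helper3.indFun_comap_mk (Helper79.charKer hχc) Hb _ g]
      rfl

/-- Piece P1 of CALL S4460. -/
theorem cd3_mgroup {G : Type u} [Group G] [Fintype G] (L : Subgroup G) [L.Normal]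
    (hLab : ∀ a ∈ L, ∀ b ∈ L, a * b = b * a) (hnil : Group.IsNilpotent (G ⧸ L))
    (χ : G → ℂ) (hχ : IsIrrCharacter G χ) :
    ∃ (H : Subgroup G) (lam : H →* ℂˣ), χ = indFun H (fun h => ((lam h : ℂˣ) : ℂ)) :=
  cd3_mgroup_aux _ G L hLab hnil rfl χ hχ

end Cfsg.Agent.Helper74
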