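-- helper74: piece P7 of CALL S4460 (helper15): purity of the constituents of `χ ψ` for
-- characters of coprime degrees `m < n` not containing the perfect minimal normal subgroup `R`
-- in their kernels, in a group with character degrees `1, m, n`.
import Mathlib
import Cfsg.Agent.Helper15.CharInner
import Cfsg.Agent.Helper15.Gallagher2
import Cfsg.Agent.Helper79.Linear
import Cfsg.Agent.Helper79.Basic
import Cfsg.Agent.Helper79.Quotient

set_option autoImplicit false
universe u
open Cfsg
open scoped ComplexConjugate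

namespace Cfsg.Agent.Helper74

/-- Decomposition of a character into irreducible characters with natural multiplicities. -/
theorem cd3_decomp {G : Type u} [Group G] [Fintype G] [Fintype (IrrCharacter G)] {Θ : G → ℂ}
    (hΘ : IsCharacter G Θ) :
    ∃ c : IrrCharacter G → ℕ, (∀ η : IrrCharacter G, classInner Θ (η : G → ℂ) = (c η : ℂ)) ∧
      (∀ g : G, Θ g = ∑ η : IrrCharacter G, (c η : ℂ) * (η : G → ℂ) g) ∧
      charDegree Θ = ∑ η : IrrCharacter G, c η * charDegree (η : G → ℂ) := by
  have hnat : ∀ η : IrrCharacter G, ∃ k : ℕ, classInner Θ (η : G → ℂ) = (k : ℂ) :=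
    fun η => Helper15.inner_nat hΘ (Helper15.isChar_of_irr η.2)
  choose c hc using hnat
  have hval : ∀ g : G, Θ g = ∑ η : IrrCharacter G, (c η : ℂ) * (η : G → ℂ) g := by
    intro g
    have h := congrFun (Helper15.classFun_eq_sum (Helper15.isClassFunction_of_isChar hΘ)) g
    rw [Finset.sum_apply] at h
    refine h.trans ?_
    apply Finset.sum_congr rfl
    intro η _
    rw [Pi.smul_apply, smul_eq_mul, hc]
  refine ⟨c, hc, hval, ?_⟩
  have h1 := hval 1
  rw [Helper79.isCharacter_one_eq_charDegree hΘ] at h1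
  have h2 : ∀ η : IrrCharacter G, (η : G → ℂ) 1 = (charDegree (η : G → ℂ) : ℂ) := fun η =>
    Helper79.isCharacter_one_eq_charDegree (Helper79.irr_isCharacter η)
  simp only [h2] at h1
  exact_mod_cast h1

/-- Splitting a weighted degree sum according to the three possible degrees. -/
theorem cd3_split {ι : Type*} [Fintype ι] (c deg : ι → ℕ) (m n : ℕ) (hm : 1 < m) (hmn : m < n)
    (hcd : ∀ i, deg i = 1 ∨ deg i = m ∨ deg i = n) :
    ∑ i, c i * deg i = (∑ i, if deg i = 1 then c i else 0)
      + m * (∑ i, if deg i = m then c i else 0) + n * (∑ i, if deg i = n then c i else 0) := by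
  rw [Finset.mul_sum, Finset.mul_sum, ← Finset.sum_add_distrib, ← Finset.sum_add_distrib]
  apply Finset.sum_congr rfl
  intro i _
  rcases hcd i with h | h | h
  · have h1 : ¬ deg i = m := by omega
    have h2 : ¬ deg i = n := by omega
    rw [if_pos h, if_neg h1, if_neg h2, h]
    ring
  · have h1 : ¬ deg i = 1 := by omega
    have h2 : ¬ deg i = n := by omega
    rw [if_neg h1, if_pos h, if_neg h2, h]
    ring
  · have h1 : ¬ deg i = 1 := by omega
    have h2 : ¬ deg i = m := by omega
    rw [if_neg h1, if_neg h2, if_pos h, h]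
    ring

theorem cd3_inner_mul_conj {G : Type u} [Group G] [Fintype G] (a b e : G → ℂ) :
    classInner (a * b) e = classInner b (fun g => conj (a g) * e g) := by
  unfold classInner
  congr 1
  apply Finset.sum_congr rfl
  intro g _
  rw [Pi.mul_apply, map_mul, Complex.conj_conj]
  ring

theorem cd3_inner_swap {G : Type u} [Group G] [Fintype G] (a b e : G → ℂ) :
    classInner ((fun g => conj (a g)) * e) b = conj (classInner (a * b) e) := by
  unfold classInner
  rw [map_mul, map_inv₀, Complex.conj_natCast, map_sum]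
  congr 1
  apply Finset.sum_congr rfl
  intro g _
  simp only [Pi.mul_apply, map_mul, Complex.conj_conj]
  ring

/-- Piece P7 of CALL S4460. -/
theorem cd3_purity {G : Type u} [Group G] [Fintype G] (R : Subgroup G) [R.Normal]
    (hperf : commutator R = ⊤) (hmin : ∀ N : Subgroup G, N.Normal → N ≠ ⊥ → R ≤ N)
    (m n : ℕ) (hm : 1 < m) (hmn : m < n) (hcop : Nat.Coprime m n)
    (hcd : ∀ χ : IrrCharacter G, charDegree (χ : G → ℂ) = 1 ∨ charDegree (χ : G → ℂ) = m ∨
      charDegree (χ : G → ℂ) = n)
    (χ ψ : IrrCharacter G) (hχ : charDegree (χ : G → ℂ) = m) (hψ : charDegree (ψ : G → ℂ) = n)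
    (hχR : ∃ x ∈ R, (χ : G → ℂ) x ≠ (χ : G → ℂ) 1)
    (hψR : ∃ x ∈ R, (ψ : G → ℂ) x ≠ (ψ : G → ℂ) 1)
    (ξ : IrrCharacter G)
    (hξ : classInner ((χ : G → ℂ) * (ψ : G → ℂ)) (ξ : G → ℂ) ≠ 0) :
    charDegree (ξ : G → ℂ) = n := by
  classical
  let _ : Fintype (IrrCharacter G) := Fintype.ofFinite _
  have hχc := Helper79.irr_isCharacter χ
  have hψc := Helper79.irr_isCharacter ψ
  have hχ1 : (χ : G → ℂ) 1 = (m : ℂ) := by
    rw [Helper79.isCharacter_one_eq_charDegree hχc, hχ]
  have hψ1 : (ψ : G → ℂ) 1 = (n : ℂ) := by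
    rw [Helper79.isCharacter_one_eq_charDegree hψc, hψ]
  have hΦ : IsCharacter G ((χ : G → ℂ) * (ψ : G → ℂ)) := Helper79.isCharacter_mul hχc hψc
  obtain ⟨c, hc, hval, hdeg⟩ := cd3_decomp hΦ
  have hΦdeg : charDegree ((χ : G → ℂ) * (ψ : G → ℂ)) = m * n := by
    have h := Helper79.isCharacter_one_eq_charDegree hΦ
    rw [Pi.mul_apply, hχ1, hψ1] at h
    exact_mod_cast h.symm
  -- the conjugate of χ
  obtain ⟨χbar, hχbar_def⟩ : ∃ χbar : IrrCharacter G,
      (χbar : G → ℂ) = fun g => conj ((χ : G → ℂ) g) :=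
    ⟨⟨fun g => conj ((χ : G → ℂ) g), Helper79.isIrrCharacter_conj χ.2⟩, rfl⟩
  have hχbar1 : (χbar : G → ℂ) 1 = (m : ℂ) := by
    rw [hχbar_def]
    show conj ((χ : G → ℂ) 1) = (m : ℂ)
    rw [hχ1, Complex.conj_natCast]
  have hχbar : charDegree (χbar : G → ℂ) = m := by
    have h := Helper79.isCharacter_one_eq_charDegree (Helper79.irr_isCharacter χbar)
    rw [hχbar1] at h
    exact_mod_cast h.symm
  -- (1) no linear constituents
  have hlin : ∀ η : IrrCharacter G, charDegree (η : G → ℂ) = 1 → c η = 0 := by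
    intro η hη
    have hη1 : (η : G → ℂ) 1 = 1 := by
      rw [Helper79.isCharacter_one_eq_charDegree (Helper79.irr_isCharacter η), hη]
      simp
    obtain ⟨f, hf⟩ := Helper79.isCharacter_linear (Helper79.irr_isCharacter η) hη1
    have h1 : classInner ((χ : G → ℂ) * (ψ : G → ℂ)) (η : G → ℂ)
        = classInner (ψ : G → ℂ) (Helper79.irrTwist f χbar : G → ℂ) := by
      rw [cd3_inner_mul_conj]
      congr 1
      funext g
      rw [Helper79.irrTwist_apply, hf g, mul_comm, hχbar_def]
    have h2 : ψ ≠ Helper79.irrTwist f χbar := by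
      intro h
      have := Helper79.charDegree_irrTwist f χbar
      rw [← h, hψ, hχbar] at this
      omega
    rw [hc, Helper15.irr_inner, if_neg h2] at h1
    exact_mod_cast h1
  -- the degree count
  have hsplit := cd3_split c (fun η : IrrCharacter G => charDegree (η : G → ℂ)) m n hm hmn hcd
  obtain ⟨A, hA⟩ : ∃ A : ℕ, A = ∑ η : IrrCharacter G,
      if charDegree (η : G → ℂ) = m then c η else 0 := ⟨_, rfl⟩
  obtain ⟨B, hB⟩ : ∃ B : ℕ, B = ∑ η : IrrCharacter G,
      if charDegree (η : G → ℂ) = n then c η else 0 := ⟨_, rfl⟩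
  have hC : (∑ η : IrrCharacter G, if charDegree (η : G → ℂ) = 1 then c η else 0) = 0 := by
    apply Finset.sum_eq_zero
    intro η _
    split_ifs with h
    · exact hlin η h
    · rfl
  have hmain : m * n = m * A + n * B := by
    rw [← hΦdeg, hdeg, hsplit, hC, zero_add, ← hA, ← hB]
  by_contra hne
  have hcξ : c ξ ≠ 0 := by
    intro h0
    apply hξ
    rw [hc, h0]
    simp
  have hξm : charDegree (ξ : G → ℂ) = m := by
    rcases hcd ξ with h | h | h
    · exact absurd (hlin ξ h) hcξ
    · exact h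
    · exact absurd h hne
  have hApos : 1 ≤ A := by
    have h1 : (if charDegree (ξ : G → ℂ) = m then c ξ else 0) ≤ A := by
      rw [hA]
      exact Finset.single_le_sum (f := fun η : IrrCharacter G =>
        if charDegree (η : G → ℂ) = m then c η else 0) (fun _ _ => Nat.zero_le _)
        (Finset.mem_univ ξ)
    rw [if_pos hξm] at h1
    omega
  have hnA : n ∣ A := by
    have h1 : n ∣ m * A := by
      apply (Nat.dvd_add_left (dvd_mul_right n B)).mp
      rw [← hmain]
      exact dvd_mul_left n m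
    exact (Nat.Coprime.symm hcop).dvd_of_dvd_mul_left h1
  have hAn : n ≤ A := Nat.le_of_dvd (by omega) hnA
  have hmA : m * n ≤ m * A := Nat.mul_le_mul_left m hAn
  have hnB : n * B = 0 := by omega
  have hB0 : B = 0 := by
    rcases Nat.mul_eq_zero.mp hnB with h | h
    · omega
    · exact h
  have hAeq : A = n := by
    have h1 : m * A = m * n := by omega
    exact Nat.eq_of_mul_eq_mul_left (by omega) h1
  have hconst : ∀ η : IrrCharacter G, c η ≠ 0 → charDegree (η : G → ℂ) = m := by
    intro η hη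
    rcases hcd η with h | h | h
    · exact absurd (hlin η h) hη
    · exact h
    · exfalso
      rw [hB] at hB0
      have h1 := (Finset.sum_eq_zero_iff.mp hB0) η (Finset.mem_univ η)
      rw [if_pos h] at h1
      exact hη h1
  have hsum : ∑ η : IrrCharacter G, c η = n := by
    rw [← hAeq, hA]
    apply Finset.sum_congr rfl
    intro η _
    by_cases h : charDegree (η : G → ℂ) = m
    · rw [if_pos h]
    · rw [if_neg h]
      by_contra h0
      exact h (hconst η h0)
  -- (3) every constituent is a twist of χ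
  have hex : ∀ η : IrrCharacter G, c η ≠ 0 → ∃ f : G →* ℂˣ,
      ∀ g : G, (η : G → ℂ) g = (f g : ℂ) * (χ : G → ℂ) g := by
    intro η hη
    have hηm := hconst η hη
    have hη1 : (η : G → ℂ) 1 = (m : ℂ) := by
      rw [Helper79.isCharacter_one_eq_charDegree (Helper79.irr_isCharacter η), hηm]
    have hΨ : IsCharacter G ((χbar : G → ℂ) * (η : G → ℂ)) :=
      Helper79.isCharacter_mul (Helper79.irr_isCharacter χbar) (Helper79.irr_isCharacter η)
    obtain ⟨d, hd, -, hddeg⟩ := cd3_decomp hΨ
    have hΨdeg : charDegree ((χbar : G → ℂ) * (η : G → ℂ)) = m * m := by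
      have h := Helper79.isCharacter_one_eq_charDegree hΨ
      rw [Pi.mul_apply, hχbar1, hη1] at h
      exact_mod_cast h.symm
    have hdψ : d ψ = c η := by
      have h1 : classInner ((χbar : G → ℂ) * (η : G → ℂ)) (ψ : G → ℂ)
          = conj (classInner ((χ : G → ℂ) * (ψ : G → ℂ)) (η : G → ℂ)) := by
        rw [hχbar_def]
        exact cd3_inner_swap _ _ _
      rw [hd, hc, Complex.conj_natCast] at h1
      exact_mod_cast h1
    have hsplit' := cd3_split d (fun ζ : IrrCharacter G => charDegree (ζ : G → ℂ)) m n hm hmn hcd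
    obtain ⟨A', hA'⟩ : ∃ A' : ℕ, A' = ∑ ζ : IrrCharacter G,
        if charDegree (ζ : G → ℂ) = m then d ζ else 0 := ⟨_, rfl⟩
    obtain ⟨B', hB'⟩ : ∃ B' : ℕ, B' = ∑ ζ : IrrCharacter G,
        if charDegree (ζ : G → ℂ) = n then d ζ else 0 := ⟨_, rfl⟩
    obtain ⟨C', hC'⟩ : ∃ C' : ℕ, C' = ∑ ζ : IrrCharacter G,
        if charDegree (ζ : G → ℂ) = 1 then d ζ else 0 := ⟨_, rfl⟩
    have hmain' : m * m = C' + m * A' + n * B' := by
      rw [← hΨdeg, hddeg, hsplit', ← hA', ← hB', ← hC']
    have hB'pos : 1 ≤ B' := by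
      have h1 : (if charDegree (ψ : G → ℂ) = n then d ψ else 0) ≤ B' := by
        rw [hB']
        exact Finset.single_le_sum (f := fun ζ : IrrCharacter G =>
          if charDegree (ζ : G → ℂ) = n then d ζ else 0) (fun _ _ => Nat.zero_le _)
          (Finset.mem_univ ψ)
      rw [if_pos hψ, hdψ] at h1
      omega
    have hC'ne : C' ≠ 0 := by
      intro h0
      rw [h0, zero_add] at hmain'
      have h1 : m ∣ n * B' := by
        apply (Nat.dvd_add_right (dvd_mul_right m A')).mp
        rw [← hmain']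
        exact dvd_mul_left m m
      have h2 : m ∣ B' := hcop.dvd_of_dvd_mul_left h1
      have h3 : m ≤ B' := Nat.le_of_dvd (by omega) h2
      have h4 : n * m ≤ n * B' := Nat.mul_le_mul_left n h3
      have h5 : m * m < n * m := Nat.mul_lt_mul_of_pos_right hmn (by omega)
      omega
    rw [hC'] at hC'ne
    obtain ⟨ζ, -, hζ⟩ := Finset.exists_ne_zero_of_sum_ne_zero hC'ne
    have hζ1 : charDegree (ζ : G → ℂ) = 1 := by
      by_contra h
      rw [if_neg h] at hζ
      exact hζ rfl
    rw [if_pos hζ1] at hζ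
    have hζ11 : (ζ : G → ℂ) 1 = 1 := by
      rw [Helper79.isCharacter_one_eq_charDegree (Helper79.irr_isCharacter ζ), hζ1]
      simp
    obtain ⟨f, hf⟩ := Helper79.isCharacter_linear (Helper79.irr_isCharacter ζ) hζ11
    have h1 : classInner ((χbar : G → ℂ) * (η : G → ℂ)) (ζ : G → ℂ)
        = classInner (η : G → ℂ) (Helper79.irrTwist f χ : G → ℂ) := by
      rw [cd3_inner_mul_conj]
      congr 1
      funext g
      rw [Helper79.irrTwist_apply, hf g, mul_comm, hχbar_def]
      simp
    rw [hd, Helper15.irr_inner] at h1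
    have h2 : η = Helper79.irrTwist f χ := by
      by_contra h
      rw [if_neg h] at h1
      apply hζ
      exact_mod_cast h1
    refine ⟨f, fun g => ?_⟩
    rw [h2, Helper79.irrTwist_apply]
  -- (4) on the commutator subgroup, χ ψ = n χ
  have hcomm : ∀ g ∈ commutator G, (χ : G → ℂ) g * (ψ : G → ℂ) g = (n : ℂ) * (χ : G → ℂ) g := by
    intro g hg
    have h1 := hval g
    rw [Pi.mul_apply] at h1
    rw [h1, ← hsum, Nat.cast_sum, Finset.sum_mul]
    apply Finset.sum_congr rfl
    intro η _
    by_cases h0 : c η = 0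
    · rw [h0]
      simp
    · obtain ⟨f, hf⟩ := hex η h0
      rw [hf g, Helper79.hom_apply_eq_one_of_mem_commutator f hg]
      simp
  -- (5) R lies in the commutator subgroup
  have hRcomm : ∀ x ∈ R, x ∈ commutator G := by
    intro x hx
    have h1 : (commutator R).map R.subtype ≤ commutator G := by
      rw [commutator_def, Subgroup.map_commutator, commutator_def]
      exact Subgroup.commutator_mono le_top le_top
    apply h1
    refine ⟨⟨x, hx⟩, ?_, rfl⟩
    rw [hperf]
    exact Subgroup.mem_top _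
  -- (6) ψ is faithful on R
  have hKn : (Helper79.charKer hψc).Normal := Helper79.charKer_normal hψc
  have hinf : R ⊓ Helper79.charKer hψc = ⊥ := by
    by_contra hne'
    have h1 := hmin (R ⊓ Helper79.charKer hψc) inferInstance hne'
    obtain ⟨x, hx, hxψ⟩ := hψR
    exact hxψ (h1 hx).2
  have hvan : ∀ x ∈ R, x ≠ 1 → (χ : G → ℂ) x = 0 := by
    intro x hx hx1
    have h1 := hcomm x (hRcomm x hx)
    have h2 : (χ : G → ℂ) x * ((ψ : G → ℂ) x - (n : ℂ)) = 0 := by
      rw [mul_sub, h1]
      ring
    rcases mul_eq_zero.mp h2 with h | h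
    · exact h
    · exfalso
      apply hx1
      have h3 : x ∈ R ⊓ Helper79.charKer hψc := by
        refine ⟨hx, ?_⟩
        show (ψ : G → ℂ) x = (ψ : G → ℂ) 1
        rw [hψ1]
        exact sub_eq_zero.mp h
      rw [hinf] at h3
      exact Subgroup.mem_bot.mp h3
  -- (7) R lies in the kernel of χ: contradiction
  let _ : Fintype R := Fintype.ofFinite R
  have hfin : classInner (indFun R (fun _ => (1 : ℂ))) (χ : G → ℂ) ≠ 0 := by
    rw [Helper3.frobenius_reciprocity R _ _ (Helper15.isClassFunction_of_isChar hχc)]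
    unfold classInner
    have hsum1 : ∑ h : R, (1 : ℂ) * conj ((χ : G → ℂ) (h : G)) = (m : ℂ) := by
      rw [Finset.sum_eq_single (1 : R)]
      · rw [one_mul]
        show conj ((χ : G → ℂ) 1) = (m : ℂ)
        rw [hχ1, Complex.conj_natCast]
      · intro h _ hh
        have : ((h : R) : G) ≠ 1 := fun h1 => hh (Subtype.ext h1)
        rw [hvan h h.2 this]
        simp
      · intro h
        exact absurd (Finset.mem_univ _) h
    rw [hsum1]
    apply mul_ne_zero
    · apply inv_ne_zero
      exact_mod_cast Nat.card_pos.ne'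
    · exact_mod_cast (by omega : m ≠ 0)
  have hker := (Helper15.inner_ind_one_ne_zero_iff R χ.2).mp hfin
  obtain ⟨x, hx, hxχ⟩ := hχR
  exact hxχ (hker x hx)

end Cfsg.Agent.Helper74
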