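-- helper74: piece P2 of CALL S4460 (helper15): Taketa's argument for M-groups with at most
-- three character degrees gives derived length at most 3.
import Mathlib
import Cfsg.Agent.Helper3.Taketa
import Cfsg.Agent.Helper79.Sep
import Cfsg.Agent.Helper79.Basic

set_option autoImplicit false
universe u
open Cfsg
open scoped commutatorElement

namespace Cfsg.Agent.Helper74

theorem cd3_charDegree_pos {G : Type u} [Group G] (χ : IrrCharacter G) :
    0 < charDegree (χ : G → ℂ) := by
  obtain ⟨n, hn, h1⟩ := Helper3.irr_apply_one_eq_nat χ.2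
  have h2 := Helper79.isCharacter_one_eq_charDegree (Helper79.irr_isCharacter χ)
  rw [h1] at h2
  have h3 : n = charDegree (χ : G → ℂ) := by exact_mod_cast h2
  omega

/-- The step of Taketa's argument: if all irreducible characters of smaller degree are trivial
on the `k`-th derived subgroup, a monomial irreducible character is trivial on the `(k+1)`-th. -/
theorem cd3_taketa_step {G : Type u} [Group G] [Fintype G]
    (hM : ∀ χ : G → ℂ, IsIrrCharacter G χ → ∃ (H : Subgroup G) (lam : H →* ℂˣ),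
      χ = indFun H (fun h => ((lam h : ℂˣ) : ℂ)))
    (χ : IrrCharacter G) (k : ℕ)
    (hlow : ∀ ψ : IrrCharacter G, charDegree (ψ : G → ℂ) < charDegree (χ : G → ℂ) →
      ∀ g ∈ derivedSeries G k, (ψ : G → ℂ) g = (ψ : G → ℂ) 1) :
    ∀ g ∈ derivedSeries G (k + 1), (χ : G → ℂ) g = (χ : G → ℂ) 1 := by
  classical
  intro g hg
  obtain ⟨H, lam, hχH⟩ := hM χ χ.2
  have hidx : H.index = charDegree (χ : G → ℂ) := by
    have h1 := Helper79.isCharacter_one_eq_charDegree (Helper79.irr_isCharacter χ)
    have h2 : (χ : G → ℂ) 1 = (H.index : ℂ) := by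
      rw [hχH, Helper3.indFun_apply_one]
      simp
    rw [h2] at h1
    exact_mod_cast h1
  have hDH : derivedSeries G k ≤ H := by
    by_cases hH : H = ⊤
    · rw [hH]; exact le_top
    · intro x hx
      apply Helper3.mem_of_indFun_one_eq
      apply Helper3.apply_eq_apply_one_of_constituents _ (Helper3.indFun_isClassFunction H _)
      intro θ hθ
      have hlt := Helper3.constituent_degree_lt H hH θ hθ (charDegree (θ : G → ℂ))
        (Helper79.isCharacter_one_eq_charDegree (Helper79.irr_isCharacter θ))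
      exact hlow θ (by omega) x hx
  have hker : derivedSeries G (k + 1) ≤ (lam.ker).map H.subtype := by
    rw [derivedSeries_succ, Subgroup.commutator_le]
    intro a ha b hb
    refine ⟨⁅(⟨a, hDH ha⟩ : H), (⟨b, hDH hb⟩ : H)⁆, ?_, rfl⟩
    show ⁅(⟨a, hDH ha⟩ : H), (⟨b, hDH hb⟩ : H)⁆ ∈ lam.ker
    rw [MonoidHom.mem_ker, map_commutatorElement]
    exact commutatorElement_eq_one_iff_commute.mpr (Commute.all _ _)
  have hNH : derivedSeries G (k + 1) ≤ H := fun x hx => by
    obtain ⟨y, -, rfl⟩ := hker hx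
    exact y.2
  have hN : (derivedSeries G (k + 1)).Normal := derivedSeries_normal G (k + 1)
  rw [hχH]
  apply Helper3.indFun_eq_of_normal_le H _ (derivedSeries G (k + 1)) hNH _ g hg
  intro n hn
  obtain ⟨y, hy, hyn⟩ := hker hn
  have hyn' : y = n := Subtype.ext hyn
  rw [← hyn']
  have : lam y = 1 := hy
  simp [this]

theorem cd3_taketa_aux {G : Type u} [Group G] [Fintype G]
    (hM : ∀ χ : G → ℂ, IsIrrCharacter G χ → ∃ (H : Subgroup G) (lam : H →* ℂˣ),
      χ = indFun H (fun h => ((lam h : ℂˣ) : ℂ)))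
    (a b : ℕ) (hab : a ≤ b)
    (hcd : ∀ χ : IrrCharacter G, charDegree (χ : G → ℂ) = 1 ∨ charDegree (χ : G → ℂ) = a ∨
      charDegree (χ : G → ℂ) = b) :
    derivedSeries G 3 = ⊥ := by
  have h1 : ∀ χ : IrrCharacter G, charDegree (χ : G → ℂ) = 1 →
      ∀ g ∈ derivedSeries G 1, (χ : G → ℂ) g = (χ : G → ℂ) 1 := by
    intro χ hχ
    apply cd3_taketa_step hM χ 0
    intro ψ hψ
    have := cd3_charDegree_pos ψ
    omega
  have h2 : ∀ χ : IrrCharacter G, charDegree (χ : G → ℂ) = a →
      ∀ g ∈ derivedSeries G 2, (χ : G → ℂ) g = (χ : G → ℂ) 1 := by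
    intro χ hχ
    apply cd3_taketa_step hM χ 1
    intro ψ hψ
    rcases hcd ψ with h | h | h
    · exact h1 ψ h
    · omega
    · omega
  have h3 : ∀ χ : IrrCharacter G, charDegree (χ : G → ℂ) = b →
      ∀ g ∈ derivedSeries G 3, (χ : G → ℂ) g = (χ : G → ℂ) 1 := by
    intro χ hχ
    apply cd3_taketa_step hM χ 2
    intro ψ hψ
    rcases hcd ψ with h | h | h
    · intro g hg
      exact h1 ψ h g (derivedSeries_antitone G (by norm_num) hg)
    · exact h2 ψ h
    · omega
  rw [eq_bot_iff]
  intro g hg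
  rw [Subgroup.mem_bot]
  have hall : ∀ χ : IrrCharacter G, (χ : G → ℂ) g = (χ : G → ℂ) 1 := by
    intro χ
    rcases hcd χ with h | h | h
    · exact h1 χ h g (derivedSeries_antitone G (by norm_num) hg)
    · exact h2 χ h g (derivedSeries_antitone G (by norm_num) hg)
    · exact h3 χ h g hg
  have hconj := Helper79.isConj_of_forall_irr_eq hall
  exact isConj_one_left.mp hconj

/-- Piece P2 of CALL S4460. -/
theorem cd3_taketa {G : Type u} [Group G] [Fintype G]
    (hM : ∀ χ : G → ℂ, IsIrrCharacter G χ → ∃ (H : Subgroup G) (lam : H →* ℂˣ),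
      χ = indFun H (fun h => ((lam h : ℂˣ) : ℂ)))
    (a b : ℕ)
    (hcd : ∀ χ : IrrCharacter G, charDegree (χ : G → ℂ) = 1 ∨ charDegree (χ : G → ℂ) = a ∨
      charDegree (χ : G → ℂ) = b) :
    derivedSeries G 3 = ⊥ := by
  rcases le_total a b with hab | hab
  · exact cd3_taketa_aux hM a b hab hcd
  · refine cd3_taketa_aux hM b a hab ?_
    intro χ
    rcases hcd χ with h | h | h
    · exact Or.inl h
    · exact Or.inr (Or.inr h)
    · exact Or.inr (Or.inl h)

end Cfsg.Agent.Helper74
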