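import Mathlib
import Cfsg.Agent.Helper15.WinterDefs
import Cfsg.Agent.Helper15.WinterFix

/-!
# Winter's theorem, piece P3: counting in an abelian section (helper74, for helper15's S4467)
-/

set_option autoImplicit false

namespace Cfsg.Agent.Helper74

open Cfsg.Agent.Helper15

universe u

/-- The `r`-elements of a commutative subgroup `H` form a set of size `r ^ v_r(|H|)`. -/
theorem wc_rpart_card {Q : Type u} [Group Q] [Finite Q] (H : Subgroup Q)
    (hHc : ∀ a ∈ H, ∀ b ∈ H, a * b = b * a) (r : ℕ) (hr : r.Prime) :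
    {v | v ∈ H ∧ ∃ k : ℕ, v ^ r ^ k = 1}.ncard = r ^ (Nat.card H).factorization r := by
  classical
  have : Fact r.Prime := ⟨hr⟩
  let T : Subgroup Q :=
    { carrier := {v | v ∈ H ∧ ∃ k : ℕ, v ^ r ^ k = 1}
      mul_mem' := by
        rintro a b ⟨ha, k, hk⟩ ⟨hb, l, hl⟩
        refine ⟨H.mul_mem ha hb, k + l, ?_⟩
        have hcomm : Commute a b := hHc a ha b hb
        rw [hcomm.mul_pow, pow_add, pow_mul, hk, one_pow, mul_comm (r ^ k), pow_mul, hl,
          one_pow, mul_one]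
      one_mem' := ⟨H.one_mem, 0, by simp⟩
      inv_mem' := by
        rintro a ⟨ha, k, hk⟩
        exact ⟨H.inv_mem ha, k, by rw [inv_pow, hk, inv_one]⟩ }
  have hTH : T ≤ H := fun v hv => hv.1
  have hTp : IsPGroup r T := by
    intro g
    obtain ⟨k, hk⟩ := g.2.2
    exact ⟨k, Subtype.ext (by simpa using hk)⟩
  have hset : {v | v ∈ H ∧ ∃ k : ℕ, v ^ r ^ k = 1} = (T : Set Q) := rfl
  rw [hset, ← Nat.card_coe_set_eq]
  obtain ⟨j, hj⟩ := hTp.exists_card_eq
  have hj' : Nat.card (T : Set Q) = r ^ j := hj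
  have hdvd : Nat.card T ∣ Nat.card H := Subgroup.card_dvd_of_le hTH
  have hH0 : Nat.card H ≠ 0 := Nat.card_pos.ne'
  obtain ⟨P⟩ : Nonempty (Sylow r H) := inferInstance
  have hPcard := Sylow.card_eq_multiplicity P
  have hPle : (P : Subgroup H).map H.subtype ≤ T := by
    rintro _ ⟨y, hy, rfl⟩
    refine ⟨y.2, ?_⟩
    obtain ⟨k, hk⟩ := P.isPGroup' ⟨y, hy⟩
    refine ⟨k, ?_⟩
    have h1 := congrArg (fun z : (P : Subgroup H) => ((z : H) : Q)) hk
    simpa using h1
  have hcardmap : Nat.card ((P : Subgroup H).map H.subtype) = Nat.card (P : Subgroup H) :=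
    Subgroup.card_map_of_injective H.subtype_injective
  have h1 : r ^ (Nat.card H).factorization r ∣ r ^ j := by
    rw [← hPcard, ← hcardmap, ← hj]
    exact Subgroup.card_dvd_of_le hPle
  have h2 : j ≤ (Nat.card H).factorization r := by
    rw [← hr.pow_dvd_iff_le_factorization hH0, ← hj]
    exact hdvd
  have h3 : (Nat.card H).factorization r ≤ j := (Nat.pow_dvd_pow_iff_le_right hr.one_lt).mp h1
  rw [hj', le_antisymm h2 h3]

/-- **Winter, piece P3**: counting in an abelian section. -/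
theorem winter_count {Q : Type u} [Group Q] [Finite Q] (V : Subgroup Q)
    (hVc : ∀ a ∈ V, ∀ b ∈ V, a * b = b * a) (p : ℕ) (hp : p.Prime) (x : Q) (hx : IsPEl p x)
    (hxV : ∀ v ∈ V, x * v * x⁻¹ ∈ V) (u s : ℕ) (hu : Nat.card V = u ^ 2)
    (hs : Nat.card (V ⊓ Subgroup.centralizer {x} : Subgroup Q) = s ^ 2)
    (hne : ∃ v ∈ V, x * v * x⁻¹ ≠ v) (hpu : ¬ p ∣ u) :
    ∃ q : ℕ, IsPrimePow q ∧ q ∣ u ∧ (p ∣ q - 1 ∨ p ∣ q + 1) := by
  classical
  have hCV : V ⊓ Subgroup.centralizer {x} ≤ V := inf_le_left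
  have hCc : ∀ a ∈ V ⊓ Subgroup.centralizer {x}, ∀ b ∈ V ⊓ Subgroup.centralizer {x},
      a * b = b * a := fun a ha b hb => hVc a (hCV ha) b (hCV hb)
  have hu0 : u ≠ 0 := by
    intro h0
    rw [h0] at hu
    have := Nat.card_pos (α := V)
    omega
  have hs0 : s ≠ 0 := by
    intro h0
    rw [h0] at hs
    have := Nat.card_pos (α := (V ⊓ Subgroup.centralizer {x} : Subgroup Q))
    omega
  have hlt : s < u := by
    obtain ⟨v, hv, hvx⟩ := hne
    have hCltV : V ⊓ Subgroup.centralizer {x} < V := by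
      refine lt_of_le_of_ne hCV ?_
      intro heq
      have hvC : v ∈ V ⊓ Subgroup.centralizer {x} := by rw [heq]; exact hv
      have h2 := (Subgroup.mem_inf.mp hvC).2
      rw [Subgroup.mem_centralizer_iff] at h2
      have h3 := h2 x (Set.mem_singleton x)
      apply hvx
      rw [h3]
      group
    have h4 : Nat.card (V ⊓ Subgroup.centralizer {x} : Subgroup Q) < Nat.card V := by
      by_contra hge
      exact hCltV.ne (Subgroup.eq_of_le_of_card_ge hCV (not_lt.mp hge))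
    rw [hs, hu] at h4
    exact lt_of_pow_lt_pow_left₀ 2 (Nat.zero_le u) h4
  obtain ⟨r, hrlt⟩ : ∃ r, s.factorization r < u.factorization r := by
    by_contra hcon
    have h1 : u ∣ s := (Nat.factorization_le_iff_dvd hu0 hs0).mp
      (fun r => not_lt.mp (fun h => hcon ⟨r, h⟩))
    exact absurd (Nat.le_of_dvd (Nat.pos_of_ne_zero hs0) h1) (not_le.mpr hlt)
  have hr : r.Prime := by
    by_contra hnr
    rw [Nat.factorization_eq_zero_of_not_prime u hnr] at hrlt
    exact Nat.not_lt_zero _ hrlt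
  have hru : r ∣ u := by
    have h1 : 1 ≤ u.factorization r := by omega
    have h2 := (hr.pow_dvd_iff_le_factorization hu0).mpr h1
    simpa using h2
  have hpr : p ≠ r := by
    intro h
    exact hpu (h ▸ hru)
  have hSV := wc_rpart_card V hVc r hr
  have hSC := wc_rpart_card (V ⊓ Subgroup.centralizer {x}) hCc r hr
  have hstab : ∀ v ∈ {v | v ∈ V ∧ ∃ k : ℕ, v ^ r ^ k = 1},
      x * v * x⁻¹ ∈ {v | v ∈ V ∧ ∃ k : ℕ, v ^ r ^ k = 1} := by
    rintro v ⟨hv, k, hk⟩
    exact ⟨hxV v hv, k, by rw [conj_pow, hk, mul_one, mul_inv_cancel]⟩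
  have hfix := winter_fixed_card p hp x hx _ hstab
  have hfixset : {v | v ∈ {v | v ∈ V ∧ ∃ k : ℕ, v ^ r ^ k = 1} ∧ x * v * x⁻¹ = v}
      = {v | v ∈ V ⊓ Subgroup.centralizer {x} ∧ ∃ k : ℕ, v ^ r ^ k = 1} := by
    ext v
    simp only [Set.mem_ofPred_eq, Subgroup.mem_inf, Subgroup.mem_centralizer_iff,
      Set.mem_singleton_iff, forall_eq]
    constructor
    · rintro ⟨⟨hv, hk⟩, hx⟩
      refine ⟨⟨hv, ?_⟩, hk⟩
      calc x * v = x * v * x⁻¹ * x := by group
        _ = v * x := by rw [hx]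
    · rintro ⟨⟨hv, hx⟩, hk⟩
      refine ⟨⟨hv, hk⟩, ?_⟩
      rw [hx]
      group
  rw [hfixset, hSV, hSC, hu, hs, Nat.factorization_pow, Nat.factorization_pow] at hfix
  simp only [Finsupp.smul_apply, smul_eq_mul] at hfix
  obtain ⟨c, hc⟩ : ∃ c, u.factorization r = s.factorization r + c :=
    ⟨u.factorization r - s.factorization r, by omega⟩
  have hc1 : 1 ≤ c := by omega
  refine ⟨r ^ c, ⟨r, c, hr.prime, by omega, rfl⟩, ?_, ?_⟩
  · have h1 : r ^ c ∣ r ^ u.factorization r := pow_dvd_pow r (by omega)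
    exact h1.trans (Nat.ordProj_dvd u r)
  · have hq1 : 1 ≤ r ^ c := Nat.one_le_pow _ _ hr.pos
    have h1 : p ∣ r ^ (2 * u.factorization r) - r ^ (2 * s.factorization r) :=
      (Nat.modEq_iff_dvd' (Nat.pow_le_pow_right hr.pos (by omega))).mp hfix.symm
    have h2 : r ^ (2 * u.factorization r) - r ^ (2 * s.factorization r)
        = r ^ (2 * s.factorization r) * ((r ^ c - 1) * (r ^ c + 1)) := by
      obtain ⟨m, hm⟩ : ∃ m, r ^ c = m + 1 := ⟨r ^ c - 1, by omega⟩
      have h3 : r ^ (2 * u.factorization r) = r ^ (2 * s.factorization r) * (r ^ c) ^ 2 := by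
        rw [hc]
        ring
      rw [h3, hm]
      have h4 : (m + 1) ^ 2 = m * (m + 1 + 1) + 1 := by ring
      rw [h4, Nat.add_sub_cancel, Nat.mul_add, Nat.mul_one, Nat.add_sub_cancel]
    rw [h2] at h1
    have hcop : Nat.Coprime p (r ^ (2 * s.factorization r)) :=
      Nat.Coprime.pow_right _ ((Nat.coprime_primes hp hr).mpr hpr)
    have h5 : p ∣ (r ^ c - 1) * (r ^ c + 1) := hcop.dvd_of_dvd_mul_left h1
    exact (hp.dvd_mul).mp h5

end Cfsg.Agent.Helper74
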