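import Mathlib
import Cfsg.Agent.Helper3.SU2Defs

/-!
# Sub-CALL S2412C, piece EDGE0 (helper74)
-/

set_option autoImplicit false

namespace Cfsg.Agent.Helper74

open Cfsg.Agent.Helper3.SU2 Cfsg.Agent.Helper13

variable {F : Type*} [Field F] [Fintype F] {n : ℕ}

theorem su2c_edge0 (hF : Fintype.card F = 2 ^ 2) {Φ : Set (Fin n → F)} (hΦ : PhiCl Φ)
    (p0 p1 p2 p3 p4 : Fin n) (h01 : p0 ≠ p1) (h02 : p0 ≠ p2) (h03 : p0 ≠ p3) (h04 : p0 ≠ p4)
    (h12 : p1 ≠ p2) (h13 : p1 ≠ p3) (h14 : p1 ≠ p4) (h23 : p2 ≠ p3) (h24 : p2 ≠ p4)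
    (h34 : p3 ≠ p4) (hw0 : win p0 p1 p2 p3 ∈ Φ) (hw1 : win p1 p2 p3 p4 ∈ Φ) :
    Pi.single p0 (1 : F) + Pi.single p4 (1 : F) ∈ Φ := by
  have h2 : (2 : F) = 0 := ufld2_two hF
  have hxx : Cfsg.hermForm n F 2 (win p1 p2 p3 p4 : Fin n → F) (win p1 p2 p3 p4) = 0 := by
    unfold win
    simp only [uh_add_left, uh_add_right hF, uh_single_single hF]
    simp only [if_true, if_neg h12, if_neg h13, if_neg h14, if_neg h23, if_neg h24, if_neg h34,
      if_neg h12.symm, if_neg h13.symm, if_neg h14.symm, if_neg h23.symm, if_neg h24.symm,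
      if_neg h34.symm]
    linear_combination 2 * h2
  have hyx : Cfsg.hermForm n F 2 (win p0 p1 p2 p3 : Fin n → F) (win p1 p2 p3 p4) = 1 := by
    unfold win
    simp only [uh_add_left, uh_add_right hF, uh_single_single hF]
    simp only [if_true, if_neg h01, if_neg h02, if_neg h03, if_neg h04, if_neg h12, if_neg h13,
      if_neg h14, if_neg h23, if_neg h24, if_neg h34,
      if_neg h12.symm, if_neg h13.symm, if_neg h14.symm, if_neg h23.symm, if_neg h24.symm,
      if_neg h34.symm]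
    linear_combination h2
  have key := hΦ.tv _ _ hw1 hw0 hxx
  rw [hyx, one_smul] at key
  have e : Pi.single p0 (1 : F) + Pi.single p4 (1 : F)
      = (win p0 p1 p2 p3 : Fin n → F) + win p1 p2 p3 p4 := by
    unfold win
    funext a
    simp only [Pi.add_apply]
    linear_combination (-((Pi.single p1 (1 : F) : Fin n → F) a + (Pi.single p2 (1 : F) : Fin n → F) a
      + (Pi.single p3 (1 : F) : Fin n → F) a)) * h2
  rw [e]
  exact key

end Cfsg.Agent.Helper74
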