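import Mathlib
import Cfsg.Prelude.Def_GeometricClasses
import Cfsg.Agent.Helper96.SpF3b

/-!
# Piece PT of helper95's CALL S5874: a tensor form structure on pure tensors (helper74)
-/

set_option autoImplicit false
open Cfsg Cfsg.Geo Matrix

namespace Cfsg.Agent.Helper74

variable {ι : Type} [Fintype ι] [DecidableEq ι] {F : Type*} [Field F]

theorem o12_tensor_pure (f : (ι → F) → (ι → F) → F) {n₁ n₂ : ℕ} (e : ι ≃ Fin n₁ × Fin n₂)
    (P : GL ι F) (f₁ : (Fin n₁ → F) → (Fin n₁ → F) → F) (f₂ : (Fin n₂ → F) → (Fin n₂ → F) → F)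
    (hf₁ : IsBilinearForm f₁) (hf₂ : IsBilinearForm f₂)
    (hT : IsTensorFormStructure id f f₁ f₂ e P) :
    ∃ c : F, c ≠ 0 ∧ ∀ (s s' : Fin n₁ → F) (y y' : Fin n₂ → F),
      f ((P : Matrix ι ι F) *ᵥ ((fun p : Fin n₁ × Fin n₂ => s p.1 * y p.2) ∘ e))
        ((P : Matrix ι ι F) *ᵥ ((fun p : Fin n₁ × Fin n₂ => s' p.1 * y' p.2) ∘ e))
        = c * (f₁ s s' * f₂ y y') := by
  obtain ⟨c, hc, h⟩ := hT
  refine ⟨c, hc, fun s s' y y' => ?_⟩
  rw [h]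
  congr 1
  exact Cfsg.Agent.Helper96.Sy.formOfGram_pt hf₁ hf₂ s s' y y'

end Cfsg.Agent.Helper74
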