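import Mathlib
import Cfsg.Prelude.Def_GeometricClasses
import Cfsg.Prelude.Def_Classical
import Cfsg.Agent.Helper98.ELPDefs

set_option autoImplicit false

/-! Sub-CALL ELP (helper98), piece POW. -/

namespace Cfsg.Agent.Helper74.ELP

open Matrix Cfsg.Agent.Helper98.ELP
open scoped MatrixGroups

variable {n : Type} [Fintype n] [DecidableEq n] {F : Type*} [Field F]

/-- POW [S]: induction with `sieg_mul`, `sieg_zero`. -/
theorem sieg_pow (T : Matrix n n F) (k : ℕ) : sieg T ^ k = sieg (k • T) := by
  induction k with
  | zero => rw [pow_zero, zero_smul, sieg_zero]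
  | succ k ih => rw [pow_succ, ih, sieg_mul, succ_nsmul]

end Cfsg.Agent.Helper74.ELP
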