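import Mathlib
import Cfsg.Prelude.Def_GeometricClasses
import Cfsg.Prelude.Def_Classical
import Cfsg.Agent.Helper98.ELPDefs

set_option autoImplicit false

/-! Sub-CALL ELP (helper98), piece T0NE. -/

namespace Cfsg.Agent.Helper74.ELP

open Matrix Cfsg.Agent.Helper98.ELP
open scoped MatrixGroups

variable {n : Type} [Fintype n] [DecidableEq n] {F : Type*} [Field F]

/-- T0NE [S]: entry `(0, d / 2)` of `t0 - t0ᵀ` is `1`. -/
theorem t0_ne (d : ℕ) (hd : 2 ≤ d) : t0 d F - (t0 d F)ᵀ ≠ 0 := by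
  intro h
  have h0 : 0 < d := by omega
  have h1 : d / 2 < d := by omega
  have h2 : 0 < d / 2 := by omega
  have h3 := congrFun (congrFun h ⟨0, h0⟩) ⟨d / 2, h1⟩
  simp only [Matrix.sub_apply, Matrix.transpose_apply, Matrix.zero_apply, t0] at h3
  rw [if_pos ⟨h2, by simp⟩, if_neg (by simp)] at h3
  simp at h3

end Cfsg.Agent.Helper74.ELP
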