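import Mathlib
import Cfsg.Agent.Helper8.S4504Defs
import Cfsg.Agent.Helper15.FTLemmaC
import Cfsg.Agent.Helper3.Burnside2
import Cfsg.Agent.Helper80.CharIrr

/-!
# CALL S4504, piece CEN: a faithful irreducible character has `|χ(g)| = χ(1)` exactly on the
centre.
-/

set_option autoImplicit false
open Cfsg Cfsg.Agent.Helper8
open scoped ComplexConjugate

universe u

namespace Cfsg.Agent.Helper74

/-- CEN -/
theorem s4504_central {H : Type u} [Group H] [Finite H] (χ : H → ℂ)
    (hχ : Cfsg.IsIrrCharacter H χ) (hfaith : ∀ g : H, χ g = χ 1 → g = 1) (g : H) :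
    (g ∈ Subgroup.center H → ‖χ g‖ = (Cfsg.charDegree χ : ℝ)) ∧
    (g ∉ Subgroup.center H → ‖χ g‖ < (Cfsg.charDegree χ : ℝ)) := by
  have hchar : Cfsg.IsCharacter H χ := by
    obtain ⟨n, ρ, -, h⟩ := hχ
    exact ⟨n, ρ, h⟩
  have h1 : χ 1 = (Cfsg.charDegree χ : ℂ) := Helper80.isCharacter_one_eq hchar
  constructor
  · intro hz
    have h2 := Helper15.normSq_char_center χ hχ hz
    rw [h1, Complex.normSq_eq_norm_sq, Complex.normSq_eq_norm_sq, Complex.norm_natCast] at h2
    have h3 : (0 : ℝ) ≤ ‖χ g‖ := norm_nonneg _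
    have h4 : (0 : ℝ) ≤ (Cfsg.charDegree χ : ℝ) := Nat.cast_nonneg _
    nlinarith [sq_nonneg (‖χ g‖ - (Cfsg.charDegree χ : ℝ)), sq_nonneg (‖χ g‖ + (Cfsg.charDegree χ : ℝ))]
  · intro hz
    have hle := Helper80.isCharacter_norm_le hchar g
    rcases lt_or_eq_of_le hle with hlt | heq
    · exact hlt
    · exfalso
      apply hz
      obtain ⟨n, ρ, hirr, rfl⟩ := hχ
      rw [Helper80.charDegree_rep_character] at heq
      have hfin : Module.finrank ℂ (Fin n → ℂ) = n := by simp
      obtain ⟨ω, hω⟩ := Helper3.rep_scalar_of_norm_eq ρ g (by rw [hfin]; exact heq)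
      rw [Subgroup.mem_center_iff]
      intro k
      have hcomm : ρ (g * k) = ρ (k * g) := by
        rw [map_mul, map_mul, hω]
        ext v
        simp
      have hone : ρ (g * k * (k * g)⁻¹) = 1 := by
        rw [map_mul, hcomm, ← map_mul, mul_inv_cancel, map_one]
      have hval : ρ.character (g * k * (k * g)⁻¹) = ρ.character 1 := by
        unfold Representation.character
        rw [hone, show ρ 1 = 1 from map_one ρ]
      have := hfaith _ hval
      have h5 : g * k = k * g := by
        have h6 : g * k * (k * g)⁻¹ * (k * g) = 1 * (k * g) := by rw [this]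
        rw [inv_mul_cancel_right, one_mul] at h6
        exact h6
      exact h5.symm
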