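import Mathlib
import Cfsg.Prelude.Def_GeometricClasses
import Cfsg.Prelude.Def_LieClassical
import Cfsg.Agent.Helper69.E4Def
import Cfsg.Agent.Helper69.E5Def
import Cfsg.Agent.Helper66.E4BASE1
import Cfsg.Agent.Helper66.E4UMULT3P
import Cfsg.Agent.Helper80.E4F7
import Cfsg.Agent.Helper81.E4TRACE5
import Cfsg.Agent.Helper73.E5RFACTS
import Cfsg.Agent.Helper83.E5NF2
import Cfsg.Agent.Helper61.E5LINK
import Cfsg.Agent.Helper14.E5TR3A
import Cfsg.Agent.Helper74.E5TR3B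

/-!
Piece NEG of CALL S6002 (helper69): facts on elements of odd prime order of the normaliser of
`2^{1+4}_-` in `GL_4(F)`, by transfer to the group `4 ∘ 2^{1+4}` over an extension field.
-/

set_option autoImplicit false

namespace Cfsg.Agent.Helper74

open Cfsg.Agent.Helper69
open scoped Matrix

section transfer

variable {F K : Type*} [Field F] [Field K] [Algebra F K]
  (D : Matrix (Fin 2 ⊕ Fin 2) (Fin 4) K) (Di : Matrix (Fin 4) (Fin 2 ⊕ Fin 2) K)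

/-- the transported matrix `Di * M^K * D` -/
def e5negT (M : Matrix (Fin 2 ⊕ Fin 2) (Fin 2 ⊕ Fin 2) F) : Matrix (Fin 4) (Fin 4) K :=
  Di * M.map (algebraMap F K) * D

theorem e5negT_mul (hD1 : D * Di = 1) (M N : Matrix (Fin 2 ⊕ Fin 2) (Fin 2 ⊕ Fin 2) F) :
    e5negT D Di (M * N) = e5negT D Di M * e5negT D Di N := by
  unfold e5negT
  rw [Matrix.map_mul]
  have h1 : Di * M.map (algebraMap F K) * D * (Di * N.map (algebraMap F K) * D) =
      Di * M.map (algebraMap F K) * (D * Di) * N.map (algebraMap F K) * D := by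
    simp only [Matrix.mul_assoc]
  rw [h1, hD1, Matrix.mul_one]
  simp only [Matrix.mul_assoc]

theorem e5negT_one (hD2 : Di * D = 1) :
    e5negT D Di (1 : Matrix (Fin 2 ⊕ Fin 2) (Fin 2 ⊕ Fin 2) F) = 1 := by
  unfold e5negT
  rw [Matrix.map_one _ (map_zero _) (map_one _), Matrix.mul_one, hD2]

/-- the transfer homomorphism -/
def e5negHom (hD1 : D * Di = 1) (hD2 : Di * D = 1) :
    GL (Fin 2 ⊕ Fin 2) F →* GL (Fin 4) K where
  toFun g := ⟨e5negT D Di (g : Matrix (Fin 2 ⊕ Fin 2) (Fin 2 ⊕ Fin 2) F),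
    e5negT D Di ((g⁻¹ : GL (Fin 2 ⊕ Fin 2) F) : Matrix (Fin 2 ⊕ Fin 2) (Fin 2 ⊕ Fin 2) F),
    by rw [← e5negT_mul D Di hD1, ← Units.val_mul, mul_inv_cancel, Units.val_one,
      e5negT_one D Di hD2],
    by rw [← e5negT_mul D Di hD1, ← Units.val_mul, inv_mul_cancel, Units.val_one,
      e5negT_one D Di hD2]⟩
  map_one' := Units.ext (by
    show e5negT D Di ((1 : GL (Fin 2 ⊕ Fin 2) F) : Matrix (Fin 2 ⊕ Fin 2) (Fin 2 ⊕ Fin 2) F) = 1
    rw [Units.val_one, e5negT_one D Di hD2])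
  map_mul' g h := Units.ext (by
    show e5negT D Di ((g * h : GL (Fin 2 ⊕ Fin 2) F) : Matrix (Fin 2 ⊕ Fin 2) (Fin 2 ⊕ Fin 2) F) =
      e5negT D Di (g : Matrix (Fin 2 ⊕ Fin 2) (Fin 2 ⊕ Fin 2) F) *
        e5negT D Di (h : Matrix (Fin 2 ⊕ Fin 2) (Fin 2 ⊕ Fin 2) F)
    rw [Units.val_mul, e5negT_mul D Di hD1])

theorem e5neg_scalar (hD1 : D * Di = 1) (M : Matrix (Fin 2 ⊕ Fin 2) (Fin 2 ⊕ Fin 2) F) (c : K)
    (h : e5negT D Di M = c • (1 : Matrix (Fin 4) (Fin 4) K)) :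
    ∃ c' : F, M = c' • (1 : Matrix (Fin 2 ⊕ Fin 2) (Fin 2 ⊕ Fin 2) F) := by
  have hinj : Function.Injective (algebraMap F K) := (algebraMap F K).injective
  have hM : M.map (algebraMap F K) = c • (1 : Matrix (Fin 2 ⊕ Fin 2) (Fin 2 ⊕ Fin 2) K) := by
    calc M.map (algebraMap F K) = (D * Di) * M.map (algebraMap F K) * (D * Di) := by
          rw [hD1, Matrix.one_mul, Matrix.mul_one]
      _ = D * (Di * M.map (algebraMap F K) * D) * Di := by simp only [Matrix.mul_assoc]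
      _ = D * (c • (1 : Matrix (Fin 4) (Fin 4) K)) * Di := by
          have := h
          unfold e5negT at this
          rw [this]
      _ = c • (1 : Matrix (Fin 2 ⊕ Fin 2) (Fin 2 ⊕ Fin 2) K) := by
          rw [Matrix.mul_smul, Matrix.smul_mul, Matrix.mul_one, hD1]
  have hent : ∀ i j, algebraMap F K (M i j) =
      c * (1 : Matrix (Fin 2 ⊕ Fin 2) (Fin 2 ⊕ Fin 2) K) i j := by
    intro i j
    have h1 := congrFun (congrFun hM i) j
    rw [Matrix.map_apply, Matrix.smul_apply, smul_eq_mul] at h1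
    exact h1
  refine ⟨M (Sum.inl 0) (Sum.inl 0), ?_⟩
  ext i j
  have hij := hent i j
  have h00 := hent (Sum.inl 0) (Sum.inl 0)
  rw [Matrix.one_apply_eq, mul_one] at h00
  by_cases hne : i = j
  · subst hne
    rw [Matrix.one_apply_eq, mul_one] at hij
    rw [Matrix.smul_apply, Matrix.one_apply_eq, smul_eq_mul, mul_one]
    exact hinj (hij.trans h00.symm)
  · rw [Matrix.one_apply_ne hne, mul_zero] at hij
    rw [Matrix.smul_apply, Matrix.one_apply_ne hne, smul_eq_mul, mul_zero]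
    exact hinj (by rw [map_zero]; exact hij)

theorem e5neg_trace (hD1 : D * Di = 1) (M : Matrix (Fin 2 ⊕ Fin 2) (Fin 2 ⊕ Fin 2) F) :
    (e5negT D Di M).trace = algebraMap F K M.trace := by
  unfold e5negT
  rw [Matrix.mul_assoc, Matrix.trace_mul_comm, Matrix.mul_assoc, hD1, Matrix.mul_one]
  simp [Matrix.trace]

end transfer

theorem e5neg_core {F K : Type*} [Field F] [Field K] [Algebra F K] (h2 : (2 : F) ≠ 0)
    (R : Subgroup (GL (Fin 2 ⊕ Fin 2) F)) (ι : K) (hι : ι ^ 2 = -1)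
    (D : Matrix (Fin 2 ⊕ Fin 2) (Fin 4) K) (Di : Matrix (Fin 4) (Fin 2 ⊕ Fin 2) K)
    (hD1 : D * Di = 1) (hD2 : Di * D = 1)
    (hfwd : ∀ g ∈ R, ∃ k b c d e : ℕ,
        Di * (g : Matrix (Fin 2 ⊕ Fin 2) (Fin 2 ⊕ Fin 2) F).map (algebraMap F K) * D =
          ι ^ k • e4Pauli K b c d e)
    (hbwd : ∀ k b c d e : ℕ, ∃ g ∈ R, ∃ k' : ℕ, ι ^ k • e4Pauli K b c d e =
        ι ^ k' • (Di * (g : Matrix (Fin 2 ⊕ Fin 2) (Fin 2 ⊕ Fin 2) F).map (algebraMap F K) * D))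
    (h3 : ∀ y ∈ Cfsg.Geo.subgroupNormalizer R, y ^ 3 = 1 →
      ∃ w ∈ R, (∀ c : F, (w : Matrix (Fin 2 ⊕ Fin 2) (Fin 2 ⊕ Fin 2) F) ≠ c • 1) ∧ y * w = w * y)
    (y : GL (Fin 2 ⊕ Fin 2) F) (hy : y ∈ Cfsg.Geo.subgroupNormalizer R) (r : ℕ) (hr : r.Prime)
    (hr2 : r ≠ 2) (hyr : y ^ r = 1)
    (hns : ∀ c : F, (y : Matrix (Fin 2 ⊕ Fin 2) (Fin 2 ⊕ Fin 2) F) ≠ c • 1) :
    (r = 3 ∨ r = 5) ∧
    (∀ (μ : F) (u w : Fin 2 ⊕ Fin 2 → F),
      (y : Matrix (Fin 2 ⊕ Fin 2) (Fin 2 ⊕ Fin 2) F) ≠ μ • 1 + Matrix.vecMulVec u w) ∧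
    (r = 3 → (y : Matrix (Fin 2 ⊕ Fin 2) (Fin 2 ⊕ Fin 2) F).trace *
      ((y⁻¹ : GL (Fin 2 ⊕ Fin 2) F) : Matrix (Fin 2 ⊕ Fin 2) (Fin 2 ⊕ Fin 2) F).trace = 4) ∧
    (r = 5 → (y : Matrix (Fin 2 ⊕ Fin 2) (Fin 2 ⊕ Fin 2) F).trace *
      ((y⁻¹ : GL (Fin 2 ⊕ Fin 2) F) : Matrix (Fin 2 ⊕ Fin 2) (Fin 2 ⊕ Fin 2) F).trace = 1) := by
  classical
  have hinj : Function.Injective (algebraMap F K) := (algebraMap F K).injective
  have h2K : (2 : K) ≠ 0 := by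
    intro h
    apply h2
    apply hinj
    rw [map_ofNat, map_zero]
    exact h
  obtain ⟨Φ, hΦ⟩ : ∃ Φ : GL (Fin 2 ⊕ Fin 2) F →* GL (Fin 4) K, Φ = e5negHom D Di hD1 hD2 :=
    ⟨_, rfl⟩
  have hΦval : ∀ g : GL (Fin 2 ⊕ Fin 2) F, ((Φ g : GL (Fin 4) K) : Matrix (Fin 4) (Fin 4) K) =
      e5negT D Di (g : Matrix (Fin 2 ⊕ Fin 2) (Fin 2 ⊕ Fin 2) F) := by
    intro g
    rw [hΦ]
    rfl
  have hconj : ∀ y' ∈ Cfsg.Geo.subgroupNormalizer R, ∀ e ∈ E4 ι, Φ y' * e * (Φ y')⁻¹ ∈ E4 ι := by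
    intro y' hy' e he
    obtain ⟨k, b, c, d, e', hee⟩ := (Helper66.e4_mem_iff ι hι e).mp he
    obtain ⟨g, hg, k', hgk⟩ := hbwd k b c d e'
    have hg' : y' * g * y'⁻¹ ∈ R := (Subgroup.mem_normalizer_iff.mp hy' g).mp hg
    obtain ⟨k'', b', c', d', e'', hfw⟩ := hfwd _ hg'
    rw [Helper66.e4_mem_iff ι hι]
    refine ⟨k' + k'', b', c', d', e'', ?_⟩
    have he2 : (e : Matrix (Fin 4) (Fin 4) K) =
        ι ^ k' • e5negT D Di (g : Matrix (Fin 2 ⊕ Fin 2) (Fin 2 ⊕ Fin 2) F) := by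
      rw [hee, hgk]
      rfl
    have hfw' : e5negT D Di ((y' * g * y'⁻¹ : GL (Fin 2 ⊕ Fin 2) F) :
        Matrix (Fin 2 ⊕ Fin 2) (Fin 2 ⊕ Fin 2) F) = ι ^ k'' • e4Pauli K b' c' d' e'' := hfw
    rw [Units.val_mul, Units.val_mul, ← map_inv, hΦval, hΦval, he2, Matrix.mul_smul,
      Matrix.smul_mul, ← e5negT_mul D Di hD1, ← e5negT_mul D Di hD1, ← Units.val_mul,
      ← Units.val_mul, hfw', smul_smul, pow_add]
  have hYN : Φ y ∈ Cfsg.Geo.subgroupNormalizer (E4 ι) := by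
    show Φ y ∈ Subgroup.normalizer ((E4 ι : Subgroup (GL (Fin 4) K)) : Set (GL (Fin 4) K))
    rw [Subgroup.mem_normalizer_iff]
    intro e
    constructor
    · exact hconj y hy e
    · intro he
      have hyi : y⁻¹ ∈ Cfsg.Geo.subgroupNormalizer R := Subgroup.inv_mem _ hy
      have h1 := hconj y⁻¹ hyi _ he
      rw [map_inv, inv_inv] at h1
      have h2' : (Φ y)⁻¹ * (Φ y * e * (Φ y)⁻¹) * Φ y = e := by group
      rw [h2'] at h1
      exact h1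
  have hYr : Φ y ^ r = 1 := by rw [← map_pow, hyr, map_one]
  have hYns : ∀ c : K, ((Φ y : GL (Fin 4) K) : Matrix (Fin 4) (Fin 4) K) ≠
      c • (1 : Matrix (Fin 4) (Fin 4) K) := by
    intro c hc
    rw [hΦval] at hc
    obtain ⟨c', hc'⟩ := e5neg_scalar D Di hD1 _ c hc
    exact hns c' hc'
  have htrY : ((Φ y : GL (Fin 4) K) : Matrix (Fin 4) (Fin 4) K).trace =
      algebraMap F K (y : Matrix (Fin 2 ⊕ Fin 2) (Fin 2 ⊕ Fin 2) F).trace := by
    rw [hΦval]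
    exact e5neg_trace D Di hD1 _
  have htrYi : (((Φ y)⁻¹ : GL (Fin 4) K) : Matrix (Fin 4) (Fin 4) K).trace =
      algebraMap F K
        ((y⁻¹ : GL (Fin 2 ⊕ Fin 2) F) : Matrix (Fin 2 ⊕ Fin 2) (Fin 2 ⊕ Fin 2) F).trace := by
    rw [← map_inv, hΦval]
    exact e5neg_trace D Di hD1 _
  refine ⟨?_, ?_, ?_, ?_⟩
  · by_contra hcon
    rw [not_or] at hcon
    have hr7 : 7 ≤ r := by
      have h2le := hr.two_le
      by_contra h7
      rw [not_le] at h7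
      interval_cases r
      · exact hr2 rfl
      · exact hcon.1 rfl
      · exact absurd hr (by decide)
      · exact hcon.2 rfl
      · exact absurd hr (by decide)
    obtain ⟨c, hc⟩ := Helper80.e4_normalizer_scalar h2K ι hι (Φ y) hYN r hr hr7 1
      (by rw [hYr, Units.val_one, one_smul])
    exact hYns c hc
  · intro μ u w hyμ
    by_cases hw0 : w = 0
    · apply hns μ
      rw [hyμ, hw0]
      ext i j
      simp
    obtain ⟨a, ha⟩ : ∃ a : Fin 4 → K, a = (fun i => algebraMap F K (w i)) ᵥ* D := ⟨_, rfl⟩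
    have ha0 : a ≠ 0 := by
      intro h0
      apply hw0
      have h1 : (fun i => algebraMap F K (w i)) ᵥ* (D * Di) = 0 := by
        rw [← Matrix.vecMul_vecMul, ← ha, h0, Matrix.zero_vecMul]
      rw [hD1, Matrix.vecMul_one] at h1
      funext i
      have h3' := congrFun h1 i
      exact hinj (by rw [Pi.zero_apply, map_zero]; exact h3')
    obtain ⟨c, hc⟩ := Helper66.e4_mult3' h2K ι hι (Φ y) hYN r (hr.odd_of_ne_two hr2) 1
      (by rw [← Units.val_pow_eq_pow_val, hYr, Units.val_one, one_smul]) a ha0 (algebraMap F K μ)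
      (by
        intro v hv
        rw [hΦval]
        unfold e5negT
        rw [hyμ]
        have hmap : (μ • (1 : Matrix (Fin 2 ⊕ Fin 2) (Fin 2 ⊕ Fin 2) F) +
            Matrix.vecMulVec u w).map (algebraMap F K) =
            algebraMap F K μ • (1 : Matrix (Fin 2 ⊕ Fin 2) (Fin 2 ⊕ Fin 2) K) +
              Matrix.vecMulVec (fun i => algebraMap F K (u i)) (fun i => algebraMap F K (w i)) := by
          ext i j
          rw [Matrix.map_apply, Matrix.add_apply, Matrix.add_apply, Matrix.smul_apply,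
            Matrix.smul_apply, Matrix.vecMulVec_apply, Matrix.vecMulVec_apply, map_add, map_mul,
            smul_eq_mul, smul_eq_mul, map_mul]
          by_cases hij : i = j
          · subst hij
            rw [Matrix.one_apply_eq, Matrix.one_apply_eq, map_one]
          · rw [Matrix.one_apply_ne hij, Matrix.one_apply_ne hij, map_zero]
        rw [hmap, ← Matrix.mulVec_mulVec, ← Matrix.mulVec_mulVec, Matrix.add_mulVec,
          Matrix.smul_mulVec, Matrix.one_mulVec, Matrix.vecMulVec_mulVec,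
          Matrix.dotProduct_mulVec, ← ha, hv]
        simp only [MulOpposite.op_zero, zero_smul, add_zero]
        rw [Matrix.mulVec_smul, Matrix.mulVec_mulVec, hD2, Matrix.one_mulVec])
    exact hYns c hc
  · intro h3r
    subst h3r
    obtain ⟨w, hw, hwns, hyw⟩ := h3 y hy hyr
    have hW : Φ w ∈ E4 ι := by
      rw [Helper66.e4_mem_iff ι hι]
      obtain ⟨k, b, c, d, e, h⟩ := hfwd w hw
      exact ⟨k, b, c, d, e, by rw [hΦval]; exact h⟩
    have hWns : ∀ c : K, ((Φ w : GL (Fin 4) K) : Matrix (Fin 4) (Fin 4) K) ≠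
        c • (1 : Matrix (Fin 4) (Fin 4) K) := by
      intro c hc
      rw [hΦval] at hc
      obtain ⟨c', hc'⟩ := e5neg_scalar D Di hD1 _ c hc
      exact hwns c' hc'
    have hYW : Φ y * Φ w = Φ w * Φ y := by rw [← map_mul, ← map_mul, hyw]
    have h4 := e4_trace_three h2K ι hι (Φ y) hYN hYr hYns (Φ w) hW hWns hYW
    rw [htrY, htrYi, ← map_mul] at h4
    apply hinj
    rw [h4, map_ofNat]
  · intro h5r
    subst h5r
    have h4 := Helper81.e4_trace_five h2K ι hι (Φ y) hYN hYr hYns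
    rw [htrY, htrYi, ← map_mul] at h4
    apply hinj
    rw [h4, map_one]

/-- PIECE NEG -/
theorem e5_normalizer_facts {F : Type*} [Field F] (h2 : (2 : F) ≠ 0)
    (R : Subgroup (GL (Fin 2 ⊕ Fin 2) F)) (hRs : Cfsg.Geo.IsSymplecticTypeGroup 2 R)
    (hRi : Cfsg.Geo.ActsAbsolutelyIrreducibly (Cfsg.Geo.matrixSet R))
    (hR5 : Nat.card R = 2 ^ 5) (hRZ : Nat.card (Subgroup.center R) = 2)
    (hRm : Cfsg.Geo.IsOfMinusType 2 R)
    (y : GL (Fin 2 ⊕ Fin 2) F) (hy : y ∈ Cfsg.Geo.subgroupNormalizer R) (r : ℕ) (hr : r.Prime)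
    (hr2 : r ≠ 2) (hyr : y ^ r = 1)
    (hns : ∀ c : F, (y : Matrix (Fin 2 ⊕ Fin 2) (Fin 2 ⊕ Fin 2) F) ≠ c • 1) :
    (r = 3 ∨ r = 5) ∧
    (∀ (μ : F) (u w : Fin 2 ⊕ Fin 2 → F),
      (y : Matrix (Fin 2 ⊕ Fin 2) (Fin 2 ⊕ Fin 2) F) ≠ μ • 1 + Matrix.vecMulVec u w) ∧
    (r = 3 → (y : Matrix (Fin 2 ⊕ Fin 2) (Fin 2 ⊕ Fin 2) F).trace *
      ((y⁻¹ : GL (Fin 2 ⊕ Fin 2) F) : Matrix (Fin 2 ⊕ Fin 2) (Fin 2 ⊕ Fin 2) F).trace = 4) ∧
    (r = 5 → (y : Matrix (Fin 2 ⊕ Fin 2) (Fin 2 ⊕ Fin 2) F).trace *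
      ((y⁻¹ : GL (Fin 2 ⊕ Fin 2) F) : Matrix (Fin 2 ⊕ Fin 2) (Fin 2 ⊕ Fin 2) F).trace = 1) := by
  obtain ⟨hsq, hcomm, hsc, hm1⟩ := Helper73.e5_rfacts h2 R hRs hRi hR5 hRZ
  obtain ⟨a, b, C, Ci, hab, hC1, hC2, hRmem⟩ := Helper83.e5_normal_form h2 R hRs hRi hR5 hRZ hRm
  obtain ⟨K, instK, instA, ι, D, Di, hι, hD1, hD2, hfwd, hbwd⟩ :=
    Helper61.e5_link h2 R a b hab C Ci hC1 hC2 hRmem
  have hZZ : e4Z2 F * e4Z2 F = 1 := Helper66.e4Z2_mul_self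
  have hss : (C * e4Z2 F * Ci) * (C * e4Z2 F * Ci) = 1 := by
    calc (C * e4Z2 F * Ci) * (C * e4Z2 F * Ci)
        = C * e4Z2 F * (Ci * C) * e4Z2 F * Ci := by simp only [Matrix.mul_assoc]
      _ = C * (e4Z2 F * e4Z2 F) * Ci := by rw [hC2, Matrix.mul_one, Matrix.mul_assoc C]
      _ = 1 := by rw [hZZ, Matrix.mul_one, hC1]
  have hback : Ci * (C * e4Z2 F * Ci) * C = e4Z2 F := by
    calc Ci * (C * e4Z2 F * Ci) * C = (Ci * C) * e4Z2 F * (Ci * C) := by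
          simp only [Matrix.mul_assoc]
      _ = e4Z2 F := by rw [hC2, Matrix.one_mul, Matrix.mul_one]
  obtain ⟨s, hsval⟩ : ∃ s : GL (Fin 2 ⊕ Fin 2) F,
      (s : Matrix (Fin 2 ⊕ Fin 2) (Fin 2 ⊕ Fin 2) F) = C * e4Z2 F * Ci :=
    ⟨⟨C * e4Z2 F * Ci, C * e4Z2 F * Ci, hss, hss⟩, rfl⟩
  have hsR : s ∈ R := by
    rw [hRmem]
    refine ⟨0, 0, 0, 0, 1, ?_⟩
    rw [hsval, hback]
    simp [e5W]
  have hs2 : (s : Matrix (Fin 2 ⊕ Fin 2) (Fin 2 ⊕ Fin 2) F) ^ 2 = 1 := by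
    rw [hsval, pow_two]
    exact hss
  have hsns : ∀ c : F, (s : Matrix (Fin 2 ⊕ Fin 2) (Fin 2 ⊕ Fin 2) F) ≠ c • 1 := by
    intro c hc
    rw [hsval] at hc
    have h1 : e4Z2 F = c • (1 : Matrix (Fin 4) (Fin 4) F) := by
      rw [← hback, hc, Matrix.mul_smul, Matrix.smul_mul, Matrix.mul_one, hC2]
    have h00 := congrFun (congrFun h1 0) 0
    have h11 := congrFun (congrFun h1 1) 1
    simp [e4Z2] at h00 h11
    apply h2
    linear_combination h00 - h11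
  exact @e5neg_core F K _ instK instA h2 R ι hι D Di hD1 hD2 hfwd hbwd
    (fun y' hy' hy3 =>
      Helper14.e5_order_three_fixed h2 R hsq hcomm hsc hm1 hRm s hsR hs2 hsns y' hy' hy3)
    y hy r hr hr2 hyr hns

end Cfsg.Agent.Helper74
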