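-- helper74: piece D1 of CALL S1083 (helper64): the group generated by the root elements is
-- transitive on the singular points of `x0^2 + x1 x2 + x3 x4`.
import Cfsg.Agent.Helper64.B2Defs

set_option autoImplicit false
open Matrix Cfsg Cfsg.Lie

namespace Cfsg.Agent.Helper74
open Cfsg.Agent.Helper64.B2

variable {F : Type*} [Field F]

/-- A singular vector with nonzero `e1`-coordinate is moved to a multiple of `e1`. -/
theorem b2_sing_trans_main (w : Fin 5 → F) (h1 : w 1 ≠ 0) (hQ : Q5 w = 0) :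
    ∃ x ∈ G5 F, (x : Matrix (Fin 5) (Fin 5) F) *ᵥ w = ![0, w 1, 0, 0, 0] := by
  refine ⟨xg 1 (w 0 / w 1) * xg 0 (w 4 / w 1) * xg 3 (w 3 / w 1),
    Subgroup.mul_mem _ (Subgroup.mul_mem _ (xg_mem_G5 _ _) (xg_mem_G5 _ _)) (xg_mem_G5 _ _), ?_⟩
  rw [Units.val_mul, Units.val_mul, xg_val, xg_val, xg_val, ← Matrix.mulVec_mulVec,
    ← Matrix.mulVec_mulVec, xm_mulVec_3, xm_mulVec_0, xm_mulVec_1]
  have hQ' : w 0 ^ 2 + w 1 * w 2 + w 3 * w 4 = 0 := hQ
  funext i
  fin_cases i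
  · simp
    field_simp
    ring
  · simp
  · simp
    field_simp
    linear_combination hQ'
  · simp
    field_simp
    ring
  · simp
    field_simp
    ring

/-- Every nonzero singular vector can be moved to one with nonzero `e1`-coordinate. -/
theorem b2_sing_trans_pre (u : Fin 5 → F) (hu : u ≠ 0) (hQ : Q5 u = 0) :
    ∃ y ∈ G5 F, ((y : Matrix (Fin 5) (Fin 5) F) *ᵥ u) 1 ≠ 0 := by
  by_cases h1 : u 1 = 0
  · by_cases h3 : u 3 = 0
    · by_cases h4 : u 4 = 0
      · have hQ' : u 0 ^ 2 + u 1 * u 2 + u 3 * u 4 = 0 := hQ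
        have h0 : u 0 = 0 := by
          rw [h1, h3] at hQ'
          simpa using hQ'
        have h2 : u 2 ≠ 0 := by
          intro h2
          apply hu
          funext i
          fin_cases i
          · exact h0
          · exact h1
          · exact h2
          · exact h3
          · exact h4
        refine ⟨xg 6 1, xg_mem_G5 _ _, ?_⟩
        rw [xg_val, xm_mulVec_6]
        simp [h0, h1, h2]
      · refine ⟨xg 7 (-1), xg_mem_G5 _ _, ?_⟩
        rw [xg_val, xm_mulVec_7]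
        simp [h1, h4]
    · refine ⟨xg 4 (-1), xg_mem_G5 _ _, ?_⟩
      rw [xg_val, xm_mulVec_4]
      simp [h1, h3]
  · refine ⟨1, Subgroup.one_mem _, ?_⟩
    rw [Units.val_one, Matrix.one_mulVec]
    exact h1

/-- Piece D1 of CALL S1083. -/
theorem b2_sing_trans (u : Fin 5 → F) (hu : u ≠ 0) (hQ : Q5 u = 0) :
    ∃ x ∈ G5 F, ∃ c : F, c ≠ 0 ∧ (x : Matrix (Fin 5) (Fin 5) F) *ᵥ u = ![0, c, 0, 0, 0] := by
  obtain ⟨y, hy, hy1⟩ := b2_sing_trans_pre u hu hQ
  have hQy : Q5 ((y : Matrix (Fin 5) (Fin 5) F) *ᵥ u) = 0 := by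
    rw [G5_le_O5 hy u, hQ]
  obtain ⟨x, hx, hxw⟩ := b2_sing_trans_main _ hy1 hQy
  refine ⟨x * y, Subgroup.mul_mem _ hx hy, _, hy1, ?_⟩
  rw [Units.val_mul, ← Matrix.mulVec_mulVec, hxw]

end Cfsg.Agent.Helper74
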