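import Mathlib
import Cfsg.Agent.Helper3.Taketa
import Cfsg.Agent.Helper3.IndFun
import Cfsg.Agent.Helper3.Induced
import Cfsg.Agent.Helper75.InnerLin
import Cfsg.Agent.Helper79.Quotient
import Cfsg.Agent.Helper79.Linear
import Cfsg.Agent.Helper79.Induced
import Cfsg.Agent.Helper80.CharNormal
import Cfsg.Agent.Helper80.CharSchur

/-!
# The Broline–Garrison theorem (Isaacs 12.19): the character-theoretic core

Let `χ ∈ Irr(G)` with kernel `K`, and let `H` be a maximal subgroup with `K H = G`. If `χ` does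
not vanish at some element of `H` one of whose conjugates is outside `H`, then there is
`ψ ∈ Irr(G)` with `ψ(1) > χ(1)` and `ker ψ < K`.
-/

set_option autoImplicit false

namespace Cfsg.Agent.Helper74

open Cfsg
open scoped ComplexConjugate Pointwise

universe u

/-- For an irreducible character `χ` and a normal subgroup `R`: either `R ≤ ker χ`, or the sums
of `χ` over all cosets of `R` vanish. -/
theorem bg_sum_coset {G : Type u} [Group G] [Finite G] (χ : IrrCharacter G) (R : Subgroup G)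
    [R.Normal] [Fintype R] :
    (∀ k ∈ R, (χ : G → ℂ) k = (χ : G → ℂ) 1) ∨
      (∀ g : G, ∑ k : R, (χ : G → ℂ) (g * k) = 0) := by
  obtain ⟨n, ρ, hρ, hχ⟩ := χ.2
  haveI := hρ
  obtain ⟨P, hP⟩ : ∃ P : Module.End ℂ (Fin n → ℂ), P = ∑ k : R, ρ (k : G) := ⟨_, rfl⟩
  have hT : ∀ g, P * ρ g = ρ g * P := by
    intro g
    rw [hP, Finset.sum_mul, Finset.mul_sum]
    rw [← Equiv.sum_comp (MulAut.conjNormal g : R ≃* R).toEquiv (fun k : R => ρ (k : G) * ρ g)]
    apply Finset.sum_congr rfl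
    intro k _
    rw [← map_mul, ← map_mul]
    congr 1
    simp
  obtain ⟨c, hc⟩ := Helper80.schur_scalar ρ P hT
  by_cases h0 : c = 0
  · right
    intro g
    have h1 : ∑ k : R, (χ : G → ℂ) (g * k) =
        LinearMap.trace ℂ (Fin n → ℂ) (ρ g * P) := by
      rw [hP, Finset.mul_sum, map_sum]
      apply Finset.sum_congr rfl
      intro k _
      rw [← hχ, ← map_mul]
      rfl
    rw [h1, hc, h0, zero_smul, mul_zero, map_zero]
  · left
    intro k hk
    have h1 : ρ k * P = P := by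
      rw [hP, Finset.mul_sum]
      rw [← Equiv.sum_comp (Equiv.mulLeft (⟨k, hk⟩ : R)) (fun k' : R => ρ (k' : G))]
      apply Finset.sum_congr rfl
      intro k' _
      rw [← map_mul]
      rfl
    rw [hc, mul_smul_comm, mul_one] at h1
    have h2 : ρ k = 1 := by
      have := congrArg (fun T : Module.End ℂ (Fin n → ℂ) => c⁻¹ • T) h1
      simp only [smul_smul, inv_mul_cancel₀ h0, one_smul] at this
      exact this
    rw [← hχ]
    show LinearMap.trace ℂ (Fin n → ℂ) (ρ k) = LinearMap.trace ℂ (Fin n → ℂ) (ρ 1)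
    rw [h2, map_one ρ]

/-- If `Ψ` is invariant under translation by the normal subgroup `R` and the irreducible character
`χ` is not orthogonal to `Ψ`, then `R ≤ ker χ`. -/
theorem bg_ker_constituent {H : Type u} [Group H] [Fintype H] (χ : IrrCharacter H) (Ψ : H → ℂ)
    (R : Subgroup H) [R.Normal] (hΨ : ∀ h : H, ∀ r ∈ R, Ψ (h * r) = Ψ h)
    (hne : classInner (χ : H → ℂ) Ψ ≠ 0) : ∀ r ∈ R, (χ : H → ℂ) r = (χ : H → ℂ) 1 := by
  classical
  letI : Fintype R := Fintype.ofFinite R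
  rcases bg_sum_coset χ R with h | h
  · exact h
  · exfalso
    apply hne
    unfold classInner
    have key : (Fintype.card R : ℂ) * ∑ g : H, (χ : H → ℂ) g * conj (Ψ g) = 0 := by
      have h1 : (Fintype.card R : ℂ) * ∑ g : H, (χ : H → ℂ) g * conj (Ψ g) =
          ∑ r : R, ∑ g : H, (χ : H → ℂ) (g * r) * conj (Ψ (g * r)) := by
        rw [← nsmul_eq_mul, ← Finset.card_univ, ← Finset.sum_const]
        apply Finset.sum_congr rfl
        intro r _
        exact (Equiv.sum_comp (Equiv.mulRight (r : H))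
          (fun g => (χ : H → ℂ) g * conj (Ψ g))).symm
      rw [h1, Finset.sum_comm]
      apply Finset.sum_eq_zero
      intro g _
      have h2 : ∀ r : R, (χ : H → ℂ) (g * r) * conj (Ψ (g * r)) =
          (χ : H → ℂ) (g * r) * conj (Ψ g) := fun r => by rw [hΨ g r r.2]
      rw [Finset.sum_congr rfl (fun r _ => h2 r), ← Finset.sum_mul, h g, zero_mul]
    have hR : (Fintype.card R : ℂ) ≠ 0 := by exact_mod_cast Fintype.card_ne_zero
    rw [(mul_eq_zero.mp key).resolve_left hR, mul_zero]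

/-- If `G = K H` with `K ≤ ker χ`, the restriction of the irreducible character `χ` to `H` is
irreducible. -/
theorem bg_restrict_irr {G : Type u} [Group G] [Finite G] (χ : IrrCharacter G) (K : Subgroup G)
    [K.Normal] (hK : ∀ k ∈ K, (χ : G → ℂ) k = (χ : G → ℂ) 1) (H : Subgroup G)
    (hKH : K ⊔ H = ⊤) : IsIrrCharacter ↥H (fun h : ↥H => (χ : G → ℂ) h) := by
  obtain ⟨ψ', hψ', hψχ⟩ := Helper79.exists_irr_deflation K χ.2 hK
  let f : ↥H →* G ⧸ K := (QuotientGroup.mk' K).comp H.subtype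
  have hf : Function.Surjective f := by
    intro q
    obtain ⟨g, rfl⟩ := QuotientGroup.mk_surjective q
    have hg : g ∈ ((K ⊔ H : Subgroup G) : Set G) := by
      rw [hKH]; exact Set.mem_univ _
    rw [Subgroup.normal_mul] at hg
    obtain ⟨k, hk, h, hh, rfl⟩ := Set.mem_mul.mp hg
    refine ⟨⟨h, hh⟩, ?_⟩
    show ((h : G) : G ⧸ K) = ((k * h : G) : G ⧸ K)
    rw [QuotientGroup.eq]
    have : h⁻¹ * (k * h) = h⁻¹ * k * h := by group
    rw [this]
    have h2 := (inferInstance : K.Normal).conj_mem k hk h⁻¹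
    rwa [inv_inv] at h2
  have h1 := Helper79.isIrrCharacter_comp f hf hψ'
  have h2 : (fun x : ↥H => ψ' (f x)) = fun h : ↥H => (χ : G → ℂ) h := by
    funext x
    exact hψχ (x : G)
  rw [h2] at h1
  exact h1

/-- The Broline–Garrison argument. -/
theorem bg_main {G : Type u} [Group G] [Finite G] (χ : IrrCharacter G) (K : Subgroup G)
    [K.Normal] (hK : ∀ g : G, g ∈ K ↔ (χ : G → ℂ) g = (χ : G → ℂ) 1)
    (H : Subgroup G) (hH : IsCoatom H) (hKH : K ⊔ H = ⊤)
    (h : ∃ h ∈ H, (χ : G → ℂ) h ≠ 0 ∧ ∃ x : G, x⁻¹ * h * x ∉ H) :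
    ∃ ψ : IrrCharacter G, charDegree (χ : G → ℂ) < charDegree (ψ : G → ℂ) ∧
      ∃ L : Subgroup G, (∀ g : G, g ∈ L ↔ (ψ : G → ℂ) g = (ψ : G → ℂ) 1) ∧ L < K := by
  classical
  letI : Fintype G := Fintype.ofFinite G
  letI : Fintype H := Fintype.ofFinite H
  letI : Fintype (IrrCharacter G) := Fintype.ofFinite _
  have hχc : IsCharacter G (χ : G → ℂ) := Helper80.isCharacter_of_irr χ.2
  have hχH : IsIrrCharacter ↥H (fun h : ↥H => (χ : G → ℂ) h) :=
    bg_restrict_irr χ K (fun k hk => (hK k).mp hk) H hKH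
  obtain ⟨χH, hχHdef⟩ : ∃ χH : IrrCharacter ↥H, χH = ⟨_, hχH⟩ := ⟨_, rfl⟩
  have hχHval : ∀ h : ↥H, (χH : ↥H → ℂ) h = (χ : G → ℂ) h := by
    intro h; rw [hχHdef]
  have hχHfun : (χH : ↥H → ℂ) = fun h : ↥H => (χ : G → ℂ) h := funext hχHval
  obtain ⟨Θ, hΘdef⟩ : ∃ Θ : G → ℂ, Θ = indFun H (fun h : ↥H => (χ : G → ℂ) h) := ⟨_, rfl⟩
  have hΘc : IsCharacter G Θ := by
    rw [hΘdef]
    exact Helper3.isCharacter_indFun H _ (Helper80.isCharacter_of_irr hχH)
  -- the formula for Θ
  have hform : ∀ g : G, Θ g = (χ : G → ℂ) g * ((Nat.card H : ℂ)⁻¹ *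
      ((Finset.univ.filter (fun x : G => x⁻¹ * g * x ∈ H)).card : ℂ)) := by
    intro g
    rw [hΘdef]
    unfold indFun
    have e2 : ∀ x : G, extendByZero H (fun h : ↥H => (χ : G → ℂ) h) (x⁻¹ * g * x)
        = if x⁻¹ * g * x ∈ H then (χ : G → ℂ) g else 0 := by
      intro x
      by_cases hx : x⁻¹ * g * x ∈ H
      · rw [if_pos hx, Helper3.extendByZero_of_mem H _ hx]
        have := Helper79.isCharacter_conj_eq hχc g x⁻¹
        rw [inv_inv] at this
        exact this
      · rw [if_neg hx, Helper3.extendByZero_of_not_mem H _ hx]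
    simp only [e2]
    rw [Finset.sum_ite, Finset.sum_const_zero, add_zero, Finset.sum_const, nsmul_eq_mul]
    ring
  -- Frobenius reciprocity
  have hfrob : ∀ ψ : IrrCharacter G, classInner Θ (ψ : G → ℂ) =
      classInner (χH : ↥H → ℂ) (fun h : ↥H => (ψ : G → ℂ) h) := by
    intro ψ
    rw [hΘdef, hχHfun]
    exact Helper3.frobenius_reciprocity H _ _
      (Helper75.isCharacter_isClassFunction' (Helper80.isCharacter_of_irr ψ.2))
  -- Step 1
  have step1 : ∃ ψ : IrrCharacter G,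
      classInner (χH : ↥H → ℂ) (fun h : ↥H => (ψ : G → ℂ) h) ≠ 0 ∧
        charDegree (χ : G → ℂ) < charDegree (ψ : G → ℂ) := by
    by_contra hcon
    push Not at hcon
    have hres : ∀ ψ : IrrCharacter G, classInner Θ (ψ : G → ℂ) ≠ 0 →
        ∀ h : ↥H, (ψ : G → ℂ) h = (χ : G → ℂ) h := by
      intro ψ hne h
      rw [hfrob ψ] at hne
      have hle := hcon ψ hne
      have hψH : IsCharacter ↥H (fun h : ↥H => (ψ : G → ℂ) h) :=
        Helper79.isCharacter_restrict (Helper80.isCharacter_of_irr ψ.2) H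
      have hne' : classInner (fun h : ↥H => (ψ : G → ℂ) h) (χH : ↥H → ℂ) ≠ 0 := by
        rw [Helper79.classInner_conj_symm]
        intro h0
        apply hne
        have := congrArg (starRingEnd ℂ) h0
        rwa [Complex.conj_conj, map_zero] at this
      have hdeg : charDegree (fun h : ↥H => (ψ : G → ℂ) h) ≤ charDegree (χH : ↥H → ℂ) := by
        have e1 : charDegree (fun h : ↥H => (ψ : G → ℂ) h) = charDegree (ψ : G → ℂ) := rfl
        have e2 : charDegree (χH : ↥H → ℂ) = charDegree (χ : G → ℂ) := by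
          rw [hχHfun]; rfl
        rw [e1, e2]
        exact hle
      have heq := Helper75.eq_irr_of_constituent_of_le hψH χH hne' hdeg
      have := congrFun heq h
      rw [hχHval] at this
      exact this
    have hsum := Helper75.character_eq_sum_irr hΘc
    have hΘH : ∀ h : ↥H, Θ h = (∑ ψ : IrrCharacter G, classInner Θ (ψ : G → ℂ)) *
        (χ : G → ℂ) h := by
      intro h
      conv_lhs => rw [hsum]
      rw [Finset.sum_apply, Finset.sum_mul]
      apply Finset.sum_congr rfl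
      intro ψ _
      rw [Pi.smul_apply, smul_eq_mul]
      by_cases h0 : classInner Θ (ψ : G → ℂ) = 0
      · rw [h0, zero_mul, zero_mul]
      · rw [hres ψ h0 h]
    have h1 := hΘH 1
    have hΘ1 : Θ 1 = (H.index : ℂ) * (χ : G → ℂ) 1 := by
      rw [hΘdef]
      exact Helper3.indFun_apply_one H _
    have hχ1 : (χ : G → ℂ) 1 ≠ 0 := Helper80.irr_one_ne_zero χ
    have hc : (∑ ψ : IrrCharacter G, classInner Θ (ψ : G → ℂ)) = (H.index : ℂ) := by
      have h2 : (χ : G → ℂ) ((1 : ↥H) : G) = (χ : G → ℂ) 1 := rfl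
      have h3 : Θ ((1 : ↥H) : G) = Θ 1 := rfl
      rw [h2, h3, hΘ1] at h1
      exact (mul_right_cancel₀ hχ1 h1).symm
    obtain ⟨h₀, hh₀, hχh₀, x₀, hx₀⟩ := h
    have h4 := hΘH ⟨h₀, hh₀⟩
    rw [hc] at h4
    have h5 : Θ h₀ = (H.index : ℂ) * (χ : G → ℂ) h₀ := h4
    rw [hform h₀, mul_comm] at h5
    have h6 := mul_right_cancel₀ hχh₀ h5
    have hHne : (Nat.card H : ℂ) ≠ 0 := by exact_mod_cast Nat.card_pos.ne'
    have h7 : ((Finset.univ.filter (fun x : G => x⁻¹ * h₀ * x ∈ H)).card : ℂ) =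
        ((Fintype.card G : ℕ) : ℂ) := by
      have h8 : ((Finset.univ.filter (fun x : G => x⁻¹ * h₀ * x ∈ H)).card : ℂ) =
          (Nat.card H : ℂ) * (H.index : ℂ) := by
        rw [← h6, ← mul_assoc, mul_inv_cancel₀ hHne, one_mul]
      rw [h8, ← Nat.card_eq_fintype_card, ← Subgroup.card_mul_index H]
      push_cast
      ring
    have h9 : (Finset.univ.filter (fun x : G => x⁻¹ * h₀ * x ∈ H)).card = Fintype.card G := by
      exact_mod_cast h7
    have h10 : Finset.univ.filter (fun x : G => x⁻¹ * h₀ * x ∈ H) = Finset.univ :=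
      Finset.eq_univ_of_card _ h9
    have h11 : x₀ ∈ Finset.univ.filter (fun x : G => x⁻¹ * h₀ * x ∈ H) := by
      rw [h10]; exact Finset.mem_univ _
    exact hx₀ (Finset.mem_filter.mp h11).2
  -- Step 2
  obtain ⟨ψ, hne, hdeg⟩ := step1
  refine ⟨ψ, hdeg, ?_⟩
  have hψc : IsCharacter G (ψ : G → ℂ) := Helper80.isCharacter_of_irr ψ.2
  obtain ⟨L, hLdef⟩ : ∃ L : Subgroup G, L = Helper79.charKer hψc := ⟨_, rfl⟩
  have hLmem : ∀ g : G, g ∈ L ↔ (ψ : G → ℂ) g = (ψ : G → ℂ) 1 := by
    intro g; rw [hLdef]; exact Helper79.mem_charKer hψc g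
  haveI hLn : L.Normal := by rw [hLdef]; exact Helper79.charKer_normal hψc
  refine ⟨L, hLmem, ?_⟩
  have hLH : L ≤ H := by
    by_contra hcon
    have hlt : H < L ⊔ H := lt_of_le_of_ne le_sup_right (fun heq => hcon (by
      rw [heq]; exact le_sup_left))
    have htop : L ⊔ H = ⊤ := hH.2 _ hlt
    have hψH : IsIrrCharacter ↥H (fun h : ↥H => (ψ : G → ℂ) h) :=
      bg_restrict_irr ψ L (fun k hk => (hLmem k).mp hk) H htop
    have heq : (χH : ↥H → ℂ) = fun h : ↥H => (ψ : G → ℂ) h := by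
      by_contra hneq
      exact hne (Helper75.classInner_irr_of_ne χH.2 hψH hneq)
    have h1 := congrFun heq 1
    rw [hχHval] at h1
    have h2 : charDegree (χ : G → ℂ) = charDegree (ψ : G → ℂ) := by
      unfold charDegree
      have e1 : (χ : G → ℂ) ((1 : ↥H) : G) = (χ : G → ℂ) 1 := rfl
      have e2 : (ψ : G → ℂ) ((1 : ↥H) : G) = (ψ : G → ℂ) 1 := rfl
      rw [← e1, ← e2, h1]
    omega
  have hLK : L ≤ K := by
    intro r hr
    have hrH : r ∈ H := hLH hr
    have h1 := bg_ker_constituent χH (fun h : ↥H => (ψ : G → ℂ) h) (L.subgroupOf H)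
      (fun h r' hr' => by
        rw [Subgroup.mem_subgroupOf] at hr'
        exact Helper79.isCharacter_mul_of_ker hψc ((hLmem _).mp hr') (h : G))
      hne ⟨r, hrH⟩ (by rw [Subgroup.mem_subgroupOf]; exact hr)
    rw [hχHval, hχHval] at h1
    exact (hK r).mpr h1
  refine lt_of_le_of_ne hLK ?_
  intro heq
  have hKH' : K ≤ H := by rw [← heq]; exact hLH
  have : K ⊔ H = H := sup_eq_right.mpr hKH'
  rw [this] at hKH
  exact hH.1 hKH

end Cfsg.Agent.Helper74
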