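import Mathlib
import Cfsg.Prelude.Def_OddOrderLocal

/-! CALL BG17 (helper25), piece KH. -/

set_option autoImplicit false

namespace Cfsg.Agent.Helper74

open Cfsg Subgroup

universe u

variable {G : Type u} [Group G] [Finite G]

/-- KH (pure). A Hall `κ(M)`-subgroup has order prime to its index in `M`. -/
theorem bg17_K_hall {M K : Subgroup G} (hK : IsPiHallOf (kappa M) K M) :
    (Nat.card K).Coprime (K.relIndex M) :=
  Nat.coprime_of_dvd (fun p hp h1 h2 => hK.2.2 p hp (hK.2.1 p hp h1) h2)

end Cfsg.Agent.Helper74
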