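import Mathlib
import Cfsg.Agent.Helper74.BG1
import Cfsg.Prelude.Def_Solvable

/-!
# The Broline–Garrison theorem (Isaacs 12.19): the group-theoretic cases
-/

set_option autoImplicit false

namespace Cfsg.Agent.Helper74

open Cfsg
open scoped ComplexConjugate Pointwise commutatorElement

universe u

/-- Frattini argument for a normal subgroup `M ≤ K` containing a Sylow subgroup of `K`. -/
theorem bg_frattini {G : Type u} [Group G] [Finite G] (K M : Subgroup G) [K.Normal] [M.Normal]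
    (hMK : M ≤ K) {p : ℕ} [Fact p.Prime] (P : Sylow p ↥K)
    (hPM : (P : Subgroup ↥K).map K.subtype ≤ M) :
    Subgroup.normalizer (((P : Subgroup ↥K).map K.subtype : Subgroup G) : Set G) ⊔ M = ⊤ := by
  obtain ⟨P', hP'def⟩ : ∃ P' : Subgroup G, P' = (P : Subgroup ↥K).map K.subtype := ⟨_, rfl⟩
  rw [← hP'def] at hPM ⊢
  have hP'p : IsPGroup p ↥P' := by rw [hP'def]; exact P.isPGroup'.map K.subtype
  have h1 : IsPGroup p ↥(P'.subgroupOf M) := hP'p.comap_subtype
  obtain ⟨Q, hQ⟩ := h1.exists_le_sylow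
  have h2 : (Q : Subgroup ↥M).map M.subtype = P' := by
    have hQp : IsPGroup p ↥((Q : Subgroup ↥M).map M.subtype) := Q.isPGroup'.map M.subtype
    have hQK : (Q : Subgroup ↥M).map M.subtype ≤ K := (Subgroup.map_subtype_le _).trans hMK
    have hPle : P' ≤ (Q : Subgroup ↥M).map M.subtype := by
      intro x hx
      have hxM : (⟨x, hPM hx⟩ : ↥M) ∈ P'.subgroupOf M := by
        rw [Subgroup.mem_subgroupOf]; exact hx
      exact ⟨⟨x, hPM hx⟩, hQ hxM, rfl⟩
    have h3 : IsPGroup p ↥(((Q : Subgroup ↥M).map M.subtype).subgroupOf K) := hQp.comap_subtype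
    have h4 : (P : Subgroup ↥K) ≤ ((Q : Subgroup ↥M).map M.subtype).subgroupOf K := by
      intro y hy
      rw [Subgroup.mem_subgroupOf]
      apply hPle
      rw [hP'def]
      exact ⟨y, hy, rfl⟩
    have h5 := P.is_maximal' h3 h4
    apply le_antisymm
    · intro x hx
      have hxK : x ∈ K := hQK hx
      have hmem : (⟨x, hxK⟩ : ↥K) ∈ ((Q : Subgroup ↥M).map M.subtype).subgroupOf K := by
        rw [Subgroup.mem_subgroupOf]; exact hx
      rw [h5] at hmem
      rw [hP'def]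
      exact ⟨⟨x, hxK⟩, hmem, rfl⟩
    · exact hPle
  have h6 := Sylow.normalizer_sup_eq_top Q
  rw [h2] at h6
  exact h6

/-- Broline–Garrison, first case: the kernel is not nilpotent. -/
theorem bg_case_a {G : Type u} [Group G] [Finite G] (χ : IrrCharacter G) (K : Subgroup G)
    [K.Normal] (hK : ∀ g : G, g ∈ K ↔ (χ : G → ℂ) g = (χ : G → ℂ) 1)
    (h : ¬ K ≤ fittingSubgroup G) :
    ∃ ψ : IrrCharacter G, charDegree (χ : G → ℂ) < charDegree (ψ : G → ℂ) ∧
      ∃ L : Subgroup G, (∀ g : G, g ∈ L ↔ (ψ : G → ℂ) g = (ψ : G → ℂ) 1) ∧ L < K := by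
  classical
  have hex : ∃ (p : ℕ) (_ : Fact p.Prime) (P : Sylow p ↥K),
      ¬ ((P : Subgroup ↥K).map K.subtype).Normal := by
    by_contra hcon
    push Not at hcon
    apply h
    have hS : (fittingSubgroup G).subgroupOf K = ⊤ := by
      apply Subgroup.eq_top_of_card_eq
      apply Nat.dvd_antisymm (Subgroup.card_subgroup_dvd_card _)
      rw [← Nat.factorization_prime_le_iff_dvd Nat.card_pos.ne' Nat.card_pos.ne']
      intro p hp
      haveI : Fact p.Prime := ⟨hp⟩
      obtain ⟨P⟩ : Nonempty (Sylow p ↥K) := inferInstance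
      have hPn := hcon p ⟨hp⟩ P
      have hPle : (P : Subgroup ↥K) ≤ (fittingSubgroup G).subgroupOf K := by
        intro y hy
        rw [Subgroup.mem_subgroupOf]
        have hnil : Group.IsNilpotent ↥((P : Subgroup ↥K).map K.subtype) :=
          (P.isPGroup'.map K.subtype).isNilpotent
        have hle : (P : Subgroup ↥K).map K.subtype ≤ fittingSubgroup G := le_sSup ⟨hPn, hnil⟩
        exact hle ⟨y, hy, rfl⟩
      have hdvd := Subgroup.card_dvd_of_le hPle
      rw [P.card_eq_multiplicity] at hdvd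
      exact (Nat.Prime.pow_dvd_iff_le_factorization hp Nat.card_pos.ne').mp hdvd
    intro k hk
    have hmem : (⟨k, hk⟩ : ↥K) ∈ (fittingSubgroup G).subgroupOf K := by
      rw [hS]; exact Subgroup.mem_top _
    exact Subgroup.mem_subgroupOf.mp hmem
  obtain ⟨p, hp, P, hPn⟩ := hex
  haveI := hp
  obtain ⟨P', hP'def⟩ : ∃ P' : Subgroup G, P' = (P : Subgroup ↥K).map K.subtype := ⟨_, rfl⟩
  rw [← hP'def] at hPn
  have hP'K : P' ≤ K := by rw [hP'def]; exact Subgroup.map_subtype_le _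
  have hNtop : Subgroup.normalizer (P' : Set G) ≠ ⊤ := fun h =>
    hPn (Subgroup.normalizer_eq_top_iff.mp h)
  obtain ⟨H, hH, hNH⟩ :=
    (eq_top_or_exists_le_coatom (Subgroup.normalizer (P' : Set G))).resolve_left hNtop
  have hfr := bg_frattini K K le_rfl P (by rw [← hP'def]; exact hP'K)
  rw [← hP'def] at hfr
  have hKH : K ⊔ H = ⊤ := by
    rw [eq_top_iff, ← hfr]
    exact sup_le (hNH.trans le_sup_right) le_sup_left
  apply bg_main χ K hK H hH hKH
  by_contra hcon
  push Not at hcon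
  have hP'H : P' ≤ H := Subgroup.le_normalizer.trans hNH
  have hM : P' ≤ K ⊓ H.normalCore := by
    intro z hz
    refine ⟨hP'K hz, ?_⟩
    intro b
    have h1 : (χ : G → ℂ) z ≠ 0 := by
      rw [(hK z).mp (hP'K hz)]; exact Helper80.irr_one_ne_zero χ
    have := hcon z (hP'H hz) h1 b⁻¹
    rwa [inv_inv] at this
  have hfr2 := bg_frattini K (K ⊓ H.normalCore) inf_le_left P (by rw [← hP'def]; exact hM)
  rw [← hP'def] at hfr2
  have htop : (⊤ : Subgroup G) ≤ H := by
    rw [← hfr2]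
    exact sup_le hNH (inf_le_right.trans (Subgroup.normalCore_le H))
  exact hH.1 (eq_top_iff.mpr htop)

/-- Broline–Garrison, second case: the kernel is the Fitting subgroup and the quotient is a
nontrivial solvable group. -/
theorem bg_case_b {G : Type u} [Group G] [Finite G] (χ : IrrCharacter G) (K : Subgroup G)
    [hKn : K.Normal] (hK : ∀ g : G, g ∈ K ↔ (χ : G → ℂ) g = (χ : G → ℂ) 1)
    (hKF : K = fittingSubgroup G) (hsolv : Group.IsSolvable (G ⧸ K)) (hKtop : K ≠ ⊤) :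
    ∃ ψ : IrrCharacter G, charDegree (χ : G → ℂ) < charDegree (ψ : G → ℂ) ∧
      ∃ L : Subgroup G, (∀ g : G, g ∈ L ↔ (ψ : G → ℂ) g = (ψ : G → ℂ) 1) ∧ L < K := by
  classical
  have hχc : IsCharacter G (χ : G → ℂ) := Helper80.isCharacter_of_irr χ.2
  -- (1) a minimal normal subgroup over K
  obtain ⟨E, -, hEmin⟩ := Finite.exists_le_minimal
    (p := fun M : Subgroup G => M.Normal ∧ K < M) (a := ⊤)
    ⟨inferInstance, lt_top_iff_ne_top.mpr hKtop⟩
  obtain ⟨⟨hEn, hKE⟩, hEmin'⟩ := hEmin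
  haveI := hEn
  have hmin : ∀ M : Subgroup G, M.Normal → K < M → M ≤ E → M = E := fun M hMn hKM hME =>
    le_antisymm hME (hEmin' ⟨hMn, hKM⟩ hME)
  -- (2) E/K is abelian
  have hab : ⁅E, E⁆ ≤ K := by
    obtain ⟨D, hDdef⟩ : ∃ D : Subgroup G, D = ⁅E, E⁆ ⊔ K := ⟨_, rfl⟩
    haveI hDn : D.Normal := by rw [hDdef]; infer_instance
    have hKD : K ≤ D := by rw [hDdef]; exact le_sup_right
    have hDE : D ≤ E := by
      rw [hDdef]; exact sup_le (Subgroup.commutator_le_left E E) hKE.le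
    by_cases hD : K < D
    · exfalso
      have hDeq := hmin D hDn hD hDE
      obtain ⟨Eb, hEbdef⟩ : ∃ Eb : Subgroup (G ⧸ K), Eb = E.map (QuotientGroup.mk' K) :=
        ⟨_, rfl⟩
      have hKbot : K.map (QuotientGroup.mk' K) = ⊥ := by
        rw [Subgroup.map_eq_bot_iff, QuotientGroup.ker_mk']
      have hperf : ⁅Eb, Eb⁆ = Eb := by
        have h1 : D.map (QuotientGroup.mk' K) = Eb := by rw [hDeq, hEbdef]
        rw [hDdef, Subgroup.map_sup, Subgroup.map_commutator, hKbot, sup_bot_eq, ← hEbdef] at h1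
        exact h1
      have hall : ∀ n : ℕ, Eb ≤ derivedSeries (G ⧸ K) n := by
        intro n
        induction n with
        | zero => rw [derivedSeries_zero]; exact le_top
        | succ n ih =>
          rw [derivedSeries_succ, ← hperf]
          exact Subgroup.commutator_mono ih ih
      obtain ⟨n, hn⟩ := hsolv.solvable
      have h2 := hall n
      rw [hn, le_bot_iff, hEbdef, Subgroup.map_eq_bot_iff, QuotientGroup.ker_mk'] at h2
      exact (not_le_of_gt hKE) h2
    · have hDK : D = K := (eq_of_le_of_not_lt hKD hD).symm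
      rw [← hDK, hDdef]
      exact le_sup_left
  have hcommQ : ∀ x ∈ E, ∀ y ∈ E, (x : G ⧸ K) * (y : G ⧸ K) = (y : G ⧸ K) * (x : G ⧸ K) := by
    intro x hx y hy
    rw [← QuotientGroup.mk_mul, ← QuotientGroup.mk_mul, QuotientGroup.eq]
    have h1 : (x * y)⁻¹ * (y * x) = ⁅y⁻¹, x⁻¹⁆ := by
      rw [commutatorElement_def]; group
    rw [h1]
    exact hab (Subgroup.commutator_mem_commutator (E.inv_mem hy) (E.inv_mem hx))
  -- (3) a prime q with E/K of exponent q
  have hrel1 : K.relIndex E ≠ 1 := fun h1 => (not_le_of_gt hKE) (Subgroup.relIndex_eq_one.mp h1)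
  obtain ⟨q, hqdef⟩ : ∃ q : ℕ, q = (K.relIndex E).minFac := ⟨_, rfl⟩
  have hq : q.Prime := by rw [hqdef]; exact Nat.minFac_prime hrel1
  haveI : Fact q.Prime := ⟨hq⟩
  have hqdvd : q ∣ K.relIndex E := by rw [hqdef]; exact Nat.minFac_dvd _
  have hcardQ : Nat.card (↥E ⧸ K.subgroupOf E) = K.relIndex E := by
    rw [← Subgroup.index_eq_card]; rfl
  obtain ⟨xb, hxb⟩ := exists_prime_orderOf_dvd_card' (G := ↥E ⧸ K.subgroupOf E) q
    (by rw [hcardQ]; exact hqdvd)
  obtain ⟨x, rfl⟩ := QuotientGroup.mk_surjective xb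
  have hxK : (x : G) ∉ K := by
    intro hx
    have h1 : ((x : ↥E) : ↥E ⧸ K.subgroupOf E) = 1 :=
      (QuotientGroup.eq_one_iff x).mpr (Subgroup.mem_subgroupOf.mpr hx)
    rw [h1, orderOf_one] at hxb
    exact hq.one_lt.ne hxb
  have hxq : (x : G) ^ q ∈ K := by
    have h1 : ((x : ↥E) : ↥E ⧸ K.subgroupOf E) ^ q = 1 := by
      rw [← hxb]; exact pow_orderOf_eq_one _
    rw [← QuotientGroup.mk_pow, QuotientGroup.eq_one_iff, Subgroup.mem_subgroupOf] at h1
    exact h1
  let E₁ : Subgroup G :=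
    { carrier := {y | y ∈ E ∧ y ^ q ∈ K}
      mul_mem' := by
        rintro a b ⟨ha, ha'⟩ ⟨hb, hb'⟩
        refine ⟨E.mul_mem ha hb, ?_⟩
        rw [← QuotientGroup.eq_one_iff, QuotientGroup.mk_pow, QuotientGroup.mk_mul,
          (show Commute (a : G ⧸ K) (b : G ⧸ K) from hcommQ a ha b hb).mul_pow,
          ← QuotientGroup.mk_pow, ← QuotientGroup.mk_pow,
          (QuotientGroup.eq_one_iff _).mpr ha', (QuotientGroup.eq_one_iff _).mpr hb', one_mul]
      one_mem' := ⟨E.one_mem, by rw [one_pow]; exact K.one_mem⟩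
      inv_mem' := by
        rintro a ⟨ha, ha'⟩
        exact ⟨E.inv_mem ha, by rw [inv_pow]; exact K.inv_mem ha'⟩ }
  have hE₁mem : ∀ y : G, y ∈ E₁ ↔ y ∈ E ∧ y ^ q ∈ K := fun y => Iff.rfl
  have hE₁n : E₁.Normal := ⟨fun y hy g => by
    rw [hE₁mem] at hy ⊢
    exact ⟨hEn.conj_mem y hy.1 g, by rw [conj_pow]; exact hKn.conj_mem _ hy.2 g⟩⟩
  have hKE₁ : K < E₁ := by
    refine lt_of_le_of_ne (fun k hk => ⟨hKE.le hk, K.pow_mem hk q⟩) ?_
    intro heq
    apply hxK
    rw [heq]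
    exact ⟨x.2, hxq⟩
  have hE₁E : E₁ = E := hmin E₁ hE₁n hKE₁ (fun y hy => hy.1)
  have hexp : ∀ y ∈ E, y ^ q ∈ K := by
    intro y hy
    have : y ∈ E₁ := by rw [hE₁E]; exact hy
    exact this.2
  have hqgrp : IsPGroup q (↥E ⧸ K.subgroupOf E) := by
    intro g
    obtain ⟨y, rfl⟩ := QuotientGroup.mk_surjective g
    refine ⟨1, ?_⟩
    rw [pow_one, ← QuotientGroup.mk_pow, QuotientGroup.eq_one_iff, Subgroup.mem_subgroupOf]
    exact hexp y y.2
  obtain ⟨m, hm⟩ := IsPGroup.iff_card.mp hqgrp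
  rw [hcardQ] at hm
  -- (4) a Sylow q-subgroup of E
  obtain ⟨Q⟩ : Nonempty (Sylow q ↥E) := inferInstance
  obtain ⟨Q', hQ'def⟩ : ∃ Q' : Subgroup G, Q' = (Q : Subgroup ↥E).map E.subtype := ⟨_, rfl⟩
  have hQ'E : Q' ≤ E := by rw [hQ'def]; exact Subgroup.map_subtype_le _
  have hQ'rel : Q'.relIndex E = (Q : Subgroup ↥E).index := by
    have h1 : Q'.subgroupOf E = (Q : Subgroup ↥E) := by
      ext y
      rw [Subgroup.mem_subgroupOf, hQ'def]
      constructor
      · rintro ⟨z, hz, hzy⟩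
        have : z = y := Subtype.ext hzy
        rw [← this]; exact hz
      · intro hy
        exact ⟨y, hy, rfl⟩
    unfold Subgroup.relIndex
    rw [h1]
  have hsupQ : K ⊔ Q' = E := by
    apply le_antisymm (sup_le hKE.le hQ'E)
    rw [← Subgroup.relIndex_eq_one]
    have h1 : (K ⊔ Q').relIndex E ∣ K.relIndex E := Subgroup.relIndex_dvd_of_le_left E le_sup_left
    have h2 : (K ⊔ Q').relIndex E ∣ Q'.relIndex E := Subgroup.relIndex_dvd_of_le_left E le_sup_right
    rw [hm] at h1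
    rw [hQ'rel] at h2
    obtain ⟨j, -, hj⟩ := (Nat.dvd_prime_pow hq).mp h1
    rw [hj] at h2 ⊢
    rcases Nat.eq_zero_or_pos j with h0 | h0
    · rw [h0, pow_zero]
    · exfalso
      exact Q.not_dvd_index ((dvd_pow_self q h0.ne').trans h2)
  -- (5) Q' is not normal
  have hQ'n : ¬ Q'.Normal := by
    intro hn
    have hnil : Group.IsNilpotent ↥Q' := by
      rw [hQ'def]; exact (Q.isPGroup'.map E.subtype).isNilpotent
    have hle : Q' ≤ fittingSubgroup G := le_sSup ⟨hn, hnil⟩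
    rw [← hKF] at hle
    have : K ⊔ Q' = K := sup_eq_left.mpr hle
    rw [this] at hsupQ
    exact (ne_of_lt hKE) hsupQ
  -- (6) the maximal subgroup
  have hNtop : Subgroup.normalizer (Q' : Set G) ≠ ⊤ := fun h =>
    hQ'n (Subgroup.normalizer_eq_top_iff.mp h)
  obtain ⟨H, hH, hNH⟩ :=
    (eq_top_or_exists_le_coatom (Subgroup.normalizer (Q' : Set G))).resolve_left hNtop
  have hQ'H : Q' ≤ H := Subgroup.le_normalizer.trans hNH
  have hfr := bg_frattini E E le_rfl Q (by rw [← hQ'def]; exact hQ'E)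
  rw [← hQ'def] at hfr
  have hKH : K ⊔ H = ⊤ := by
    rw [eq_top_iff, ← hfr, ← hsupQ]
    exact sup_le (hNH.trans le_sup_right) (sup_le le_sup_left (hQ'H.trans le_sup_right))
  apply bg_main χ K hK H hH hKH
  by_contra hcon
  push Not at hcon
  -- (i) an element of Q' outside K at which χ does not vanish
  have hexx : ∃ x ∈ E, x ∉ K ∧ (χ : G → ℂ) x ≠ 0 := by
    by_contra hvan
    push Not at hvan
    letI : Fintype ↥E := Fintype.ofFinite _
    rcases Helper80.irr_sum_normal χ E with h0 | h1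
    · have h2 : ∑ e : ↥E, (χ : G → ℂ) (e : G) =
          ∑ e : ↥E, if (e : G) ∈ K then (χ : G → ℂ) 1 else 0 := by
        apply Finset.sum_congr rfl
        intro e _
        by_cases he : (e : G) ∈ K
        · rw [if_pos he]; exact (hK _).mp he
        · rw [if_neg he]; exact hvan e e.2 he
      rw [h2, Finset.sum_ite, Finset.sum_const_zero, add_zero, Finset.sum_const,
        nsmul_eq_mul] at h0
      rcases mul_eq_zero.mp h0 with h3 | h3
      · have h4 : (Finset.univ.filter (fun e : ↥E => (e : G) ∈ K)).card = 0 := by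
          exact_mod_cast h3
        rw [Finset.card_eq_zero] at h4
        have h5 : (1 : ↥E) ∈ Finset.univ.filter (fun e : ↥E => (e : G) ∈ K) :=
          Finset.mem_filter.mpr ⟨Finset.mem_univ _, K.one_mem⟩
        rw [h4] at h5
        exact absurd h5 (Finset.notMem_empty _)
      · exact Helper80.irr_one_ne_zero χ h3
    · exact (not_le_of_gt hKE) (fun e he => (hK e).mpr (h1 e he))
  obtain ⟨x₁, hx₁E, hx₁K, hx₁χ⟩ := hexx
  obtain ⟨y, hyQ, hyK, hyχ⟩ : ∃ y ∈ Q', y ∉ K ∧ (χ : G → ℂ) y ≠ 0 := by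
    have hx₁ : x₁ ∈ ((K ⊔ Q' : Subgroup G) : Set G) := by rw [hsupQ]; exact hx₁E
    rw [Subgroup.normal_mul] at hx₁
    obtain ⟨k, hk, y, hy, rfl⟩ := Set.mem_mul.mp hx₁
    refine ⟨y, hy, ?_, ?_⟩
    · intro hyK
      exact hx₁K (K.mul_mem hk hyK)
    · rw [← Helper79.isCharacter_ker_mul hχc ((hK k).mp hk) y]
      exact hx₁χ
  -- (ii) Q' lies in the normal subgroup E ⊓ core(H)
  obtain ⟨M₀, hM₀def⟩ : ∃ M₀ : Subgroup G, M₀ = E ⊓ H.normalCore := ⟨_, rfl⟩
  haveI hM₀n : M₀.Normal := by rw [hM₀def]; infer_instance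
  have hcore : ∀ z ∈ H, (χ : G → ℂ) z ≠ 0 → z ∈ H.normalCore := by
    intro z hz hχz b
    have := hcon z hz hχz b⁻¹
    rwa [inv_inv] at this
  have hyM₀ : y ∈ M₀ := by
    rw [hM₀def]
    exact ⟨hQ'E hyQ, hcore y (hQ'H hyQ) hyχ⟩
  have hM₀E : M₀ ≤ E := by rw [hM₀def]; exact inf_le_left
  have hM₀H : M₀ ≤ H := by rw [hM₀def]; exact inf_le_right.trans (Subgroup.normalCore_le H)
  have hKM₀ : K ⊔ M₀ = E := by
    apply hmin (K ⊔ M₀) inferInstance
    · refine lt_of_le_of_ne le_sup_left ?_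
      intro heq
      apply hyK
      rw [heq]
      exact (le_sup_right : M₀ ≤ K ⊔ M₀) hyM₀
    · exact sup_le hKE.le hM₀E
  have hQ'M₀ : Q' ≤ M₀ := by
    intro z hz
    have hzE : z ∈ ((K ⊔ M₀ : Subgroup G) : Set G) := by rw [hKM₀]; exact hQ'E hz
    rw [Subgroup.normal_mul] at hzE
    obtain ⟨k, hk, m₀, hm₀, hkm⟩ := Set.mem_mul.mp hzE
    have hkH : k ∈ H := by
      have : k = z * m₀⁻¹ := by rw [← hkm]; group
      rw [this]
      exact H.mul_mem (hQ'H hz) (H.inv_mem (hM₀H hm₀))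
    have hkχ : (χ : G → ℂ) k ≠ 0 := by
      rw [(hK k).mp hk]; exact Helper80.irr_one_ne_zero χ
    have hkM₀ : k ∈ M₀ := by
      rw [hM₀def]
      exact ⟨hKE.le hk, hcore k hkH hkχ⟩
    rw [← hkm]
    exact M₀.mul_mem hkM₀ hm₀
  -- (iii) Frattini
  have hfr2 := bg_frattini E M₀ hM₀E Q (by rw [← hQ'def]; exact hQ'M₀)
  rw [← hQ'def] at hfr2
  have htop : (⊤ : Subgroup G) ≤ H := by
    rw [← hfr2]
    exact sup_le hNH hM₀H
  exact hH.1 (eq_top_iff.mpr htop)

end Cfsg.Agent.Helper74
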