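import Mathlib
import Cfsg.Prelude.Def_OddOrderLocal

/-! CALL S1390 (helper24), piece ABC. -/

set_option autoImplicit false

namespace Cfsg.Agent.Helper74

open Cfsg Subgroup

universe u

variable {G : Type u} [Group G] [Finite G]

/-- ABC (pure). Two complements `A`, `B` of the same subgroup `N` (normalized by `H`) in `H`: if
`A` is abelian so is `B` (for `b₁ b₂ ∈ B` write `bᵢ = nᵢ aᵢ`; `b₁ b₂ b₁⁻¹ b₂⁻¹ ∈ N ⊓ B = ⊥`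
because it maps to `[a₁, a₂] = 1` modulo `N`). -/
theorem bg90_compl_comm {N A B H : Subgroup G} (hA : IsComplIn N A H) (hB : IsComplIn N B H)
    (hn : H ≤ normalizer (N : Set G)) (hAc : ∀ a ∈ A, ∀ b ∈ A, a * b = b * a) :
    ∀ a ∈ B, ∀ b ∈ B, a * b = b * a := by
  obtain ⟨-, hAH, -, hAprod⟩ := hA
  obtain ⟨-, hBH, hNB, -⟩ := hB
  intro b₁ hb₁ b₂ hb₂
  obtain ⟨n₁, hn₁, a₁, ha₁, rfl⟩ := hAprod b₁ (hBH hb₁)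
  obtain ⟨n₂, hn₂, a₂, ha₂, rfl⟩ := hAprod b₂ (hBH hb₂)
  -- conjugation by elements of `H` preserves `N`
  have hconj : ∀ g ∈ H, ∀ x ∈ N, g * x * g⁻¹ ∈ N := by
    intro g hg x hx
    exact (mem_normalizer_iff.1 (hn hg) x).1 hx
  have hcN : (n₁ * a₁) * (n₂ * a₂) * (n₁ * a₁)⁻¹ * (n₂ * a₂)⁻¹ ∈ N := by
    have hid : (n₁ * a₁) * (n₂ * a₂) * (n₁ * a₁)⁻¹ * (n₂ * a₂)⁻¹
        = n₁ * (a₁ * n₂ * a₁⁻¹) * ((a₁ * a₂ * a₁⁻¹) * n₁⁻¹ * (a₁ * a₂ * a₁⁻¹)⁻¹)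
          * (a₁ * a₂ * a₁⁻¹ * a₂⁻¹) * n₂⁻¹ := by group
    have hcomm : a₁ * a₂ * a₁⁻¹ * a₂⁻¹ = 1 := by
      rw [hAc a₁ ha₁ a₂ ha₂]
      group
    rw [hid, hcomm, mul_one]
    have hg : a₁ * a₂ * a₁⁻¹ ∈ H := mul_mem (mul_mem (hAH ha₁) (hAH ha₂)) (inv_mem (hAH ha₁))
    exact mul_mem (mul_mem (mul_mem hn₁ (hconj a₁ (hAH ha₁) n₂ hn₂))
      (hconj _ hg _ (inv_mem hn₁))) (inv_mem hn₂)
  have hcB : (n₁ * a₁) * (n₂ * a₂) * (n₁ * a₁)⁻¹ * (n₂ * a₂)⁻¹ ∈ B :=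
    mul_mem (mul_mem (mul_mem hb₁ hb₂) (inv_mem hb₁)) (inv_mem hb₂)
  have h1 : (n₁ * a₁) * (n₂ * a₂) * (n₁ * a₁)⁻¹ * (n₂ * a₂)⁻¹ ∈ N ⊓ B := ⟨hcN, hcB⟩
  rw [hNB, mem_bot] at h1
  have h2 : (n₁ * a₁) * (n₂ * a₂) = ((n₁ * a₁) * (n₂ * a₂) * (n₁ * a₁)⁻¹ * (n₂ * a₂)⁻¹)
      * ((n₂ * a₂) * (n₁ * a₁)) := by group
  rw [h2, h1, one_mul]

end Cfsg.Agent.Helper74
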