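import Mathlib

/-! CALL S1390 (helper24), piece CYCS. -/

set_option autoImplicit false

namespace Cfsg.Agent.Helper74

open Cfsg Subgroup

universe u

variable {G : Type u} [Group G] [Finite G]

/-- In a finite cyclic group, two elements of the same prime order generate the same subgroup. -/
theorem bg90_cyc_mem {C : Type*} [Group C] [Finite C] [IsCyclic C] {r : ℕ} (hr : r.Prime)
    {x y : C} (hx : orderOf x = r) (hy : orderOf y = r) : y ∈ zpowers x := by
  classical
  haveI := Fintype.ofFinite C
  have h1 : (Finset.univ.filter (fun c : C => c ^ r = 1)).card ≤ r :=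
    IsCyclic.card_pow_eq_one_le hr.pos
  have h2 : ((zpowers x : Set C).toFinset) ⊆ Finset.univ.filter (fun c : C => c ^ r = 1) := by
    intro c hc
    rw [Set.mem_toFinset] at hc
    rw [Finset.mem_filter]
    refine ⟨Finset.mem_univ _, ?_⟩
    obtain ⟨k, rfl⟩ := hc
    have : (x ^ k) ^ r = (x ^ r) ^ k := by
      rw [← zpow_natCast, ← zpow_mul, mul_comm, zpow_mul, zpow_natCast]
    rw [this, ← hx, pow_orderOf_eq_one, one_zpow]
  have h3 : ((zpowers x : Set C).toFinset).card = r := by
    rw [Set.toFinset_card, ← hx, ← Nat.card_eq_fintype_card]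
    exact Nat.card_zpowers x
  have h4 := Finset.eq_of_subset_of_card_le h2 (by rw [h3]; exact h1)
  have h5 : y ∈ Finset.univ.filter (fun c : C => c ^ r = 1) := by
    rw [Finset.mem_filter]
    exact ⟨Finset.mem_univ _, by rw [← hy, pow_orderOf_eq_one]⟩
  rw [← h4, Set.mem_toFinset] at h5
  exact h5

/-- CYCS (pure, Mathlib only). If the Sylow `r`-subgroups of `H` are cyclic, two elements of
order `r` generate conjugate subgroups: `zpowers b ≤ P` for a Sylow `P`, a conjugate of
`zpowers a` lies in `P` (Sylow), and a cyclic group has one subgroup of order `r`. -/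
theorem bg90_conj_of_cyclic_sylow {H : Type u} [Group H] [Finite H] {r : ℕ} [Fact r.Prime]
    (hc : ∀ P : Sylow r H, IsCyclic (P : Subgroup H)) {a b : H} (ha : orderOf a = r)
    (hb : orderOf b = r) : ∃ m : H, b ∈ zpowers (m * a * m⁻¹) := by
  have hr : r.Prime := Fact.out
  have hpa : IsPGroup r ↥(zpowers a) := by
    apply IsPGroup.of_card (n := 1)
    rw [Nat.card_zpowers, ha, pow_one]
  have hpb : IsPGroup r ↥(zpowers b) := by
    apply IsPGroup.of_card (n := 1)
    rw [Nat.card_zpowers, hb, pow_one]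
  obtain ⟨Q, hQ⟩ := hpa.exists_le_sylow
  obtain ⟨P, hP⟩ := hpb.exists_le_sylow
  obtain ⟨m, hm⟩ := MulAction.exists_smul_eq H Q P
  refine ⟨m, ?_⟩
  have haQ : a ∈ (Q : Subgroup H) := hQ (mem_zpowers a)
  have hbP : b ∈ (P : Subgroup H) := hP (mem_zpowers b)
  have hmP : m * a * m⁻¹ ∈ (P : Subgroup H) := by
    rw [← hm, Sylow.coe_subgroup_smul]
    have := Subgroup.smul_mem_pointwise_smul a (MulAut.conj m) (Q : Subgroup H) haQ
    simpa [MulAut.smul_def] using this
  haveI : IsCyclic ↥(P : Subgroup H) := hc P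
  have ha1 : a ≠ 1 := by
    intro h
    rw [h, orderOf_one] at ha
    exact hr.one_lt.ne ha
  have hx : orderOf (⟨m * a * m⁻¹, hmP⟩ : ↥(P : Subgroup H)) = r := by
    rw [Subgroup.orderOf_mk]
    apply orderOf_eq_prime
    · rw [conj_pow, ← ha, pow_orderOf_eq_one, mul_one, mul_inv_cancel]
    · intro h
      apply ha1
      have h2 : a = m⁻¹ * (m * a * m⁻¹) * m := by group
      rw [h2, h]
      group
  have hy : orderOf (⟨b, hbP⟩ : ↥(P : Subgroup H)) = r := by
    rw [Subgroup.orderOf_mk]
    exact hb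
  have hmem := bg90_cyc_mem hr hx hy
  obtain ⟨k, hk⟩ := hmem
  refine ⟨k, ?_⟩
  have := congrArg Subtype.val hk
  simpa using this

end Cfsg.Agent.Helper74
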