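import Mathlib
import Cfsg.Agent.Helper71.Fitting

/-! CALL S1390 (helper24), piece NIL2. -/

set_option autoImplicit false

namespace Cfsg.Agent.Helper74

open Cfsg Subgroup

universe u

variable {G : Type u} [Group G] [Finite G]

/-- A subgroup which is elementwise commutative is nilpotent. -/
theorem bg90_isNilpotent_of_comm {L : Type*} [Group L] (K : Subgroup L)
    (h : ∀ a ∈ K, ∀ b ∈ K, a * b = b * a) : Group.IsNilpotent ↥K := by
  let _ : CommGroup ↥K :=
    { (inferInstance : Group ↥K) with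
      mul_comm := fun a b => Subtype.ext (h a a.2 b b.2) }
  infer_instance

/-- NIL2 (pure). Two abelian subgroups normalizing each other generate a nilpotent group
(class ≤ 2: `[A ⊔ B, A ⊔ B] ≤ A ⊓ B ≤ Z(A ⊔ B)`; or: both are normal abelian subgroups of
`↥(A ⊔ B)`, so they lie in its Fitting subgroup, which is nilpotent:
`Helper22.fittingSubgroup_isNilpotent` / `Helper71.fittingSubgroup_isNilpotent`). -/
theorem bg90_sup_nilpotent {A B : Subgroup G} (hA : ∀ a ∈ A, ∀ b ∈ A, a * b = b * a)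
    (hB : ∀ a ∈ B, ∀ b ∈ B, a * b = b * a) (hAB : A ≤ normalizer (B : Set G))
    (hBA : B ≤ normalizer (A : Set G)) : Group.IsNilpotent ↥(A ⊔ B) := by
  have hSA : A ⊔ B ≤ normalizer (A : Set G) := sup_le le_normalizer hBA
  have hSB : A ⊔ B ≤ normalizer (B : Set G) := sup_le hAB le_normalizer
  -- normality inside `↥(A ⊔ B)`
  have hnorm : ∀ K : Subgroup G, A ⊔ B ≤ normalizer (K : Set G) →
      (K.subgroupOf (A ⊔ B)).Normal := by
    intro K hK
    constructor
    intro n hn g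
    rw [mem_subgroupOf] at hn ⊢
    have := (mem_normalizer_iff.1 (hK g.2) (n : G)).1 hn
    simpa using this
  have hnil : ∀ K : Subgroup G, (∀ a ∈ K, ∀ b ∈ K, a * b = b * a) →
      Group.IsNilpotent ↥(K.subgroupOf (A ⊔ B)) := by
    intro K hK
    apply bg90_isNilpotent_of_comm
    intro a ha b hb
    rw [mem_subgroupOf] at ha hb
    exact Subtype.ext (hK a ha b hb)
  have h1 : A.subgroupOf (A ⊔ B) ≤ fittingSubgroup ↥(A ⊔ B) :=
    le_sSup (show A.subgroupOf (A ⊔ B) ∈ {N : Subgroup ↥(A ⊔ B) | N.Normal ∧ Group.IsNilpotent N}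
      from ⟨hnorm A hSA, hnil A hA⟩)
  have h2 : B.subgroupOf (A ⊔ B) ≤ fittingSubgroup ↥(A ⊔ B) :=
    le_sSup (show B.subgroupOf (A ⊔ B) ∈ {N : Subgroup ↥(A ⊔ B) | N.Normal ∧ Group.IsNilpotent N}
      from ⟨hnorm B hSB, hnil B hB⟩)
  have htop : fittingSubgroup ↥(A ⊔ B) = ⊤ := by
    rw [eq_top_iff, ← subgroupOf_self (A ⊔ B), subgroupOf_sup le_sup_left le_sup_right]
    exact sup_le h1 h2
  have hF := Cfsg.Agent.Helper71.fittingSubgroup_isNilpotent ↥(A ⊔ B)
  rw [htop] at hF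
  exact Group.nilpotent_of_mulEquiv (Subgroup.topEquiv (G := ↥(A ⊔ B)))

end Cfsg.Agent.Helper74
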