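import Mathlib
import Cfsg.Agent.Helper67.JordanArc

/-!
# Blichfeldt's sixty-degree lemma, abstract part (helper74)

`V` a finite dimensional complex inner product space, `G` a finite group acting by isometries.
If `x ∈ G` has an eigenvalue `ε` such that all eigenvalues of `x` are at distance `< 1` from `ε`
then the `ε`-eigenspace of `x` is invariant under every conjugate of `x`.
-/

set_option autoImplicit false

namespace Cfsg.Agent.Helper74

open Module.End

section BlichAbs

variable {V : Type*} [NormedAddCommGroup V] [InnerProductSpace ℂ V] [FiniteDimensional ℂ V]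

/-- Rayleigh bound for an invertible linear isometry. -/
theorem bl_rayleigh (U U' : V →ₗ[ℂ] V) (h1 : ∀ v, U' (U v) = v) (h2 : ∀ v, U (U' v) = v)
    (hiso : ∀ v w, inner ℂ (U v) (U w) = inner ℂ v w) (t : ℝ)
    (hy : ∀ μ : ℂ, HasEigenvalue U μ → t < μ.re) :
    ∃ m : ℝ, t < m ∧ ∀ v : V, m * ‖v‖ ^ 2 ≤ (inner ℂ (U v) v).re := by
  have hnorm : ∀ v, ‖U v‖ = ‖v‖ := by
    intro v
    have := hiso v v
    rw [inner_self_eq_norm_sq_to_K, inner_self_eq_norm_sq_to_K] at this
    have h2 : ‖U v‖ ^ 2 = ‖v‖ ^ 2 := by exact_mod_cast this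
    exact (sq_eq_sq₀ (norm_nonneg _) (norm_nonneg _)).mp h2
  rcases subsingleton_or_nontrivial V with hV | hV
  · refine ⟨t + 1, by linarith, fun v => ?_⟩
    have : v = 0 := Subsingleton.elim _ _
    subst this; simp
  · set S : V →ₗ[ℂ] V := (1/2 : ℂ) • (U + U') with hS
    have hadj : ∀ v w, inner ℂ (U v) w = inner ℂ v (U' w) := by
      intro v w
      have := hiso v (U' w)
      rw [h2] at this
      exact this
    have hadj' : ∀ v w, inner ℂ (U' v) w = inner ℂ v (U w) := by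
      intro v w
      have := hiso (U' v) w
      rw [h2] at this
      exact this.symm
    have hSre : ∀ v, (inner ℂ (S v) v).re = (inner ℂ (U v) v).re := by
      intro v
      have h1 : inner ℂ (U' v) v = (starRingEnd ℂ) (inner ℂ (U v) v) := by
        rw [hadj', inner_conj_symm]
      simp only [hS, LinearMap.smul_apply, LinearMap.add_apply, inner_smul_left, inner_add_left,
        h1]
      generalize inner ℂ (U v) v = z
      have hhalf : (starRingEnd ℂ) (1/2 : ℂ) = 1/2 := by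
        rw [show (1/2 : ℂ) = ((1/2 : ℝ) : ℂ) by push_cast; ring, Complex.conj_ofReal]
      rw [hhalf, Complex.add_conj]
      simp
    have hsym : S.IsSymmetric := by
      intro v w
      simp only [hS, LinearMap.smul_apply, LinearMap.add_apply, inner_smul_left,
        inner_smul_right, inner_add_left, inner_add_right, hadj, hadj']
      have hhalf : (starRingEnd ℂ) (1/2 : ℂ) = 1/2 := by
        rw [show (1/2 : ℂ) = ((1/2 : ℝ) : ℂ) by push_cast; ring, Complex.conj_ofReal]
      rw [hhalf]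
      ring
    have hev := hsym.hasEigenvalue_iInf_of_finiteDimensional
    set m := (⨅ x : { x : V // x ≠ 0 }, RCLike.re (inner ℂ (S x) x) / ‖(x : V)‖ ^ 2 : ℝ) with hm
    have hcYY : Commute U' U := by
      show U' * U = U * U'
      apply LinearMap.ext
      intro v
      simp [Module.End.mul_apply, h1, h2]
    have hcomm : Commute S U := ((Commute.refl U).add_left hcYY).smul_left _
    obtain ⟨c, w, hw0, hSw, hYw⟩ := Cfsg.Agent.Helper67.jarc_common_eigenvector S U hcomm _ hev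
    have hnc : ‖c‖ = 1 := by
      have := hnorm w
      rw [hYw, norm_smul] at this
      have hw0' : ‖w‖ ≠ 0 := norm_ne_zero_iff.mpr hw0
      field_simp at this
      exact this
    have hc0 : c ≠ 0 := by
      intro h0; rw [h0] at hnc; simp at hnc
    have hYinvw : U' w = c⁻¹ • w := by
      have := h1 w
      rw [hYw, map_smul] at this
      calc U' w = c⁻¹ • (c • U' w) := by rw [smul_smul, inv_mul_cancel₀ hc0, one_smul]
        _ = c⁻¹ • w := by rw [this]
    have hSw' : S w = ((c.re : ℝ) : ℂ) • w := by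
      simp only [hS, LinearMap.smul_apply, LinearMap.add_apply, hYw, hYinvw]
      rw [← add_smul, smul_smul, Complex.inv_eq_conj hnc, Complex.add_conj]
      congr 1
      push_cast; ring
    have hmc : m = c.re := by
      have h2 : ((m : ℝ) : ℂ) • w = ((c.re : ℝ) : ℂ) • w := hSw.symm.trans hSw'
      have h3 := smul_left_injective ℂ hw0 h2
      exact_mod_cast h3
    have hcev : HasEigenvalue U c :=
      hasEigenvalue_of_hasEigenvector ⟨mem_eigenspace_iff.mpr hYw, hw0⟩
    refine ⟨m, by rw [hmc]; exact hy c hcev, fun v => ?_⟩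
    rcases eq_or_ne v 0 with rfl | hv
    · simp
    · have hbdd : BddBelow (Set.range fun x : { x : V // x ≠ 0 } =>
          RCLike.re (inner ℂ (S x) x) / ‖(x : V)‖ ^ 2) := by
        refine ⟨-1, ?_⟩
        rintro _ ⟨x, rfl⟩
        have hx0 : 0 < ‖(x : V)‖ := norm_pos_iff.mpr x.2
        have h1 : ‖inner ℂ (U (x : V)) (x : V)‖ ≤ ‖U (x : V)‖ * ‖(x : V)‖ :=
          norm_inner_le_norm _ _
        rw [hnorm] at h1
        have h2 : -‖inner ℂ (U (x : V)) (x : V)‖ ≤ (inner ℂ (U (x : V)) (x : V)).re := by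
          have := Complex.abs_re_le_norm (inner ℂ (U (x : V)) (x : V))
          have := neg_abs_le ((inner ℂ (U (x : V)) (x : V)).re)
          linarith
        show -1 ≤ RCLike.re (inner ℂ (S x) x) / ‖(x : V)‖ ^ 2
        rw [le_div_iff₀ (by positivity)]
        have h3 : RCLike.re (inner ℂ (S x) x) = (inner ℂ (U (x : V)) (x : V)).re := hSre x
        rw [h3]
        nlinarith
      have h1 : m ≤ RCLike.re (inner ℂ (S v) v) / ‖v‖ ^ 2 := ciInf_le hbdd ⟨v, hv⟩
      have hv0 : 0 < ‖v‖ := norm_pos_iff.mpr hv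
      rw [le_div_iff₀ (by positivity)] at h1
      have h3 : RCLike.re (inner ℂ (S v) v) = (inner ℂ (U v) v).re := hSre v
      rw [h3] at h1
      exact h1

/-- The key contraction inequality. -/
theorem bl_key (U : V →ₗ[ℂ] V) (hiso : ∀ v w, inner ℂ (U v) (U w) = inner ℂ v w)
    (m : ℝ) (hm : ∀ v : V, m * ‖v‖ ^ 2 ≤ (inner ℂ (U v) v).re) (u : V) :
    ‖U u - u‖ ^ 2 ≤ (2 - 2 * m) * ‖u‖ ^ 2 := by
  have hnorm : ‖U u‖ = ‖u‖ := by
    have := hiso u u
    rw [inner_self_eq_norm_sq_to_K, inner_self_eq_norm_sq_to_K] at this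
    have h2 : ‖U u‖ ^ 2 = ‖u‖ ^ 2 := by exact_mod_cast this
    exact (sq_eq_sq₀ (norm_nonneg _) (norm_nonneg _)).mp h2
  have e : ‖U u - u‖ ^ 2 = ‖U u‖ ^ 2 - 2 * (inner ℂ (U u) u).re + ‖u‖ ^ 2 :=
    @norm_sub_sq ℂ V _ _ _ _ _
  rw [e, hnorm]
  linarith [hm u]

theorem bl_pow_mem (U : V →ₗ[ℂ] V) (A : Submodule ℂ V) (hA : ∀ a ∈ A, U a ∈ A) (k : ℕ) :
    ∀ a ∈ A, (U ^ k) a ∈ A := by
  induction k with
  | zero => intro a ha; simpa using ha
  | succ k ih =>
    intro a ha
    rw [pow_succ', Module.End.mul_apply]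
    exact hA _ (ih a ha)

theorem bl_pow_inner (U : V →ₗ[ℂ] V) (hiso : ∀ v w, inner ℂ (U v) (U w) = inner ℂ v w) (k : ℕ)
    (v w : V) : inner ℂ ((U ^ k) v) ((U ^ k) w) = inner ℂ v w := by
  induction k with
  | zero => simp
  | succ k ih =>
    rw [pow_succ', Module.End.mul_apply, Module.End.mul_apply, hiso, ih]

theorem bl_pow_fix (U : V →ₗ[ℂ] V) (u : V) (hu : U u = u) (k : ℕ) : (U ^ k) u = u := by
  induction k with
  | zero => simp
  | succ k ih => rw [pow_succ', Module.End.mul_apply, ih, hu]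

/-- Averaging over a finite-order isometry: the projection of a vector of an invariant subspace
onto the fixed space stays in the subspace. -/
theorem bl_average (U : V →ₗ[ℂ] V) (hiso : ∀ v w, inner ℂ (U v) (U w) = inner ℂ v w)
    (o : ℕ) (ho : 0 < o) (hpow : U ^ o = 1) (A : Submodule ℂ V) (hA : ∀ a ∈ A, U a ∈ A)
    (a : V) (ha : a ∈ A) :
    ∃ a₀ ∈ A, U a₀ = a₀ ∧ ∀ u : V, U u = u → inner ℂ (a - a₀) u = 0 := by
  have ho' : (o : ℂ) ≠ 0 := by exact_mod_cast ho.ne'
  refine ⟨(o : ℂ)⁻¹ • ∑ k ∈ Finset.range o, (U ^ k) a, ?_, ?_, ?_⟩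
  · exact A.smul_mem _ (A.sum_mem fun k _ => bl_pow_mem U A hA k a ha)
  · rw [map_smul, map_sum]
    congr 1
    have h1 : ∑ k ∈ Finset.range o, U ((U ^ k) a) = ∑ k ∈ Finset.range o, (U ^ (k + 1)) a := by
      refine Finset.sum_congr rfl fun k _ => ?_
      rw [pow_succ', Module.End.mul_apply]
    rw [h1]
    have h2 := Finset.sum_range_succ' (fun k => (U ^ k) a) o
    have h3 := Finset.sum_range_succ (fun k => (U ^ k) a) o
    rw [h3] at h2
    simp only [pow_zero, Module.End.one_apply, hpow] at h2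
    exact (add_right_cancel h2).symm
  · intro u hu
    rw [inner_sub_left, inner_smul_left, sum_inner]
    have h1 : ∀ k ∈ Finset.range o, inner ℂ ((U ^ k) a) u = inner ℂ a u := by
      intro k _
      have := bl_pow_inner U hiso k a u
      rw [bl_pow_fix U u hu k] at this
      exact this
    rw [Finset.sum_congr rfl h1, Finset.sum_const, Finset.card_range, nsmul_eq_mul, map_inv₀,
      Complex.conj_natCast, ← mul_assoc, inv_mul_cancel₀ ho', one_mul, sub_self]

/-- One-sided distance between subspaces. -/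
noncomputable def blDist (A B : Submodule ℂ V) : ℝ :=
  sSup ((fun a : V => Metric.infDist a (B : Set V)) '' {a | a ∈ A ∧ ‖a‖ ≤ 1})

theorem blDist_bdd (A B : Submodule ℂ V) :
    BddAbove ((fun a : V => Metric.infDist a (B : Set V)) '' {a | a ∈ A ∧ ‖a‖ ≤ 1}) := by
  refine ⟨1, ?_⟩
  rintro _ ⟨a, ⟨-, ha⟩, rfl⟩
  have := Metric.infDist_le_dist_of_mem (x := a) (B.zero_mem : (0:V) ∈ (B : Set V))
  rw [dist_zero_right] at this
  exact this.trans ha

theorem le_blDist (A B : Submodule ℂ V) {a : V} (ha : a ∈ A) (h1 : ‖a‖ ≤ 1) :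
    Metric.infDist a (B : Set V) ≤ blDist A B :=
  le_csSup (blDist_bdd A B) ⟨a, ⟨ha, h1⟩, rfl⟩

theorem blDist_nonneg (A B : Submodule ℂ V) : 0 ≤ blDist A B :=
  le_trans Metric.infDist_nonneg (le_blDist A B A.zero_mem (by simp))

theorem blDist_le (A B : Submodule ℂ V) {t : ℝ}
    (h : ∀ a ∈ A, ‖a‖ ≤ 1 → Metric.infDist a (B : Set V) ≤ t) : blDist A B ≤ t := by
  refine csSup_le ⟨Metric.infDist (0:V) (B : Set V), ⟨0, ⟨A.zero_mem, by simp⟩, rfl⟩⟩ ?_
  rintro _ ⟨a, ⟨ha, h1⟩, rfl⟩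
  exact h a ha h1

theorem blDist_eq_zero (A B : Submodule ℂ V) (h : blDist A B = 0) : A ≤ B := by
  intro a ha
  by_cases ha0 : a = 0
  · subst ha0; exact B.zero_mem
  have hn : 0 < ‖a‖ := norm_pos_iff.mpr ha0
  have hnc : ((‖a‖ : ℝ) : ℂ) ≠ 0 := by exact_mod_cast hn.ne'
  set a' : V := ((‖a‖ : ℝ) : ℂ)⁻¹ • a with ha'def
  have ha' : a' ∈ A := A.smul_mem _ ha
  have hn' : ‖a'‖ ≤ 1 := by
    rw [ha'def, norm_smul, norm_inv, Complex.norm_real, Real.norm_eq_abs, abs_of_pos hn,
      inv_mul_cancel₀ hn.ne']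
  have h0 : Metric.infDist a' (B : Set V) = 0 :=
    le_antisymm (h ▸ le_blDist A B ha' hn') Metric.infDist_nonneg
  have hcl : IsClosed (B : Set V) := B.closed_of_finiteDimensional
  have hmem : a' ∈ (B : Set V) := (hcl.mem_iff_infDist_zero ⟨0, B.zero_mem⟩).mpr h0
  have : a = ((‖a‖ : ℝ) : ℂ) • a' := by
    rw [ha'def, smul_smul, mul_inv_cancel₀ hnc, one_smul]
  rw [this]
  exact B.smul_mem _ hmem

section Descent

variable {G : Type*} [Group G] [Finite G] (ρ : G →* (V →ₗ[ℂ] V))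

theorem bl_conj_mem (g y : G) (ε : ℂ) (v : V) (hv : v ∈ eigenspace (ρ y) ε) :
    ρ g v ∈ eigenspace (ρ (g * y * g⁻¹)) ε := by
  rw [mem_eigenspace_iff] at hv ⊢
  have : ρ (g * y * g⁻¹) (ρ g v) = ρ g (ρ y v) := by
    rw [← Module.End.mul_apply, ← Module.End.mul_apply, ← map_mul, ← map_mul]
    congr 2; group
  rw [this, hv, map_smul]

/-- **Blichfeldt's lemma, invariance form**: if all eigenvalues of `x` are at distance `< 1`
from the eigenvalue `ε`, the `ε`-eigenspace of `x` is invariant under all conjugates of `x`. -/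
theorem bl_invariant (hinv : ∀ g v w, inner ℂ (ρ g v) (ρ g w) = inner ℂ v w) (x : G) (ε : ℂ)
    (hε : HasEigenvalue (ρ x) ε) (hclose : ∀ μ : ℂ, HasEigenvalue (ρ x) μ → ‖μ - ε‖ < 1) :
    ∀ g : G, ∀ v ∈ eigenspace (ρ x) ε, ρ (g * x * g⁻¹) v ∈ eigenspace (ρ x) ε := by
  classical
  have hεn : ‖ε‖ = 1 := Cfsg.Agent.Helper67.jarc_eigenvalue_norm ρ x ε hε
  have hεo : ε ^ orderOf x = 1 := Cfsg.Agent.Helper67.jarc_eigenvalue_pow ρ x ε hε
  have hεc : ε * (starRingEnd ℂ) ε = 1 := by
    rw [Complex.mul_conj, Complex.normSq_eq_norm_sq, hεn]; simp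
  have hεc' : (starRingEnd ℂ) ε * ε = 1 := by rw [mul_comm]; exact hεc
  -- the normalised operators
  set U : G → (V →ₗ[ℂ] V) := fun y => (starRingEnd ℂ) ε • ρ y with hU
  have hUiso : ∀ y v w, inner ℂ (U y v) (U y w) = inner ℂ v w := by
    intro y v w
    simp only [hU, LinearMap.smul_apply, inner_smul_left, inner_smul_right, hinv,
      Complex.conj_conj]
    rw [← mul_assoc]
    first | rw [hεc, one_mul] | rw [hεc', one_mul]
  have hUfix : ∀ y v, U y v = v ↔ v ∈ eigenspace (ρ y) ε := by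
    intro y v
    rw [mem_eigenspace_iff]
    simp only [hU, LinearMap.smul_apply]
    constructor
    · intro h
      have := congrArg (fun z => ε • z) h
      simp only [smul_smul, hεc, one_smul] at this
      exact this
    · intro h
      rw [h, smul_smul, hεc', one_smul]
  -- Rayleigh bound for x
  obtain ⟨m, hm, hray⟩ := bl_rayleigh (U x) (ε • ρ x⁻¹) (by
      intro v
      simp only [hU, LinearMap.smul_apply, map_smul, smul_smul, hεc, hεc', one_smul]
      exact Cfsg.Agent.Helper67.jarc_apply_inv_apply ρ x v) (by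
      intro v
      simp only [hU, LinearMap.smul_apply, map_smul, smul_smul, hεc, hεc', one_smul]
      exact Cfsg.Agent.Helper67.jarc_apply_apply_inv ρ x v) (hUiso x) (1/2) (by
      intro ν hν
      obtain ⟨w, hw⟩ := hν.exists_hasEigenvector
      have hw1 : U x w = ν • w := hw.apply_eq_smul
      have hw2 : ρ x w = (ε * ν) • w := by
        have := congrArg (fun z => ε • z) hw1
        simp only [hU, LinearMap.smul_apply, smul_smul, hεc, one_smul] at this
        exact this
      have hev : HasEigenvalue (ρ x) (ε * ν) :=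
        hasEigenvalue_of_hasEigenvector ⟨mem_eigenspace_iff.mpr hw2, hw.2⟩
      have h1 := hclose _ hev
      have h2 : ‖ε * ν‖ = 1 := Cfsg.Agent.Helper67.jarc_eigenvalue_norm ρ x _ hev
      rw [norm_mul, hεn, one_mul] at h2
      have h3 : ε * ν - ε = ε * (ν - 1) := by ring
      rw [h3, norm_mul, hεn, one_mul] at h1
      have h4 : ‖ν - 1‖ ^ 2 < 1 := by nlinarith [norm_nonneg (ν - 1)]
      have h5 : ‖ν‖ ^ 2 = 1 := by rw [h2]; norm_num
      rw [Complex.sq_norm, Complex.normSq_apply] at h4 h5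
      simp only [Complex.sub_re, Complex.sub_im, Complex.one_re, Complex.one_im, sub_zero] at h4
      nlinarith)
  have hray' : ∀ g v, m * ‖v‖ ^ 2 ≤ (inner ℂ (U (g * x * g⁻¹) v) v).re := by
    intro g v
    have h1 : U (g * x * g⁻¹) v = ρ g (U x (ρ g⁻¹ v)) := by
      simp only [hU, LinearMap.smul_apply, map_smul]
      congr 1
      rw [← Module.End.mul_apply, ← Module.End.mul_apply, ← map_mul, ← map_mul]
    have h2 : v = ρ g (ρ g⁻¹ v) := (Cfsg.Agent.Helper67.jarc_apply_apply_inv ρ g v).symm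
    have h3 := hray (ρ g⁻¹ v)
    rw [Cfsg.Agent.Helper67.jarc_norm_map ρ hinv] at h3
    have h4 : inner ℂ (U (g * x * g⁻¹) v) v = inner ℂ (U x (ρ g⁻¹ v)) (ρ g⁻¹ v) := by
      rw [h1]
      nth_rewrite 2 [h2]
      rw [hinv]
    rw [h4]
    exact h3
  have hkey : ∀ g u, ‖ρ (g * x * g⁻¹) u - ε • u‖ ^ 2 ≤ (2 - 2 * m) * ‖u‖ ^ 2 := by
    intro g u
    have h1 := bl_key (U (g * x * g⁻¹)) (hUiso _) m (hray' g) u
    have h2 : ρ (g * x * g⁻¹) u - ε • u = ε • (U (g * x * g⁻¹) u - u) := by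
      simp only [hU, LinearMap.smul_apply, smul_sub, smul_smul, hεc, one_smul]
    rw [h2, norm_smul, hεn, one_mul]
    exact h1
  obtain ⟨w0, hw0⟩ := hε.exists_hasEigenvector
  have hq0 : 0 ≤ 2 - 2 * m := by
    have h1 := hkey 1 w0
    have h2 : 0 < ‖w0‖ := norm_pos_iff.mpr hw0.2
    by_contra hneg
    push Not at hneg
    have : (2 - 2 * m) * ‖w0‖ ^ 2 < 0 := mul_neg_of_neg_of_pos hneg (by positivity)
    have h3 : 0 ≤ ‖ρ (1 * x * 1⁻¹) w0 - ε • w0‖ ^ 2 := by positivity
    linarith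
  set r : ℝ := Real.sqrt (2 - 2 * m) with hr
  have hr0 : 0 ≤ r := Real.sqrt_nonneg _
  have hr1 : r < 1 := by
    rw [hr, Real.sqrt_lt' one_pos]; linarith
  have hkey' : ∀ g u, ‖ρ (g * x * g⁻¹) u - ε • u‖ ≤ r * ‖u‖ := by
    intro g u
    have h1 : ‖ρ (g * x * g⁻¹) u - ε • u‖ ≤ Real.sqrt ((2 - 2 * m) * ‖u‖ ^ 2) :=
      Real.le_sqrt_of_sq_le (hkey g u)
    rw [Real.sqrt_mul' _ (by positivity), Real.sqrt_sq (norm_nonneg u)] at h1
    exact h1
  -- the bad pairs
  let Bad : Set (G × G) := {P | (∃ g, P.1 = g * x * g⁻¹) ∧ (∃ g, P.2 = g * x * g⁻¹) ∧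
    ∃ a ∈ eigenspace (ρ P.1) ε, ρ P.2 a ∉ eigenspace (ρ P.1) ε}
  have hempty : Bad = ∅ := by
    by_contra hne
    have hne' : Bad.Nonempty := Set.nonempty_iff_ne_empty.mpr hne
    obtain ⟨⟨y₂, y₁⟩, hP, hmin⟩ := Set.exists_min_image Bad
      (fun P => blDist (eigenspace (ρ P.1) ε) (eigenspace (ρ P.2) ε)) (Set.toFinite _) hne'
    obtain ⟨⟨g₂, hg₂⟩, ⟨g₁, hg₁⟩, a, ha, hbad⟩ := hP
    simp only at hg₂ hg₁ ha hbad hmin
    set y₃ := y₁ * y₂ * y₁⁻¹ with hy₃
    have hy₃c : y₃ = (y₁ * g₂) * x * (y₁ * g₂)⁻¹ := by rw [hy₃, hg₂]; group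
    have hd : 0 < blDist (eigenspace (ρ y₂) ε) (eigenspace (ρ y₁) ε) := by
      rcases (blDist_nonneg (eigenspace (ρ y₂) ε) (eigenspace (ρ y₁) ε)).lt_or_eq with h | h
      · exact h
      · exfalso
        have hle := blDist_eq_zero _ _ h.symm
        apply hbad
        have : ρ y₁ a = ε • a := mem_eigenspace_iff.mp (hle ha)
        rw [this]; exact Submodule.smul_mem _ _ ha
    have hb : blDist (eigenspace (ρ y₂) ε) (eigenspace (ρ y₃) ε)
        ≤ r * blDist (eigenspace (ρ y₂) ε) (eigenspace (ρ y₁) ε) := by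
      apply blDist_le
      intro a' ha' hn'
      have hc : (starRingEnd ℂ) ε • ρ y₁ a' ∈ eigenspace (ρ y₃) ε :=
        Submodule.smul_mem _ _ (bl_conj_mem ρ y₁ y₂ ε a' ha')
      have h1 : Metric.infDist a' (eigenspace (ρ y₃) ε : Set V)
          ≤ dist a' ((starRingEnd ℂ) ε • ρ y₁ a') := Metric.infDist_le_dist_of_mem hc
      have h2 : dist a' ((starRingEnd ℂ) ε • ρ y₁ a') = ‖ρ y₁ a' - ε • a'‖ := by
        rw [dist_eq_norm]
        have : ρ y₁ a' - ε • a' = (-ε) • (a' - (starRingEnd ℂ) ε • ρ y₁ a') := by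
          rw [smul_sub, smul_smul, neg_mul, hεc, neg_smul, neg_smul, one_smul]; abel
        rw [this, norm_smul, norm_neg, hεn, one_mul]
      have h3 : ‖ρ y₁ a' - ε • a'‖
          ≤ r * Metric.infDist a' (eigenspace (ρ y₁) ε : Set V) := by
        have hb' : ∀ b ∈ (eigenspace (ρ y₁) ε : Set V),
            ‖ρ y₁ a' - ε • a'‖ ≤ r * dist a' b := by
          intro b hb
          have hb2 : ρ y₁ b = ε • b := mem_eigenspace_iff.mp hb
          have : ρ y₁ a' - ε • a' = ρ y₁ (a' - b) - ε • (a' - b) := by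
            rw [map_sub, smul_sub, hb2]; abel
          rw [this, dist_eq_norm, hg₁]
          exact hkey' g₁ (a' - b)
        rcases hr0.lt_or_eq with hrpos | hr0'
        · have : ‖ρ y₁ a' - ε • a'‖ / r ≤ Metric.infDist a' (eigenspace (ρ y₁) ε : Set V) := by
            rw [Metric.le_infDist ⟨0, Submodule.zero_mem _⟩]
            intro b hb
            rw [div_le_iff₀ hrpos, mul_comm]
            exact hb' b hb
          rw [div_le_iff₀ hrpos, mul_comm] at this
          exact this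
        · have := hb' 0 (Submodule.zero_mem _)
          rw [← hr0', zero_mul] at this ⊢
          exact this
      calc Metric.infDist a' (eigenspace (ρ y₃) ε : Set V)
          ≤ dist a' ((starRingEnd ℂ) ε • ρ y₁ a') := h1
        _ = ‖ρ y₁ a' - ε • a'‖ := h2
        _ ≤ r * Metric.infDist a' (eigenspace (ρ y₁) ε : Set V) := h3
        _ ≤ r * blDist (eigenspace (ρ y₂) ε) (eigenspace (ρ y₁) ε) :=
          mul_le_mul_of_nonneg_left (le_blDist _ _ ha' hn') hr0
    have hc : (y₂, y₃) ∈ Bad := by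
      refine ⟨⟨g₂, hg₂⟩, ⟨_, hy₃c⟩, ?_⟩
      by_contra hcon
      push Not at hcon
      apply hbad
      have hle : eigenspace (ρ y₂) ε ≤ eigenspace (ρ y₃) ε := by
        intro a' ha'
        have hAinv : ∀ a ∈ eigenspace (ρ y₂) ε, U y₃ a ∈ eigenspace (ρ y₂) ε :=
          fun a ha => Submodule.smul_mem _ _ (hcon a ha)
        have hpow : U y₃ ^ orderOf x = 1 := by
          simp only [hU]
          rw [smul_pow, ← map_pow, hεo, map_one, one_smul, ← map_pow, hy₃c, conj_pow,
            pow_orderOf_eq_one]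
          simp
        obtain ⟨a₀, ha₀, hfix, horth⟩ := bl_average (U y₃) (hUiso y₃) (orderOf x)
          (orderOf_pos x) hpow _ hAinv a' ha'
        have ha₁ : a' - a₀ ∈ eigenspace (ρ y₂) ε := Submodule.sub_mem _ ha' ha₀
        have h1 : ρ y₁ (a' - a₀) ∈ eigenspace (ρ y₃) ε := bl_conj_mem ρ y₁ y₂ ε _ ha₁
        have h2 : inner ℂ (a' - a₀) (ρ y₁ (a' - a₀)) = 0 := horth _ ((hUfix y₃ _).mpr h1)
        have h3 := hray' g₁ (a' - a₀)
        rw [← hg₁] at h3
        have h4 : inner ℂ (U y₁ (a' - a₀)) (a' - a₀) = 0 := by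
          simp only [hU, LinearMap.smul_apply, inner_smul_left]
          rw [← inner_conj_symm, h2]; simp
        rw [h4] at h3
        simp only [Complex.zero_re] at h3
        have h5 : ‖a' - a₀‖ = 0 := by
          by_contra hne0
          have hpos : 0 < ‖a' - a₀‖ := lt_of_le_of_ne (norm_nonneg _) (Ne.symm hne0)
          have : 0 < m * ‖a' - a₀‖ ^ 2 := by
            have hm0 : 0 < m := by linarith
            positivity
          linarith
        have h6 : a' = a₀ := sub_eq_zero.mp (norm_eq_zero.mp h5)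
        rw [h6]; exact (hUfix y₃ a₀).mp hfix
      have hfin : Module.finrank ℂ (eigenspace (ρ y₃) ε)
          ≤ Module.finrank ℂ (eigenspace (ρ y₂) ε) := by
        have hmaps : ∀ w ∈ eigenspace (ρ y₃) ε, ρ y₁⁻¹ w ∈ eigenspace (ρ y₂) ε := by
          intro w hw
          have := bl_conj_mem ρ y₁⁻¹ y₃ ε w hw
          have e : y₁⁻¹ * y₃ * y₁⁻¹⁻¹ = y₂ := by rw [hy₃]; group
          rwa [e] at this
        let f : eigenspace (ρ y₃) ε →ₗ[ℂ] eigenspace (ρ y₂) ε := (ρ y₁⁻¹).restrict hmaps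
        apply LinearMap.finrank_le_finrank_of_injective (f := f)
        intro w₁ w₂ h
        have h' := congrArg Subtype.val h
        simp only [f, LinearMap.coe_restrict_apply] at h'
        apply Subtype.ext
        have := congrArg (ρ y₁) h'
        rwa [Cfsg.Agent.Helper67.jarc_apply_apply_inv,
          Cfsg.Agent.Helper67.jarc_apply_apply_inv] at this
      have heq : eigenspace (ρ y₂) ε = eigenspace (ρ y₃) ε :=
        Submodule.eq_of_le_of_finrank_le hle hfin
      rw [heq]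
      exact bl_conj_mem ρ y₁ y₂ ε a ha
    have h7 := hmin _ hc
    simp only at h7
    have hlt : r * blDist (eigenspace (ρ y₂) ε) (eigenspace (ρ y₁) ε)
        < blDist (eigenspace (ρ y₂) ε) (eigenspace (ρ y₁) ε) := by nlinarith
    linarith
  intro g v hv
  by_contra hcon
  have : (x, g * x * g⁻¹) ∈ Bad := ⟨⟨1, by simp⟩, ⟨g, rfl⟩, v, hv, hcon⟩
  rw [hempty] at this
  exact this

end Descent

end BlichAbs

end Cfsg.Agent.Helper74
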