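import Mathlib
import Cfsg.Prelude.Def_Characters
import Cfsg.Agent.Helper74.Blich1

/-!
# Blichfeldt's sixty-degree lemma for groups without proper normal subgroups (helper74)
-/

set_option autoImplicit false

namespace Cfsg.Agent.Helper74

open Module.End

/-- Concrete form of `bl_invariant` for representations on `Fin n → ℂ`. -/
theorem bl_invariant_concrete {G : Type*} [Group G] [Finite G] {n : ℕ}
    (ρ : G →* ((Fin n → ℂ) →ₗ[ℂ] (Fin n → ℂ))) (x : G) (ε : ℂ)
    (hε : HasEigenvalue (ρ x) ε) (hclose : ∀ μ : ℂ, HasEigenvalue (ρ x) μ → ‖μ - ε‖ < 1) :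
    ∀ g : G, ∀ v ∈ eigenspace (ρ x) ε, ρ (g * x * g⁻¹) v ∈ eigenspace (ρ x) ε := by
  classical
  let _ := Fintype.ofFinite G
  let nacg : NormedAddCommGroup (Fin n → ℂ) :=
    @InnerProductSpace.Core.toNormedAddCommGroup ℂ (Fin n → ℂ) _ _ _
      (Cfsg.Agent.Helper67.jarcCore ρ)
  let ips : @InnerProductSpace ℂ (Fin n → ℂ) _ nacg.toSeminormedAddCommGroup :=
    InnerProductSpace.ofCore (Cfsg.Agent.Helper67.jarcCore ρ).toCore
  exact @bl_invariant (Fin n → ℂ) nacg ips _ G _ _ ρ
    (fun g v w => Cfsg.Agent.Helper67.jarcCore_inv ρ g v w) x ε hε hclose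

/-- **Blichfeldt for groups without proper normal subgroups**: an element `x ≠ 1` all of whose
eigenvalues are at distance `< 1` from one of them acts as a scalar in every irreducible
representation. -/
theorem bl_scalar {G : Type*} [Group G] [Finite G]
    (hsimp : ∀ N : Subgroup G, N.Normal → N = ⊥ ∨ N = ⊤)
    {n : ℕ} (ρ : Representation ℂ G (Fin n → ℂ)) (hirr : ρ.IsIrreducible) (x : G) (hx : x ≠ 1)
    (ε : ℂ) (hε : HasEigenvalue (ρ x) ε)
    (hclose : ∀ μ : ℂ, HasEigenvalue (ρ x) μ → ‖μ - ε‖ < 1) :
    ∀ v : Fin n → ℂ, ρ x v = ε • v := by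
  have hinvt := bl_invariant_concrete ρ x ε hε hclose
  set E := eigenspace (ρ x) ε with hE
  have hpow : ∀ (g : G) (k : ℕ), ∀ v ∈ E, ρ ((g * x * g⁻¹) ^ k) v ∈ E := by
    intro g k
    induction k with
    | zero => intro v hv; simpa using hv
    | succ k ih =>
      intro v hv
      rw [pow_succ, map_mul, Module.End.mul_apply]
      exact ih _ (hinvt g v hv)
  let H : Subgroup G :=
    { carrier := {g | ∀ v, v ∈ E ↔ ρ g v ∈ E}
      mul_mem' := by
        intro a b ha hb v
        rw [map_mul, Module.End.mul_apply]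
        exact (hb v).trans (ha _)
      one_mem' := by intro v; simp
      inv_mem' := by
        intro a ha v
        have := ha (ρ a⁻¹ v)
        rw [← Module.End.mul_apply, ← map_mul, mul_inv_cancel, map_one,
          Module.End.one_apply] at this
        exact this.symm }
  have hconj : ∀ g : G, g * x * g⁻¹ ∈ H := by
    intro g v
    constructor
    · exact hinvt g v
    · intro hv
      have ho := pow_orderOf_eq_one (g * x * g⁻¹)
      have hpos := orderOf_pos (g * x * g⁻¹)
      have := hpow g (orderOf (g * x * g⁻¹) - 1) _ hv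
      rw [← Module.End.mul_apply, ← map_mul, ← pow_succ, Nat.sub_add_cancel hpos, ho, map_one,
        Module.End.one_apply] at this
      exact this
  have hncl : Subgroup.normalClosure ({x} : Set G) ≤ H := by
    rw [Subgroup.normalClosure, Subgroup.closure_le]
    intro y hy
    rw [Group.mem_conjugatesOfSet_iff] at hy
    obtain ⟨b, hb, hby⟩ := hy
    rw [Set.mem_singleton_iff] at hb
    subst hb
    obtain ⟨c, hc⟩ := isConj_iff.mp hby
    rw [← hc]
    exact hconj c
  have htop : Subgroup.normalClosure ({x} : Set G) = ⊤ := by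
    rcases hsimp _ Subgroup.normalClosure_normal with h | h
    · exfalso
      have : x ∈ Subgroup.normalClosure ({x} : Set G) :=
        Subgroup.subset_normalClosure (Set.mem_singleton x)
      rw [h, Subgroup.mem_bot] at this
      exact hx this
    · exact h
  have hall : ∀ g : G, ∀ v ∈ E, ρ g v ∈ E := by
    intro g v hv
    have : g ∈ H := hncl (htop ▸ Subgroup.mem_top g)
    exact (this v).mp hv
  let W : Subrepresentation ρ := ⟨E, fun g v hv => hall g v hv⟩
  haveI := hirr
  rcases eq_bot_or_eq_top W with h | h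
  · exfalso
    have : E = ⊥ := congrArg Subrepresentation.toSubmodule h
    exact (Module.End.hasEigenvalue_iff.mp hε) this
  · intro v
    have : E = ⊤ := congrArg Subrepresentation.toSubmodule h
    have hv : v ∈ E := this ▸ Submodule.mem_top
    exact mem_eigenspace_iff.mp hv

/-- In a nonabelian group without proper normal subgroups, acting nontrivially and irreducibly,
no nonidentity element has all its eigenvalues at distance `< 1` from one of them. -/
theorem bl_simple {G : Type*} [Group G] [Finite G]
    (hsimp : ∀ N : Subgroup G, N.Normal → N = ⊥ ∨ N = ⊤) (hnab : ∃ a b : G, a * b ≠ b * a)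
    {n : ℕ} (ρ : Representation ℂ G (Fin n → ℂ)) (hirr : ρ.IsIrreducible)
    (hnt : ∃ g : G, ρ g ≠ 1) (x : G) (ε : ℂ) (hε : HasEigenvalue (ρ x) ε)
    (hclose : ∀ μ : ℂ, HasEigenvalue (ρ x) μ → ‖μ - ε‖ < 1) : x = 1 := by
  by_contra hx
  have hsc := bl_scalar hsimp ρ hirr x hx ε hε hclose
  have hker : (ρ : G →* _).ker = ⊥ := by
    rcases hsimp _ (MonoidHom.normal_ker (ρ : G →* _)) with h | h
    · exact h
    · exfalso
      obtain ⟨g, hg⟩ := hnt
      have : g ∈ (ρ : G →* _).ker := h ▸ Subgroup.mem_top g
      exact hg (MonoidHom.mem_ker.mp this)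
  have hinj : Function.Injective ρ := (MonoidHom.ker_eq_bot_iff (ρ : G →* _)).mp hker
  have hcen : x ∈ Subgroup.center G := by
    rw [Subgroup.mem_center_iff]
    intro g
    apply hinj
    rw [map_mul, map_mul]
    apply LinearMap.ext
    intro v
    rw [Module.End.mul_apply, Module.End.mul_apply, hsc, hsc, map_smul]
  rcases hsimp _ (inferInstance : (Subgroup.center G).Normal) with h | h
  · rw [h, Subgroup.mem_bot] at hcen
    exact hx hcen
  · obtain ⟨a, b, hab⟩ := hnab
    have : a ∈ Subgroup.center G := h ▸ Subgroup.mem_top a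
    exact hab ((Subgroup.mem_center_iff.mp this b).symm)

end Cfsg.Agent.Helper74
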