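import Mathlib

/-!
# Dirichlet's pigeonhole for roots of unity (helper74)

If `μ i` are `p`-th roots of unity taking at most `s` distinct values and `6 ^ (s - 1) < p`, some
power `k` with `0 < k < p` brings all `μ i ^ k` within distance `< 1` of a given one.
-/

set_option autoImplicit false

namespace Cfsg.Agent.Helper74

/-- `exp(2πi d/p)` is within distance `< 1` of `1` if `6 d < p`. -/
theorem bl_arc (p d : ℕ) (hp : 0 < p) (hd : 6 * d < p) :
    ‖Complex.exp (2 * Real.pi * Complex.I / p) ^ d - 1‖ < 1 := by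
  have hp' : (0 : ℝ) < p := by exact_mod_cast hp
  have h1 : Complex.exp (2 * Real.pi * Complex.I / p) ^ d
      = Complex.exp (Complex.I * ((2 * Real.pi * d / p : ℝ) : ℂ)) := by
    rw [← Complex.exp_nat_mul]
    congr 1
    push_cast
    ring
  rw [h1, Complex.norm_exp_I_mul_ofReal_sub_one]
  have hpi := Real.pi_pos
  have hd' : (6 : ℝ) * d < p := by exact_mod_cast hd
  have hθ0 : 0 ≤ 2 * Real.pi * d / p / 2 := by positivity
  have hθ1 : 2 * Real.pi * d / p / 2 < Real.pi / 6 := by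
    rw [div_div, div_lt_div_iff₀ (by positivity) (by norm_num)]
    nlinarith
  have hs0 : 0 ≤ Real.sin (2 * Real.pi * d / p / 2) :=
    Real.sin_nonneg_of_nonneg_of_le_pi hθ0 (by linarith)
  have hs1 : Real.sin (2 * Real.pi * d / p / 2) < Real.sin (Real.pi / 6) :=
    Real.sin_lt_sin_of_lt_of_le_pi_div_two (by linarith) (by linarith) hθ1
  rw [Real.sin_pi_div_six] at hs1
  rw [Real.norm_eq_abs, abs_of_nonneg (by positivity)]
  linarith

theorem bl_dirichlet (p : ℕ) (hp : p.Prime) {ι : Type*} [Fintype ι] (μ : ι → ℂ)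
    (hμ : ∀ i, μ i ^ p = 1) (s : ℕ) (hs : (Finset.univ.image μ).card ≤ s)
    (hps : 6 ^ (s - 1) < p) (i₀ : ι) :
    ∃ k : ℕ, 0 < k ∧ k < p ∧ ∀ i, ‖μ i ^ k - μ i₀ ^ k‖ < 1 := by
  classical
  have hp0 : p ≠ 0 := hp.ne_zero
  set ζ : ℂ := Complex.exp (2 * Real.pi * Complex.I / p) with hζ
  have hprim : IsPrimitiveRoot ζ p := Complex.isPrimitiveRoot_exp p hp0
  have hζp : ζ ^ p = 1 := hprim.pow_eq_one
  set t₀ := μ i₀ with ht₀
  have ht₀n : ‖t₀‖ = 1 := Complex.norm_eq_one_of_pow_eq_one (hμ i₀) hp0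
  have ht₀0 : t₀ ≠ 0 := by intro h; rw [h] at ht₀n; simp at ht₀n
  have hex : ∀ i, ∃ e : ℕ, e < p ∧ ζ ^ e = μ i / t₀ := by
    intro i
    have hpw : (μ i / t₀) ^ p = 1 := by rw [div_pow, hμ i, hμ i₀, div_one]
    haveI : NeZero p := ⟨hp0⟩
    exact hprim.eq_pow_of_pow_eq_one hpw
  let a : ℂ → ℕ := fun v => if h : ∃ e : ℕ, e < p ∧ ζ ^ e = v / t₀ then h.choose else 0
  have ha : ∀ i, ζ ^ a (μ i) = μ i / t₀ := by
    intro i
    simp only [a, dif_pos (hex i)]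
    exact (hex i).choose_spec.2
  set T := Finset.univ.image μ with hT
  have ht₀T : t₀ ∈ T := Finset.mem_image_of_mem μ (Finset.mem_univ i₀)
  let f : Fin (6 ^ (s - 1) + 1) → (↥(T.erase t₀) → Fin 6) := fun j v =>
    ⟨(6 * ((j.val * a v.val) % p)) / p, by
      have : (j.val * a v.val) % p < p := Nat.mod_lt _ hp.pos
      exact Nat.div_lt_of_lt_mul (by omega)⟩
  have hcard : Fintype.card (↥(T.erase t₀) → Fin 6) < Fintype.card (Fin (6 ^ (s - 1) + 1)) := by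
    rw [Fintype.card_fun, Fintype.card_fin, Fintype.card_fin, Fintype.card_coe,
      Finset.card_erase_of_mem ht₀T]
    have h1 : T.card - 1 ≤ s - 1 := Nat.sub_le_sub_right hs 1
    have h2 := Nat.pow_le_pow_right (by norm_num : 0 < 6) h1
    omega
  obtain ⟨j₁, j₂, hne, hf⟩ := Fintype.exists_ne_map_eq_of_card_lt f hcard
  wlog hlt : j₁.val < j₂.val generalizing j₁ j₂
  · exact this j₂ j₁ hne.symm hf.symm (by have := Fin.val_ne_of_ne hne; omega)
  refine ⟨j₂.val - j₁.val, by omega, by have := j₂.isLt; omega, fun i => ?_⟩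
  by_cases hi : μ i = t₀
  · rw [hi]; simp
  have hv : μ i ∈ T.erase t₀ :=
    Finset.mem_erase.mpr ⟨hi, Finset.mem_image_of_mem μ (Finset.mem_univ i)⟩
  have hbox := congrFun hf ⟨μ i, hv⟩
  simp only [f, Fin.mk.injEq] at hbox
  set A := a (μ i) with hA
  set r₁ := (j₁.val * A) % p with hr₁
  set r₂ := (j₂.val * A) % p with hr₂
  have hmodpow : ∀ n : ℕ, ζ ^ n = ζ ^ (n % p) := by
    intro n
    conv_lhs => rw [← Nat.div_add_mod n p, pow_add, pow_mul, hζp, one_pow, one_mul]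
  have hk : ζ ^ ((j₂.val - j₁.val) * A) * ζ ^ r₁ = ζ ^ r₂ := by
    rw [hr₁, hr₂, ← hmodpow, ← hmodpow, ← pow_add]
    congr 1
    rw [← add_mul, Nat.sub_add_cancel hlt.le]
  have hmain : μ i ^ (j₂.val - j₁.val) - t₀ ^ (j₂.val - j₁.val)
      = t₀ ^ (j₂.val - j₁.val) * (ζ ^ ((j₂.val - j₁.val) * A) - 1) := by
    have : μ i = t₀ * ζ ^ A := by rw [ha i]; field_simp
    rw [this, mul_pow, ← pow_mul, mul_comm A]; ring
  rw [hmain, norm_mul, norm_pow, ht₀n, one_pow, one_mul]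
  have hr₁p : r₁ < p := Nat.mod_lt _ hp.pos
  have hr₂p : r₂ < p := Nat.mod_lt _ hp.pos
  have hd1 := Nat.div_add_mod (6 * r₁) p
  have hd2 := Nat.div_add_mod (6 * r₂) p
  have hm1 := Nat.mod_lt (6 * r₁) hp.pos
  have hm2 := Nat.mod_lt (6 * r₂) hp.pos
  rw [hbox] at hd1
  generalize p * (6 * r₂ / p) = Q at hd1 hd2
  have hζ0 : ζ ≠ 0 := Complex.exp_ne_zero _
  have hζn : ‖ζ‖ = 1 := Complex.norm_eq_one_of_pow_eq_one hζp hp0
  rcases le_total r₁ r₂ with hle | hle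
  · have e : ζ ^ ((j₂.val - j₁.val) * A) = ζ ^ (r₂ - r₁) := by
      have : ζ ^ (r₂ - r₁) * ζ ^ r₁ = ζ ^ r₂ := by rw [← pow_add, Nat.sub_add_cancel hle]
      exact mul_right_cancel₀ (pow_ne_zero _ hζ0) (hk.trans this.symm)
    rw [e]
    apply bl_arc p _ hp.pos
    omega
  · have e : ζ ^ ((j₂.val - j₁.val) * A) * ζ ^ (r₁ - r₂) = 1 := by
      have : ζ ^ (r₁ - r₂) * ζ ^ r₂ = ζ ^ r₁ := by rw [← pow_add, Nat.sub_add_cancel hle]
      have h2 : ζ ^ ((j₂.val - j₁.val) * A) * ζ ^ (r₁ - r₂) * ζ ^ r₂ = 1 * ζ ^ r₂ := by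
        rw [mul_assoc, this, hk, one_mul]
      exact mul_right_cancel₀ (pow_ne_zero _ hζ0) h2
    have e2 : ζ ^ ((j₂.val - j₁.val) * A) - 1
        = -(ζ ^ ((j₂.val - j₁.val) * A)) * (ζ ^ (r₁ - r₂) - 1) := by
      rw [mul_sub, neg_mul, neg_mul, e]; ring
    have hXn : ‖ζ ^ ((j₂.val - j₁.val) * A)‖ = 1 := by rw [norm_pow, hζn, one_pow]
    rw [e2, norm_mul, norm_neg, hXn, one_mul]
    apply bl_arc p _ hp.pos
    omega

end Cfsg.Agent.Helper74
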