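import Mathlib
import Cfsg.Prelude.Def_Blocks
import Cfsg.Agent.Helper77.BlockIdem
import Cfsg.Agent.Helper78.Counting
import Cfsg.Agent.Helper79.Codegree
import Cfsg.Agent.Helper80.CharIrr

/-!
# Characters of the principal block at a `p`-central element of order `p` (helper74)

For `χ` in the principal `p`-block and `x` of order `p` with all `x ^ k` of class size prime to
`p`, every eigenvalue multiplicity of `x` in `χ` is divisible by the full `p`-part of `χ(1)`.
Together with Osima's theorem this produces, for `|G| = p^a q^b g₀`, a non-principal irreducible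
character in which `x` has at most `g₀` distinct eigenvalues (Brauer).
-/

set_option autoImplicit false

namespace Cfsg.Agent.Helper74

open Cfsg

universe u

theorem bs_local_dvd {p : ℕ} {M : Ideal Cfsg.AlgInt} (hM : Cfsg.IsPModular p M) (c d N : ℕ)
    (hd : ¬ p ∣ d)
    (h : Cfsg.MemLocalIdeal M ((p : ℂ) * N / ((p ^ c * d : ℕ) : ℂ))) : p ^ c ∣ N := by
  haveI hP : M.IsPrime := Helper81.isPrime_of_isPModular hM
  have hp0 : (p : ℂ) ≠ 0 := by exact_mod_cast hM.1.ne_zero
  have hd0 : (d : ℂ) ≠ 0 := by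
    have : d ≠ 0 := by rintro rfl; exact hd (dvd_zero p)
    exact_mod_cast this
  have key : ∀ j, j ≤ c → p ^ j ∣ N := by
    intro j
    induction j with
    | zero => intro _; simp
    | succ j ih =>
      intro hj
      obtain ⟨N', hN'⟩ := ih (by omega)
      have h1 : Cfsg.MemLocalIdeal M ((N' : ℕ) : ℂ) := by
        have h2 : ((N' : ℕ) : ℂ) = ((p : ℂ) * N / ((p ^ c * d : ℕ) : ℂ))
            * ((p ^ (c - (j + 1)) * d : ℕ) : ℂ) := by
          rw [hN']
          push_cast
          have hc : (p : ℂ) ^ c = (p : ℂ) ^ (j + 1) * (p : ℂ) ^ (c - (j + 1)) := by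
            rw [← pow_add]; congr 1; omega
          rw [hc, pow_succ]
          field_simp
        rw [h2]
        exact Helper81.memLocalIdeal_mul_right h (Helper81.memLocalRing_natCast hP.ne_top _)
      obtain ⟨N'', hN''⟩ := (Helper81.memLocalIdeal_natCast_iff hM).mp h1
      exact ⟨N'', by rw [hN', hN'', pow_succ]; ring⟩
  exact key c le_rfl

theorem bs_block_char {G : Type u} [Group G] [Finite G] (p q a b g₀ : ℕ) (hp : p.Prime)
    (hq : q.Prime) (hg : Nat.card G = p ^ a * q ^ b * g₀)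
    (x : G) (hx : orderOf x = p)
    (hcl : ∀ k : ℕ, ¬ p ∣ (Subgroup.centralizer ({x ^ k} : Set G)).index) :
    ∃ χ : Cfsg.IrrCharacter G, (χ : G → ℂ) ≠ (fun _ => 1) ∧
      ∃ c d : ℕ, Cfsg.charDegree (χ : G → ℂ) = p ^ c * d ∧ d ∣ g₀ ∧
        ∀ v : ℂ, v ^ p = 1 → ∀ N : ℕ,
          (∑ k ∈ Finset.range p, v ^ k * (χ : G → ℂ) (x ^ k) = (p : ℂ) * N) → p ^ c ∣ N := by
  classical
  obtain ⟨M, hM⟩ := Cfsg.Agent.Helper78.exists_isPModular p hp
  haveI hP : M.IsPrime := Helper81.isPrime_of_isPModular hM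
  let _ := Fintype.ofFinite G
  haveI : Fintype (Cfsg.IrrCharacter G) := Fintype.ofFinite _
  set B := Cfsg.principalBlock M G with hB
  have hBblock : Cfsg.IsPBlock M B := ⟨Helper81.trivIrr G, Helper81.principalBlock_eq M⟩
  have hos := Helper77.blockCoeff_eq_zero_of_dvd_orderOf hM hBblock (y := x) (by rw [hx])
  rw [Helper77.blockCoeff_eq_sum] at hos
  have hcard : (Nat.card G : ℂ) ≠ 0 := by
    exact_mod_cast Nat.card_pos.ne'
  have hsum : ∑ χ : Cfsg.IrrCharacter G,
      (if χ ∈ B then (χ : G → ℂ) 1 * (χ : G → ℂ) x⁻¹ else 0) = 0 := by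
    rcases mul_eq_zero.mp hos with h | h
    · exact absurd (inv_eq_zero.mp h) hcard
    · exact h
  have hex : ∃ χ : Cfsg.IrrCharacter G, χ ∈ B ∧ χ ≠ Helper81.trivIrr G ∧
      ¬ q ∣ Cfsg.charDegree (χ : G → ℂ) := by
    by_contra hcon
    push Not at hcon
    have htriv : Helper81.trivIrr G ∈ B := Helper81.trivIrr_mem_principalBlock
    rw [← Finset.add_sum_erase _ _ (Finset.mem_univ (Helper81.trivIrr G)), if_pos htriv] at hsum
    simp only [Helper81.trivIrr_apply, one_mul] at hsum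
    have hZ : ∀ χ ∈ Finset.univ.erase (Helper81.trivIrr G),
        (if χ ∈ B then (χ : G → ℂ) 1 * (χ : G → ℂ) x⁻¹ else 0)
        = (q : ℂ) * (if χ ∈ B then ((Cfsg.charDegree (χ : G → ℂ) / q : ℕ) : ℂ)
            * (χ : G → ℂ) x⁻¹ else 0) := by
      intro χ hχ
      by_cases hχB : χ ∈ B
      · rw [if_pos hχB, if_pos hχB]
        obtain ⟨e, he⟩ := hcon χ hχB (Finset.ne_of_mem_erase hχ)
        rw [Helper81.irr_one_eq_charDegree χ, he, Nat.mul_div_cancel_left e hq.pos]
        push_cast; ring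
      · rw [if_neg hχB, if_neg hχB, mul_zero]
    rw [Finset.sum_congr rfl hZ, ← Finset.mul_sum] at hsum
    set Z := ∑ χ ∈ Finset.univ.erase (Helper81.trivIrr G),
      (if χ ∈ B then ((Cfsg.charDegree (χ : G → ℂ) / q : ℕ) : ℂ) * (χ : G → ℂ) x⁻¹ else 0)
      with hZdef
    have hZint : IsIntegral ℤ Z := by
      apply IsIntegral.sum
      intro χ _
      split_ifs
      · exact IsIntegral.mul (isIntegral_natCast _)
          (Helper80.isCharacter_isIntegral (Helper80.isCharacter_of_irr χ.2) _)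
      · exact isIntegral_zero
    have hq0 : (q : ℂ) ≠ 0 := by exact_mod_cast hq.ne_zero
    have h1 : IsIntegral ℤ (((1 : ℕ) : ℂ) / (q : ℂ)) := by
      have : ((1 : ℕ) : ℂ) / (q : ℂ) = -Z := by
        field_simp
        push_cast
        linear_combination hsum
      rw [this]
      exact hZint.neg
    have h2 := Cfsg.Agent.Helper78.nat_dvd_of_isIntegral_div hq.ne_zero h1
    exact hq.one_lt.ne' (Nat.dvd_one.mp h2)
  obtain ⟨χ, hχB, hχne, hχq⟩ := hex
  refine ⟨χ, ?_, ?_⟩
  · intro h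
    apply hχne
    exact Subtype.ext h
  set n := Cfsg.charDegree (χ : G → ℂ) with hn
  have hndvd : n ∣ Nat.card G := Helper79.irr_charDegree_dvd_card χ
  have hnpos : 0 < n := Helper80.irr_degree_pos χ
  obtain ⟨c, d, hpd, hnd⟩ := Nat.exists_eq_pow_mul_and_not_dvd hnpos.ne' p hp.ne_one
  have hddvd : d ∣ g₀ := by
    have h1 : d ∣ p ^ a * q ^ b * g₀ := by
      rw [← hg]
      exact Dvd.dvd.trans ⟨p ^ c, by rw [hnd]; ring⟩ hndvd
    have hdq : Nat.Coprime d q := by
      rw [Nat.coprime_comm, hq.coprime_iff_not_dvd]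
      intro hqd
      exact hχq (Dvd.dvd.trans hqd ⟨p ^ c, by rw [hnd]; ring⟩)
    have hdp : Nat.Coprime d p := by
      rw [Nat.coprime_comm, hp.coprime_iff_not_dvd]; exact hpd
    have h2 : Nat.Coprime d (p ^ a * q ^ b) :=
      Nat.Coprime.mul_right (hdp.pow_right a) (hdq.pow_right b)
    exact h2.dvd_of_dvd_mul_left h1
  refine ⟨c, d, hnd, hddvd, ?_⟩
  intro v hv N hN
  apply bs_local_dvd hM c d N hpd
  have hχ1 : (χ : G → ℂ) 1 = ((p ^ c * d : ℕ) : ℂ) := by
    rw [Helper80.irr_one_eq χ, ← hn, hnd]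
  rw [← hχ1, ← hN, Finset.sum_div]
  have hterm : ∀ k ∈ Finset.range p, v ^ k * (χ : G → ℂ) (x ^ k) / (χ : G → ℂ) 1
      = v ^ k - v ^ k * (1 - (χ : G → ℂ) (x ^ k) / (χ : G → ℂ) 1) := by
    intro k _; ring
  rw [Finset.sum_congr rfl hterm, Finset.sum_sub_distrib]
  apply Helper81.memLocalIdeal_sub
  · by_cases hv1 : v = 1
    · rw [hv1]
      simp only [one_pow, Finset.sum_const, Finset.card_range, nsmul_eq_mul, mul_one]
      exact Helper81.memLocalIdeal_natCast_of_dvd hM dvd_rfl
    · rw [geom_sum_eq hv1, hv, sub_self, zero_div]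
      exact Helper81.memLocalIdeal_zero hP.ne_top
  · apply Helper81.memLocalIdeal_sum
    intro k _
    apply Helper81.memLocalIdeal_mul_left
    · exact Helper81.memLocalRing_pow (Helper81.memLocalRing_of_isIntegral hP.ne_top
        (IsIntegral.of_pow hp.pos (by rw [hv]; exact isIntegral_one))) k
    · have hsb : Cfsg.SameBlock M (fun _ : G => (1 : ℂ)) (χ : G → ℂ) := hχB
      have h1 := hsb (x ^ k)
      simp only [Cfsg.centralChar] at h1
      set idx := (Subgroup.centralizer ({x ^ k} : Set G)).index with hidx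
      have h2 : (idx : ℂ) * 1 / 1 - (idx : ℂ) * (χ : G → ℂ) (x ^ k) / (χ : G → ℂ) 1
          = (idx : ℂ) * (1 - (χ : G → ℂ) (x ^ k) / (χ : G → ℂ) 1) := by ring
      rw [h2] at h1
      have hidxR : Cfsg.MemLocalRing M (idx : ℂ) := Helper81.memLocalRing_natCast hP.ne_top idx
      have hidxI : ¬ Cfsg.MemLocalIdeal M (idx : ℂ) :=
        Helper81.not_memLocalIdeal_natCast hM (hcl k)
      have hinv := Helper81.memLocalRing_inv hidxR hidxI
      have h3 := Helper81.memLocalIdeal_mul_left hinv h1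
      have hidx0 : (idx : ℂ) ≠ 0 := by
        intro h0
        apply hidxI
        rw [h0]
        exact Helper81.memLocalIdeal_zero hP.ne_top
      rwa [← mul_assoc, inv_mul_cancel₀ hidx0, one_mul] at h3

end Cfsg.Agent.Helper74
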