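import Mathlib
import Cfsg.Prelude.Def_Blocks
import Cfsg.Agent.Helper74.Blich2
import Cfsg.Agent.Helper74.Blich3
import Cfsg.Agent.Helper74.Blich4
import Cfsg.Agent.Helper80.CharEigen

/-!
# Brauer's refinement of Burnside's theorem (helper74)

A simple group of order `p^a q^b g₀ ≠ p` (`a > 0`) has `p < 6 ^ (g₀ - 1)`.
-/

set_option autoImplicit false

namespace Cfsg.Agent.Helper74

open Cfsg

universe u

theorem bl_eigen_of_basis {ι : Type*} [Fintype ι] {V : Type*} [AddCommGroup V] [Module ℂ V]
    (b : Module.Basis ι ℂ V) (f : Module.End ℂ V) (c : ι → ℂ) (hf : ∀ i, f (b i) = c i • b i)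
    (ν : ℂ) (hν : Module.End.HasEigenvalue f ν) : ∃ i, c i = ν := by
  classical
  obtain ⟨w, hw⟩ := hν.exists_hasEigenvector
  have hw1 : f w = ν • w := hw.apply_eq_smul
  have hrep : ∀ (u : V) (i : ι), b.repr (f u) i = c i * b.repr u i := by
    intro u i
    have h1 : f u = ∑ j, (b.repr u j) • f (b j) := by
      conv_lhs => rw [← b.sum_repr u]
      rw [map_sum]
      simp [map_smul]
    rw [h1, map_sum, Finset.sum_apply']
    simp only [map_smul, hf, Module.Basis.repr_self, Finsupp.smul_apply, smul_eq_mul,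
      Finsupp.single_apply]
    rw [Finset.sum_eq_single i]
    · simp; ring
    · intro j _ hji; simp [hji]
    · intro h; exact absurd (Finset.mem_univ i) h
  by_contra hcon
  push Not at hcon
  apply hw.2
  apply b.repr.injective
  ext i
  have h1 := hrep w i
  rw [hw1, map_smul, Finsupp.smul_apply, smul_eq_mul] at h1
  have h2 : (ν - c i) * b.repr w i = 0 := by rw [sub_mul, h1]; ring
  rcases mul_eq_zero.mp h2 with h | h
  · exact absurd (sub_eq_zero.mp h).symm (hcon i)
  · simpa using h

theorem brauer_six {G : Type u} [Group G] [Finite G] [IsSimpleGroup G] (p q a b g₀ : ℕ)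
    (hp : p.Prime) (hq : q.Prime) (ha : 0 < a) (hg : Nat.card G = p ^ a * q ^ b * g₀)
    (hne : Nat.card G ≠ p) : p < 6 ^ (g₀ - 1) := by
  classical
  by_contra hcon
  push Not at hcon
  haveI : Fact p.Prime := ⟨hp⟩
  have hg0 : 0 < g₀ := by
    rcases Nat.eq_zero_or_pos g₀ with h | h
    · rw [h, mul_zero] at hg; exact absurd hg Nat.card_pos.ne'
    · exact h
  have hsimp : ∀ N : Subgroup G, N.Normal → N = ⊥ ∨ N = ⊤ := fun N hN => hN.eq_bot_or_eq_top
  have hpd : p ∣ Nat.card G := by
    rw [hg]; exact dvd_mul_of_dvd_left (dvd_mul_of_dvd_left (dvd_pow_self p ha.ne') _) _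
  have hnab : ∃ a b : G, a * b ≠ b * a := by
    by_contra h
    push Not at h
    obtain ⟨y, hy⟩ := exists_prime_orderOf_dvd_card' p hpd
    have hN : (Subgroup.zpowers y).Normal := by
      refine ⟨fun n hn g => ?_⟩
      rw [h g n, mul_inv_cancel_right]
      exact hn
    rcases hsimp _ hN with hb | ht
    · have : y ∈ Subgroup.zpowers y := Subgroup.mem_zpowers y
      rw [hb, Subgroup.mem_bot] at this
      rw [this, orderOf_one] at hy
      exact hp.one_lt.ne' hy.symm
    · apply hne
      rw [← Subgroup.card_top (G := G), ← ht, Nat.card_zpowers, hy]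
  obtain ⟨x, hx, hcl⟩ : ∃ x : G, orderOf x = p ∧
      ∀ k : ℕ, ¬ p ∣ (Subgroup.centralizer ({x ^ k} : Set G)).index := by
    obtain ⟨P⟩ : Nonempty (Sylow p G) := inferInstance
    have hPcard : p ∣ Nat.card P := by
      rw [P.card_eq_multiplicity]
      apply dvd_pow_self
      exact (Nat.Prime.factorization_pos_of_dvd hp Nat.card_pos.ne' hpd).ne'
    haveI : Nontrivial P := by
      rw [← Finite.one_lt_card_iff_nontrivial]
      exact lt_of_lt_of_le hp.one_lt (Nat.le_of_dvd Nat.card_pos hPcard)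
    haveI hZnt : Nontrivial (Subgroup.center P) := P.2.center_nontrivial
    have hZ : p ∣ Nat.card (Subgroup.center P) := by
      have hZp : IsPGroup p (Subgroup.center P) := P.2.to_subgroup _
      rcases hZp.card_eq_or_dvd with h | h
      · exfalso
        have := Finite.one_lt_card_iff_nontrivial.mpr hZnt
        omega
      · exact h
    obtain ⟨z, hz⟩ := exists_prime_orderOf_dvd_card' p hZ
    refine ⟨((z : P) : G), ?_, ?_⟩
    · rw [Subgroup.orderOf_coe, Subgroup.orderOf_coe, hz]
    · intro k hk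
      have hle : (P : Subgroup G) ≤ Subgroup.centralizer ({((z : P) : G) ^ k} : Set G) := by
        intro g hg'
        rw [Subgroup.mem_centralizer_iff]
        intro y hy
        rw [Set.mem_singleton_iff] at hy
        subst hy
        have hzc : ((z : P) ^ k) ∈ Subgroup.center P := Subgroup.pow_mem _ z.2 k
        have h1 := Subgroup.mem_center_iff.mp hzc ⟨g, hg'⟩
        have h2 := congrArg (Subtype.val) h1
        simp only [Subgroup.coe_mul, Subgroup.coe_pow] at h2
        exact h2.symm
      exact P.not_dvd_index (Dvd.dvd.trans hk (Subgroup.index_dvd_of_le hle))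
  obtain ⟨χ, hχne, c, d, hdeg, hd, hmult⟩ := bs_block_char p q a b g₀ hp hq hg x hx hcl
  obtain ⟨n, ρ, hirr, hρ⟩ := χ.2
  obtain ⟨ι, hι, bb, μ, h1, h2, h3, h4, h5⟩ := Helper80.rep_exists_eigenbasis ρ x
  rw [hx] at h2
  have hn : Cfsg.charDegree (χ : G → ℂ) = n := by
    rw [← hρ]; exact Helper80.charDegree_rep_character ρ
  have hcardι : Fintype.card ι = n := by rw [h5]; simp
  have hpowb : ∀ (k : ℕ) (i : ι), ρ (x ^ k) (bb i) = (μ i ^ k) • bb i := by
    intro k i
    induction k with
    | zero => simp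
    | succ k ih =>
      rw [pow_succ, map_mul, Module.End.mul_apply, h1, map_smul, ih, smul_smul, pow_succ,
        mul_comm]
  have hχpow : ∀ k : ℕ, (χ : G → ℂ) (x ^ k) = ∑ i, μ i ^ k := by
    intro k
    rw [← hρ]
    exact Helper80.trace_eq_sum_of_eigenbasis bb (ρ (x ^ k)) _ (hpowb k)
  have hmul : ∀ i₁ : ι, p ^ c ∣ (Finset.univ.filter (fun i => μ i = μ i₁)).card := by
    intro i₁
    have hμ0 : μ i₁ ≠ 0 := by
      intro h0
      have := h3 i₁
      rw [h0] at this
      simp at this
    apply hmult (μ i₁)⁻¹ (by rw [inv_pow, h2, inv_one])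
    have e1 : ∀ k ∈ Finset.range p, (μ i₁)⁻¹ ^ k * (χ : G → ℂ) (x ^ k)
        = ∑ i, ((μ i₁)⁻¹ * μ i) ^ k := by
      intro k _
      rw [hχpow, Finset.mul_sum]
      exact Finset.sum_congr rfl fun i _ => by rw [mul_pow]
    rw [Finset.sum_congr rfl e1, Finset.sum_comm]
    have e2 : ∀ i ∈ Finset.univ, ∑ k ∈ Finset.range p, ((μ i₁)⁻¹ * μ i) ^ k
        = if μ i = μ i₁ then (p : ℂ) else 0 := by
      intro i _
      by_cases hi : μ i = μ i₁
      · rw [if_pos hi, hi, inv_mul_cancel₀ hμ0]; simp
      · rw [if_neg hi]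
        have hw1 : (μ i₁)⁻¹ * μ i ≠ 1 := by
          intro h
          apply hi
          have h' := congrArg (fun z => μ i₁ * z) h
          simp only [← mul_assoc, mul_inv_cancel₀ hμ0, one_mul, mul_one] at h'
          exact h'
        rw [geom_sum_eq hw1, mul_pow, inv_pow, h2, h2, inv_one, one_mul, sub_self, zero_div]
    rw [Finset.sum_congr rfl e2, Finset.sum_ite, Finset.sum_const_zero, add_zero,
      Finset.sum_const, nsmul_eq_mul, mul_comm]
  set T := Finset.univ.image μ with hT
  have hTcard : T.card * p ^ c ≤ n := by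
    have h6 := Finset.card_eq_sum_card_image μ (Finset.univ : Finset ι)
    rw [Finset.card_univ, hcardι] at h6
    rw [h6]
    calc T.card * p ^ c = ∑ t ∈ T, p ^ c := by rw [Finset.sum_const, smul_eq_mul]
      _ ≤ ∑ t ∈ T, (Finset.univ.filter (fun i => μ i = t)).card := by
        apply Finset.sum_le_sum
        intro t ht
        obtain ⟨i₁, -, rfl⟩ := Finset.mem_image.mp ht
        apply Nat.le_of_dvd _ (hmul i₁)
        exact Finset.card_pos.mpr ⟨i₁, by simp⟩
  have hTd : T.card ≤ d := by
    rw [← hn, hdeg, mul_comm] at hTcard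
    exact Nat.le_of_mul_le_mul_left hTcard (pow_pos hp.pos c)
  have hdg : d ≤ g₀ := Nat.le_of_dvd hg0 hd
  have hlt : 6 ^ (T.card - 1) < p := by
    have h7 : 6 ^ (T.card - 1) ≤ 6 ^ (g₀ - 1) := Nat.pow_le_pow_right (by norm_num) (by omega)
    rcases (h7.trans hcon).lt_or_eq with h | h
    · exact h
    · exfalso
      rcases Nat.eq_zero_or_pos (T.card - 1) with h0 | h0
      · rw [h0, pow_zero] at h
        exact hp.one_lt.ne' h.symm
      · have h2' : 2 ∣ p := by
          rw [← h]; exact Dvd.dvd.trans (by norm_num) (dvd_pow_self 6 h0.ne')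
        have h3' : 3 ∣ p := by
          rw [← h]; exact Dvd.dvd.trans (by norm_num) (dvd_pow_self 6 h0.ne')
        have e2 := (Nat.prime_dvd_prime_iff_eq Nat.prime_two hp).mp h2'
        have e3 := (Nat.prime_dvd_prime_iff_eq Nat.prime_three hp).mp h3'
        omega
  have hιne : Nonempty ι := by
    rw [← Fintype.card_pos_iff, hcardι, ← hn]
    exact Helper80.irr_degree_pos χ
  obtain ⟨i₀⟩ := hιne
  obtain ⟨k, hk0, hkp, hk⟩ := bl_dirichlet p hp μ h2 T.card le_rfl hlt i₀
  have hxk : x ^ k ≠ 1 := pow_ne_one_of_lt_orderOf hk0.ne' (by rw [hx]; exact hkp)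
  apply hxk
  apply bl_simple hsimp hnab ρ hirr ?_ (x ^ k) (μ i₀ ^ k) ?_ ?_
  · by_contra hall
    push Not at hall
    have hχc : ∀ g, (χ : G → ℂ) g = n := by
      intro g
      rw [← hρ]
      simp [Representation.character, hall g]
    let _ := Fintype.ofFinite G
    have horth := Helper80.irr_orthogonality_conj χ χ
    simp only [hχc, if_true, Finset.sum_const, Finset.card_univ, nsmul_eq_mul, map_natCast]
      at horth
    have hcard : (Fintype.card G : ℂ) ≠ 0 := by exact_mod_cast Fintype.card_ne_zero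
    have hnn : (n : ℂ) * n = 1 := by
      have : (Fintype.card G : ℂ) * ((n : ℂ) * n) = (Fintype.card G : ℂ) * 1 := by
        rw [mul_one]; exact horth
      exact mul_left_cancel₀ hcard this
    have hn1 : n = 1 := by
      have : n * n = 1 := by exact_mod_cast hnn
      exact Nat.eq_one_of_mul_eq_one_right this
    apply hχne
    funext g
    rw [hχc, hn1]; norm_num
  · exact Module.End.hasEigenvalue_of_hasEigenvector
      ⟨Module.End.mem_eigenspace_iff.mpr (hpowb k i₀), bb.ne_zero i₀⟩
  · intro ν hν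
    obtain ⟨i, hi⟩ := bl_eigen_of_basis bb (ρ (x ^ k)) (fun i => μ i ^ k) (hpowb k) ν hν
    rw [← hi]
    exact hk i

end Cfsg.Agent.Helper74
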