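import Mathlib

/-!
Piece KDIV of CALL S5975 (helper35): an `F`-subspace closed under the scalars of an extension
field `K'` has `F`-dimension divisible by `[K' : F]`.
-/

set_option autoImplicit false

namespace Cfsg.Agent.Helper74

open Matrix Module

variable {F : Type*} [Field F] {K' : Type*} [Field K'] [Algebra F K'] {V : Type*}
  [AddCommGroup V] [Module F V] [Module K' V] [IsScalarTower F K' V] [FiniteDimensional F V]

/-- PIECE KDIV -/
theorem c3e_kdiv [Finite F] [Finite K'] (W : Submodule F V)
    (hW : ∀ (c : K') (w : V), w ∈ W → c • w ∈ W) :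
    Module.finrank F K' ∣ Module.finrank F W := by
  let W' : Submodule K' V :=
    { carrier := (W : Set V)
      add_mem' := fun ha hb => W.add_mem ha hb
      zero_mem' := W.zero_mem
      smul_mem' := fun c w hw => hW c w hw }
  let e : ↥W ≃ₗ[F] ↥W' :=
    { toFun := fun w => ⟨w.1, w.2⟩
      invFun := fun w => ⟨w.1, w.2⟩
      map_add' := fun _ _ => rfl
      map_smul' := fun _ _ => rfl
      left_inv := fun _ => rfl
      right_inv := fun _ => rfl }
  rw [e.finrank_eq, ← Module.finrank_mul_finrank F K' ↥W']
  exact Dvd.intro _ rfl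

end Cfsg.Agent.Helper74
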