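/-
Helper library of seat helper74: the coset `G s` of a coprime cyclic complement `S = ⟨s⟩`.
Every element of `G s` is `G`-conjugate to an element of `C s`, `C = C_G(s)`; an element of `G`
conjugating `c s` to `c' s` (`c, c' ∈ C`) centralises `s`; hence for a function `F` invariant
under `G`-conjugation `|C| ∑_{g ∈ G} F (g s) = |G| ∑_{c ∈ C} F (c s)`.
-/
import Cfsg.Agent.Helper35.Coprime
import Cfsg.Agent.Helper74.GlaubSub

set_option autoImplicit false

namespace Cfsg.Agent.Helper74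

open scoped Pointwise

section TwistGen

variable {G : Type*} [Group G] [Fintype G] {C : Type*} [Group C] [Fintype C]

/-- The fibres of `(h, c) ↦ h * ι c * (τ h)⁻¹` all have `|C|` elements (general form: the two
twisted-conjugacy facts are hypotheses). -/
theorem card_twist_fiber_gen (τ : MulAut G)
    (hex : ∀ g : G, ∃ x : G, τ (x⁻¹ * g * τ x) = x⁻¹ * g * τ x)
    (hfx : ∀ u c c' : G, τ c = c → τ c' = c' → u * c = c' * τ u → τ u = u)
    (ι : C →* G) (hι : Function.Injective ι)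
    (hfix : ∀ g : G, τ g = g ↔ g ∈ ι.range) (g : G) [DecidableEq G] :
    (Finset.univ.filter (fun x : G × C => x.1 * ι x.2 * (τ x.1)⁻¹ = g)).card =
      Fintype.card C := by
  classical
  obtain ⟨h₀, hx⟩ := hex g
  obtain ⟨c₀, hc₀⟩ := (hfix _).mp hx
  have hg : g = h₀ * ι c₀ * (τ h₀)⁻¹ := by rw [hc₀]; group
  have hιfix : ∀ u : C, τ (ι u) = ι u := fun u => (hfix _).mpr ⟨u, rfl⟩
  symm
  rw [← Finset.card_univ]
  apply Finset.card_bij (fun (u : C) _ => ((h₀ * (ι u)⁻¹, u * c₀ * u⁻¹) : G × C))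
  · intro u _
    rw [Finset.mem_filter]
    refine ⟨Finset.mem_univ _, ?_⟩
    simp only [map_mul, map_inv, hιfix, mul_inv_rev, inv_inv]
    rw [hg]
    group
  · intro u _ u' _ huu
    have := congrArg Prod.fst huu
    simp only [mul_right_inj, inv_inj] at this
    exact hι this
  · rintro ⟨h, c⟩ hmem
    rw [Finset.mem_filter] at hmem
    have hhc : h * ι c * (τ h)⁻¹ = g := hmem.2
    set w := h⁻¹ * h₀ with hw
    have h1 : w * ι c₀ = ι c * τ w := by
      have e1 : h₀ * ι c₀ = g * τ h₀ := by rw [hg]; group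
      rw [hw, mul_assoc, e1, ← hhc, map_mul, map_inv]
      group
    have h2 : τ w = w := hfx w (ι c₀) (ι c) (hιfix c₀) (hιfix c) h1
    obtain ⟨u, hu⟩ := (hfix _).mp h2
    refine ⟨u, Finset.mem_univ _, ?_⟩
    have e2 : h = h₀ * (ι u)⁻¹ := by rw [hu, hw]; group
    have e3 : c = u * c₀ * u⁻¹ := by
      apply hι
      rw [map_mul, map_mul, map_inv, hu]
      rw [h2] at h1
      rw [h1]
      group
    rw [e2, ← e3]

/-- For `F` constant on twisted conjugacy classes, `|C| ∑_g F g = |G| ∑_c F (ι c)`. -/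
theorem sum_twist_class_gen (τ : MulAut G)
    (hex : ∀ g : G, ∃ x : G, τ (x⁻¹ * g * τ x) = x⁻¹ * g * τ x)
    (hfx : ∀ u c c' : G, τ c = c → τ c' = c' → u * c = c' * τ u → τ u = u)
    (ι : C →* G) (hι : Function.Injective ι)
    (hfix : ∀ g : G, τ g = g ↔ g ∈ ι.range) (F : G → ℂ)
    (hF : ∀ h g : G, F (h * g * (τ h)⁻¹) = F g) :
    (Fintype.card C : ℂ) * ∑ g : G, F g = (Fintype.card G : ℂ) * ∑ c : C, F (ι c) := by
  classical
  have h1 : ∑ x : G × C, F (x.1 * ι x.2 * (τ x.1)⁻¹) =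
      (Fintype.card G : ℂ) * ∑ c : C, F (ι c) := by
    rw [Fintype.sum_prod_type]
    simp only [hF]
    rw [Finset.sum_const, Finset.card_univ, nsmul_eq_mul]
  have h2 : ∑ x : G × C, F (x.1 * ι x.2 * (τ x.1)⁻¹) =
      (Fintype.card C : ℂ) * ∑ g : G, F g := by
    rw [← Finset.sum_fiberwise (Finset.univ : Finset (G × C))
      (fun x : G × C => x.1 * ι x.2 * (τ x.1)⁻¹) (fun x => F (x.1 * ι x.2 * (τ x.1)⁻¹))]
    rw [Finset.mul_sum]
    refine Finset.sum_congr rfl fun g _ => ?_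
    rw [Finset.sum_congr rfl (g := fun _ => F g)
      (fun x hx => by rw [(Finset.mem_filter.mp hx).2])]
    rw [Finset.sum_const, card_twist_fiber_gen τ hex hfx ι hι hfix g, nsmul_eq_mul]
  rw [← h2, h1]

end TwistGen

section Coset

variable {Γ : Type*} [Group Γ]

theorem conj_pow_mem (G : Subgroup Γ) {s : Γ} (hs : ∀ x ∈ G, s * x * s⁻¹ ∈ G) (j : ℕ) :
    ∀ x ∈ G, s ^ j * x * (s ^ j)⁻¹ ∈ G := by
  induction j with
  | zero => intro x hx; simpa using hx
  | succ j ih =>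
    intro x hx
    have h1 := hs _ (ih x hx)
    have h2 : s ^ (j + 1) * x * (s ^ (j + 1))⁻¹ = s * (s ^ j * x * (s ^ j)⁻¹) * s⁻¹ := by
      rw [pow_succ']
      group
    rw [h2]
    exact h1

/-- Powers of an element of the coset `G s`. -/
theorem pow_coset_mem (G : Subgroup Γ) {s g : Γ} (hs : ∀ x ∈ G, s * x * s⁻¹ ∈ G) (hg : g ∈ G)
    (j : ℕ) : ∃ g' ∈ G, (g * s) ^ j = g' * s ^ j := by
  induction j with
  | zero => exact ⟨1, G.one_mem, by simp⟩
  | succ j ih =>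
    obtain ⟨g', hg', h⟩ := ih
    refine ⟨g' * (s ^ j * g * (s ^ j)⁻¹), G.mul_mem hg' (conj_pow_mem G hs j g hg), ?_⟩
    rw [pow_succ, h, pow_succ]
    group

/-- An element conjugating `c s` to `c' s`, where `c, c'` have order prime to that of `s` and
commute with `s`, centralises `s`. -/
theorem conj_eq_of_conj_coset {G : Subgroup Γ} [Finite G] {s c c' u : Γ} (hc : c ∈ G)
    (hc' : c' ∈ G) (hcs : Commute c s) (hc's : Commute c' s)
    (hcop : (Nat.card G).Coprime (orderOf s)) (h : u * (c * s) * u⁻¹ = c' * s) :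
    u * s * u⁻¹ = s := by
  obtain ⟨m, hm0, hm1⟩ := Nat.chineseRemainder hcop 0 1
  have hdvd : Nat.card G ∣ (m : ℕ) := (Nat.modEq_zero_iff_dvd).mp hm0
  have hpow : ∀ x ∈ G, x ^ (m : ℕ) = 1 := by
    intro x hx
    have h1 : orderOf x ∣ Nat.card G := Subgroup.orderOf_dvd_natCard G hx
    exact orderOf_dvd_iff_pow_eq_one.mp (h1.trans hdvd)
  have hsm : s ^ (m : ℕ) = s := by
    have : s ^ (m : ℕ) = s ^ 1 := pow_eq_pow_iff_modEq.mpr hm1
    rw [this, pow_one]
  have e1 : (c * s) ^ (m : ℕ) = s := by rw [hcs.mul_pow, hpow c hc, one_mul, hsm]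
  have e2 : (c' * s) ^ (m : ℕ) = s := by rw [hc's.mul_pow, hpow c' hc', one_mul, hsm]
  calc u * s * u⁻¹ = u * (c * s) ^ (m : ℕ) * u⁻¹ := by rw [e1]
    _ = (u * (c * s) * u⁻¹) ^ (m : ℕ) := (conj_pow).symm
    _ = s := by rw [h, e2]

variable [Finite Γ]

/-- Every element of the coset `G s` is `G`-conjugate to `c s` with `c ∈ C_G(s)`. -/
theorem exists_conj_coset (G S : Subgroup Γ) (hnorm : ∀ s ∈ S, ∀ g ∈ G, s * g * s⁻¹ ∈ G)
    (hcop : (Nat.card G).Coprime (Nat.card S)) {s : Γ} (hs : Subgroup.zpowers s = S) {g : Γ}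
    (hg : g ∈ G) : ∃ x ∈ G, ∃ c ∈ G, Commute c s ∧ x⁻¹ * (g * s) * x = c * s := by
  have hsS : s ∈ S := hs ▸ Subgroup.mem_zpowers s
  have hsn : ∀ x ∈ G, s * x * s⁻¹ ∈ G := hnorm s hsS
  have hGS : G ⊓ S = ⊥ := disjoint_iff.mp (Subgroup.disjoint_of_coprime_natCard hcop)
  have hord : orderOf s = Nat.card S := by rw [← hs, Nat.card_zpowers]
  have hcop' : (Nat.card G).Coprime (orderOf s) := by rw [hord]; exact hcop
  obtain ⟨m, hm0, hm1⟩ := Nat.chineseRemainder hcop' 0 1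
  have hdvd : Nat.card G ∣ (m : ℕ) := (Nat.modEq_zero_iff_dvd).mp hm0
  have hsm : s ^ (m : ℕ) = s := by
    have : s ^ (m : ℕ) = s ^ 1 := pow_eq_pow_iff_modEq.mpr hm1
    rw [this, pow_one]
  set y := g * s with hy
  set v := y ^ (m : ℕ) with hv
  obtain ⟨g₁, hg₁, hvg⟩ := pow_coset_mem G hsn hg (m : ℕ)
  rw [← hy, ← hv, hsm] at hvg
  -- `v ^ n = 1`
  have hvn : v ^ (orderOf s) = 1 := by
    obtain ⟨g₂, hg₂, h2⟩ := pow_coset_mem G hsn hg (orderOf s)
    rw [pow_orderOf_eq_one, mul_one, ← hy] at h2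
    have h3 : orderOf g₂ ∣ Nat.card G := Subgroup.orderOf_dvd_natCard G hg₂
    rw [hv, ← pow_mul, mul_comm, pow_mul, h2]
    exact orderOf_dvd_iff_pow_eq_one.mp (h3.trans hdvd)
  -- the order of `v` is the order of `s`
  have hvord : orderOf v = orderOf s := by
    apply Nat.dvd_antisymm (orderOf_dvd_of_pow_eq_one hvn)
    rw [orderOf_dvd_iff_pow_eq_one]
    obtain ⟨g₃, hg₃, h3⟩ := pow_coset_mem G hsn hg₁ (orderOf v)
    rw [← hvg, pow_orderOf_eq_one] at h3
    have h4 : s ^ orderOf v ∈ G ⊓ S := by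
      refine ⟨?_, S.pow_mem hsS _⟩
      have : s ^ orderOf v = g₃⁻¹ := eq_inv_of_mul_eq_one_right h3.symm
      rw [this]
      exact G.inv_mem hg₃
    rw [hGS, Subgroup.mem_bot] at h4
    exact h4
  have hvmem : v ∈ G ⊔ S := by
    rw [hvg]
    exact Subgroup.mul_mem_sup hg₁ hsS
  have hB : Subgroup.zpowers v ≤ G ⊔ S := by
    rw [Subgroup.zpowers_le]
    exact hvmem
  have hcard : Nat.card (Subgroup.zpowers v) = Nat.card S := by
    rw [Nat.card_zpowers, hvord, hord]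
  have hSG : S ≤ Subgroup.normalizer (G : Set Γ) := by
    intro t ht
    rw [Subgroup.mem_normalizer_iff]
    intro x
    constructor
    · intro hx
      exact hnorm t ht x hx
    · intro hx
      have := hnorm t⁻¹ (S.inv_mem ht) _ hx
      have e : t⁻¹ * (t * x * t⁻¹) * t⁻¹⁻¹ = x := by group
      rw [e] at this
      exact this
  have hsolv : Group.IsSolvable S := by
    rw [← hs]
    apply Group.isSolvable_of_comm
    intro a b
    obtain ⟨i, hi⟩ := Subgroup.mem_zpowers_iff.mp a.2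
    obtain ⟨j, hj⟩ := Subgroup.mem_zpowers_iff.mp b.2
    apply Subtype.ext
    change (a : Γ) * (b : Γ) = (b : Γ) * (a : Γ)
    rw [← hi, ← hj]
    exact zpow_mul_comm s i j
  obtain ⟨x, hx, hxS⟩ := Cfsg.Agent.Helper35.isz (A := S) (N := G) (B := Subgroup.zpowers v)
    hSG hcop.symm (Or.inl hsolv) hB hcard
  have hxv : x⁻¹ * v * x ∈ S := by
    have : v ∈ MulAut.conj x • S := by rw [hxS]; exact Subgroup.mem_zpowers v
    exact Cfsg.Agent.Helper35.mem_conj_smul.mp this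
  -- `x⁻¹ v x = s`
  have hxvs : x⁻¹ * v * x = s := by
    have h1 : x⁻¹ * v * x * s⁻¹ ∈ G := by
      have e : x⁻¹ * v * x * s⁻¹ = x⁻¹ * g₁ * (s * x * s⁻¹) := by rw [hvg]; group
      rw [e]
      exact G.mul_mem (G.mul_mem (G.inv_mem hx) hg₁) (hsn x hx)
    have h2 : x⁻¹ * v * x * s⁻¹ ∈ G ⊓ S := ⟨h1, S.mul_mem hxv (S.inv_mem hsS)⟩
    rw [hGS, Subgroup.mem_bot] at h2
    exact mul_inv_eq_one.mp h2
  -- `u = y v⁻¹ ∈ G`
  have huG : y * v⁻¹ ∈ G := by
    have e : y * v⁻¹ = g * g₁⁻¹ := by rw [hy, hvg]; group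
    rw [e]
    exact G.mul_mem hg (G.inv_mem hg₁)
  have hcomm : Commute (y * v⁻¹) v := by
    have h1 : Commute y v := (Commute.refl y).pow_right _
    exact (h1.mul_left (Commute.refl v).inv_left)
  refine ⟨x, hx, x⁻¹ * (y * v⁻¹) * x, ?_, ?_, ?_⟩
  · have hGn : ∀ a ∈ G, x⁻¹ * a * x ∈ G := fun a ha =>
      G.mul_mem (G.mul_mem (G.inv_mem hx) ha) hx
    exact hGn _ huG
  · rw [← hxvs]
    have h1 : x⁻¹ * (y * v⁻¹) * x * (x⁻¹ * v * x) = x⁻¹ * ((y * v⁻¹) * v) * x := by group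
    have h2 : x⁻¹ * v * x * (x⁻¹ * (y * v⁻¹) * x) = x⁻¹ * (v * (y * v⁻¹)) * x := by group
    change x⁻¹ * (y * v⁻¹) * x * (x⁻¹ * v * x) = x⁻¹ * v * x * (x⁻¹ * (y * v⁻¹) * x)
    rw [h1, h2, hcomm.eq]
  · rw [← hxvs]
    group

end Coset

end Cfsg.Agent.Helper74
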