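/-
Helper library of seat helper74: for commuting subgroups `C`, `S` (`S` abelian) of a finite group
and a character `χ̂` of the group, the multiplicities `[c ↦ χ̂ (c y), β]_C` (`y ∈ S`,
`β ∈ Irr(C)`) are `ℕ`-combinations of the values `λ(y)` of the irreducible characters of `S`.
If moreover `χ̂ (c s^k) = χ̂ (c s)` for all `k` prime to `|S|`, the multiplicity at `s` is a
rational integer.
-/
import Cfsg.Agent.Helper75.RationalChar
import Cfsg.Agent.Helper79.Abelian
import Cfsg.Agent.Helper15.CharInner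
import Cfsg.Agent.Helper15.LinChar
import Cfsg.Agent.Helper80.CharOrtho

set_option autoImplicit false

namespace Cfsg.Agent.Helper74

open Cfsg

open scoped ComplexConjugate Classical

section Fourier

variable {Γ : Type*} [Group Γ]

/-- The multiplication homomorphism `C × S → Γ` for commuting subgroups. -/
def mulHom (C S : Subgroup Γ) (hCS : ∀ c ∈ C, ∀ x ∈ S, c * x = x * c) : C × S →* Γ where
  toFun p := (p.1 : Γ) * (p.2 : Γ)
  map_one' := by simp
  map_mul' p q := by
    change ((p.1 : Γ) * (q.1 : Γ)) * ((p.2 : Γ) * (q.2 : Γ)) =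
      (p.1 : Γ) * (p.2 : Γ) * ((q.1 : Γ) * (q.2 : Γ))
    have := hCS q.1 q.1.2 p.2 p.2.2
    calc (p.1 : Γ) * q.1 * (p.2 * q.2) = p.1 * (q.1 * p.2) * q.2 := by group
      _ = p.1 * (p.2 * q.1) * q.2 := by rw [this]
      _ = _ := by group

theorem mulHom_apply (C S : Subgroup Γ) (hCS : ∀ c ∈ C, ∀ x ∈ S, c * x = x * c) (p : C × S) :
    mulHom C S hCS p = (p.1 : Γ) * (p.2 : Γ) := rfl

theorem card_conj_filter_comm {S : Type*} [Group S] [Fintype S] (hSc : ∀ a b : S, a * b = b * a)
    (y x : S) [Decidable (x = y)] :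
    ((Finset.univ.filter (fun z : S => z * y * z⁻¹ = x)).card : ℂ) =
      if x = y then (Fintype.card S : ℂ) else 0 := by
  by_cases h : x = y
  · rw [if_pos h]
    have : Finset.univ.filter (fun z : S => z * y * z⁻¹ = x) = Finset.univ := by
      apply Finset.filter_true_of_mem
      intro z _
      rw [hSc z y, mul_inv_cancel_right, h]
    rw [this, Finset.card_univ]
  · rw [if_neg h]
    have : Finset.univ.filter (fun z : S => z * y * z⁻¹ = x) = ∅ := by
      apply Finset.filter_false_of_mem
      intro z _ hz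
      rw [hSc z y, mul_inv_cancel_right] at hz
      exact h hz.symm
    rw [this, Finset.card_empty, Nat.cast_zero]

variable [Fintype Γ]

/-- Fourier expansion of the multiplicities along `S`. -/
theorem exists_fourier (C S : Subgroup Γ) [Fintype C] [Fintype S]
    (hCS : ∀ c ∈ C, ∀ x ∈ S, c * x = x * c) (hSc : ∀ a b : S, a * b = b * a)
    {χh : Γ → ℂ} (hχh : IsCharacter Γ χh) (β : IrrCharacter C) [Fintype (IrrCharacter S)] :
    ∃ a : IrrCharacter S → ℕ, ∀ y : S,
      classInner (fun c : C => χh ((c : Γ) * (y : Γ))) (β : C → ℂ) =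
        ∑ l : IrrCharacter S, (a l : ℂ) * (l : S → ℂ) y := by
  have hΨ : IsCharacter (C × S) (fun p => χh (mulHom C S hCS p)) :=
    Helper79.isCharacter_comp hχh _
  have hΘ : ∀ l : IrrCharacter S,
      IsCharacter (C × S) (fun p : C × S => (β : C → ℂ) p.1 * (l : S → ℂ) p.2) := by
    intro l
    exact Helper79.isCharacter_mul
      (Helper79.isCharacter_comp (Helper79.irr_isCharacter β) (MonoidHom.fst C S))
      (Helper79.isCharacter_comp (Helper79.irr_isCharacter l) (MonoidHom.snd C S))
  choose a ha using fun l => Cfsg.Agent.Helper15.inner_nat hΨ (hΘ l)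
  refine ⟨a, fun y => ?_⟩
  have hC0 : (Nat.card C : ℂ) ≠ 0 := by exact_mod_cast Nat.card_pos.ne'
  have hS0 : (Nat.card S : ℂ) ≠ 0 := by exact_mod_cast Nat.card_pos.ne'
  have hcalc : ∀ l : IrrCharacter S, (a l : ℂ) = (Nat.card S : ℂ)⁻¹ *
      ∑ x : S, conj ((l : S → ℂ) x) *
        classInner (fun c : C => χh ((c : Γ) * (x : Γ))) (β : C → ℂ) := by
    intro l
    rw [← ha l]
    unfold classInner
    rw [Nat.card_prod, Fintype.sum_prod_type_right, Nat.cast_mul, mul_inv]
    have hx : ∀ x : S, ∑ c : C, χh (mulHom C S hCS (c, x)) *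
        conj ((β : C → ℂ) c * (l : S → ℂ) x) =
        conj ((l : S → ℂ) x) * ∑ c : C, χh ((c : Γ) * (x : Γ)) * conj ((β : C → ℂ) c) := by
      intro x
      rw [Finset.mul_sum]
      apply Finset.sum_congr rfl
      intro c _
      rw [mulHom_apply, map_mul]
      ring
    rw [Finset.sum_congr rfl (fun x _ => hx x), Finset.mul_sum, Finset.mul_sum]
    apply Finset.sum_congr rfl
    intro x _
    ring
  have hsum : ∀ x : S, ∑ l : IrrCharacter S, (l : S → ℂ) y * conj ((l : S → ℂ) x) =
      if x = y then (Fintype.card S : ℂ) else 0 := by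
    intro x
    rw [Helper80.irr_sum_mul_conj y x]
    exact card_conj_filter_comm hSc y x
  calc classInner (fun c : C => χh ((c : Γ) * (y : Γ))) (β : C → ℂ)
      = (Nat.card S : ℂ)⁻¹ * ∑ x : S,
          classInner (fun c : C => χh ((c : Γ) * (x : Γ))) (β : C → ℂ) *
            ∑ l : IrrCharacter S, (l : S → ℂ) y * conj ((l : S → ℂ) x) := by
        simp only [hsum, mul_ite, mul_zero]
        rw [Finset.sum_ite_eq' Finset.univ y, if_pos (Finset.mem_univ y),
          Nat.card_eq_fintype_card]
        have hS0' : (Fintype.card S : ℂ) ≠ 0 := by exact_mod_cast Fintype.card_ne_zero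
        field_simp
    _ = ∑ l : IrrCharacter S, (a l : ℂ) * (l : S → ℂ) y := by
        simp only [hcalc, Finset.mul_sum, Finset.sum_mul]
        rw [Finset.sum_comm]
        apply Finset.sum_congr rfl
        intro l _
        apply Finset.sum_congr rfl
        intro x _
        ring

/-- If the twisted values do not depend on the generator, the multiplicity is an integer. -/
theorem coset_inner_int (C S : Subgroup Γ) [Fintype C] [Fintype S]
    (hCS : ∀ c ∈ C, ∀ x ∈ S, c * x = x * c) (hSc : ∀ a b : S, a * b = b * a)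
    {χh : Γ → ℂ} (hχh : IsCharacter Γ χh) (β : IrrCharacter C) (s : S)
    (hgen : ∀ k : ℕ, k.Coprime (Nat.card S) → ∀ c : C,
      χh ((c : Γ) * ((s ^ k : S) : Γ)) = χh ((c : Γ) * (s : Γ))) :
    ∃ m : ℤ, classInner (fun c : C => χh ((c : Γ) * (s : Γ))) (β : C → ℂ) = (m : ℂ) := by
  haveI : Fintype (IrrCharacter S) := Fintype.ofFinite _
  obtain ⟨a, ha⟩ := exists_fourier C S hCS hSc hχh β
  have hn : Nat.card S ≠ 0 := Nat.card_pos.ne'
  have hlin : ∀ l : IrrCharacter S, ∃ f : S →* ℂˣ, ∀ x : S, (l : S → ℂ) x = (f x : ℂ) := by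
    intro l
    apply Cfsg.Agent.Helper15.linChar_exists_hom
    refine ⟨Helper79.irr_isCharacter l, ?_⟩
    rw [Helper80.irr_one_eq l, Helper79.irr_charDegree_eq_one_of_comm hSc l, Nat.cast_one]
  choose f hf using hlin
  have hpow : ∀ (l : IrrCharacter S) (k : ℕ), (l : S → ℂ) (s ^ k) = ((l : S → ℂ) s) ^ k := by
    intro l k
    rw [hf, hf, map_pow, Units.val_pow_eq_pow_val]
  have hroot : ∀ l : IrrCharacter S, ((l : S → ℂ) s) ^ Nat.card S = 1 := by
    intro l
    rw [← hpow, pow_card_eq_one', hf, map_one, Units.val_one]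
  rw [ha s]
  apply Helper75.int_of_fixed (Nat.card S) hn
  · apply sum_mem
    intro l _
    exact mul_mem (natCast_mem _ _) (Helper75.mem_cycField_of_pow_eq_one _ hn (hroot l))
  · apply IsIntegral.sum
    intro l _
    exact IsIntegral.mul (isIntegral_natCast _)
      (Helper80.isCharacter_isIntegral (Helper79.irr_isCharacter l) s)
  · intro σ
    obtain ⟨k, hk, hσ⟩ := Helper75.exists_pow_of_ringEquiv σ (Nat.card S) hn
    rw [map_sum]
    have e1 : ∀ l : IrrCharacter S, σ ((a l : ℂ) * (l : S → ℂ) s) =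
        (a l : ℂ) * (l : S → ℂ) (s ^ k) := by
      intro l
      rw [map_mul, map_natCast, hσ _ (hroot l), hpow]
    rw [Finset.sum_congr rfl (fun l _ => e1 l), ← ha (s ^ k), ← ha s]
    congr 1
    funext c
    exact hgen k hk c

end Fourier

end Cfsg.Agent.Helper74
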