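/-
Helper library of seat helper74: coprime cyclic complement `S = ⟨s⟩` of `G`, `C = C_G(S)`.
Coset sum formula `|C| ∑_{g ∈ G} F (g s) = |G| ∑_{c ∈ C} F (c s)` and twisted orthogonality of
the functions `c ↦ χ̂ (c s)` on `C` for characters `χ̂` of the ambient group whose restriction to
`G` is irreducible.
-/
import Cfsg.Agent.Helper74.CycCoset
import Cfsg.Agent.Helper74.IrrRep
import Cfsg.Agent.Helper74.GlaubTw

set_option autoImplicit false

namespace Cfsg.Agent.Helper74

open Cfsg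

section CycSum

variable {Γ : Type*} [Group Γ] [Fintype Γ]

theorem mem_centralizer_zpowers_iff {s : Γ} {S : Subgroup Γ} (hs : Subgroup.zpowers s = S)
    (x : Γ) : x ∈ Subgroup.centralizer (S : Set Γ) ↔ s * x = x * s := by
  have hsS : s ∈ S := hs ▸ Subgroup.mem_zpowers s
  rw [Subgroup.mem_centralizer_iff]
  constructor
  · intro h; exact h s hsS
  · intro h t ht
    rw [← hs] at ht
    obtain ⟨i, rfl⟩ := Subgroup.mem_zpowers_iff.mp ht
    exact (Commute.zpow_left (show Commute s x from h) i).eq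

/-- `|C| ∑_{g ∈ G} F (g s) = |G| ∑_{c ∈ C} F (c s)` for `F` invariant under `G`-conjugation. -/
theorem sum_coset_eq (G S C : Subgroup Γ) [Fintype G] [Fintype C]
    (hnorm : ∀ s ∈ S, ∀ g ∈ G, s * g * s⁻¹ ∈ G) (hcop : (Nat.card G).Coprime (Nat.card S))
    (hC : C = G ⊓ Subgroup.centralizer (S : Set Γ)) (hCG : C ≤ G) {s : Γ}
    (hs : Subgroup.zpowers s = S) (F : Γ → ℂ) (hF : ∀ x ∈ G, ∀ y, F (x * y * x⁻¹) = F y) :
    (Fintype.card C : ℂ) * ∑ g : G, F ((g : Γ) * s) =
      (Fintype.card G : ℂ) * ∑ c : C, F ((c : Γ) * s) := by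
  classical
  have hsS : s ∈ S := hs ▸ Subgroup.mem_zpowers s
  set τ : MulAut G := conjHom G S hnorm ⟨s, hsS⟩ with hτ
  have hτv : ∀ g : G, ((τ g : G) : Γ) = s * g * s⁻¹ := fun g => rfl
  have hord : orderOf s = Nat.card S := by rw [← hs, Nat.card_zpowers]
  have hfix : ∀ g : G, τ g = g ↔ g ∈ (Subgroup.inclusion hCG).range := by
    intro g
    constructor
    · intro h
      have h1 : s * (g : Γ) * s⁻¹ = g := congrArg Subtype.val h
      have hgC : (g : Γ) ∈ C := by
        rw [hC]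
        refine ⟨g.2, (mem_centralizer_zpowers_iff hs _).mpr ?_⟩
        calc s * (g : Γ) = s * g * s⁻¹ * s := by group
          _ = g * s := by rw [h1]
      exact ⟨⟨g, hgC⟩, rfl⟩
    · rintro ⟨c, rfl⟩
      apply Subtype.ext
      change s * (c : Γ) * s⁻¹ = c
      have hc : (c : Γ) ∈ G ⊓ Subgroup.centralizer (S : Set Γ) := hC ▸ c.2
      rw [(mem_centralizer_zpowers_iff hs _).mp hc.2]
      group
  have hex : ∀ g : G, ∃ x : G, τ (x⁻¹ * g * τ x) = x⁻¹ * g * τ x := by
    intro g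
    obtain ⟨x, hx, c, hc, hcs, h⟩ := exists_conj_coset G S hnorm hcop hs g.2
    refine ⟨⟨x, hx⟩, ?_⟩
    have e : (((⟨x, hx⟩ : G)⁻¹ * g * τ ⟨x, hx⟩ : G) : Γ) = c := by
      change x⁻¹ * (g : Γ) * (s * x * s⁻¹) = c
      have : x⁻¹ * (g : Γ) * (s * x * s⁻¹) = x⁻¹ * (g * s) * x * s⁻¹ := by group
      rw [this, h]
      group
    apply Subtype.ext
    rw [hτv, e, ← hcs.eq]
    group
  have hfx : ∀ u c c' : G, τ c = c → τ c' = c' → u * c = c' * τ u → τ u = u := by
    intro u c c' hc hc' h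
    have hc1 : s * (c : Γ) * s⁻¹ = c := congrArg Subtype.val hc
    have hc1' : s * (c' : Γ) * s⁻¹ = c' := congrArg Subtype.val hc'
    have h1 : (u : Γ) * c = c' * (s * u * s⁻¹) := congrArg Subtype.val h
    have hcs : Commute (c : Γ) s := by
      change (c : Γ) * s = s * c
      calc (c : Γ) * s = s * c * s⁻¹ * s := by rw [hc1]
        _ = s * c := by group
    have hcs' : Commute (c' : Γ) s := by
      change (c' : Γ) * s = s * c'
      calc (c' : Γ) * s = s * c' * s⁻¹ * s := by rw [hc1']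
        _ = s * c' := by group
    have h2 : (u : Γ) * (c * s) * (u : Γ)⁻¹ = c' * s := by
      have : (u : Γ) * (c * s) * (u : Γ)⁻¹ = (u * c) * s * (u : Γ)⁻¹ := by group
      rw [this, h1]
      group
    have h3 := conj_eq_of_conj_coset c.2 c'.2 hcs hcs' (by rw [hord]; exact hcop) h2
    apply Subtype.ext
    change s * (u : Γ) * s⁻¹ = u
    calc s * (u : Γ) * s⁻¹ = (u * s * (u : Γ)⁻¹) * u * s⁻¹ := by rw [h3]
      _ = u := by group
  have key := sum_twist_class_gen τ hex hfx (Subgroup.inclusion hCG)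
    (Subgroup.inclusion_injective hCG) hfix (fun g : G => F ((g : Γ) * s)) (by
      intro h g
      change F (((h * g * (τ h)⁻¹ : G) : Γ) * s) = F ((g : Γ) * s)
      have : ((h * g * (τ h)⁻¹ : G) : Γ) * s = (h : Γ) * ((g : Γ) * s) * (h : Γ)⁻¹ := by
        change (h : Γ) * g * (s * h * s⁻¹)⁻¹ * s = _
        group
      rw [this, hF h h.2])
  exact key

/-- Twisted orthogonality on the coset `G s`. -/
theorem sum_coset_orth_self (G : Subgroup Γ) [Fintype G] {s : Γ}
    (hsn : ∀ g ∈ G, s * g * s⁻¹ ∈ G) (hsn' : ∀ g ∈ G, s⁻¹ * g * s ∈ G)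
    {d : ℕ} (ρ : Representation ℂ Γ (Fin d → ℂ))
    (hirr : IsIrrCharacter G (fun g : G => ρ.character g)) :
    ∑ g : G, ρ.character ((g : Γ) * s) * (starRingEnd ℂ) (ρ.character ((g : Γ) * s)) =
      (Fintype.card G : ℂ) := by
  set ρG : Representation ℂ G (Fin d → ℂ) := MonoidHom.comp ρ G.subtype with hρG
  haveI : ρG.IsIrreducible := isIrreducible_of_irr_character ρG hirr
  have hp : orderOf s ≠ 0 := (orderOf_pos s).ne'
  have hA : (ρ s) ^ orderOf s = 1 := by rw [← map_pow, pow_orderOf_eq_one, map_one]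
  have hAρ : ∀ g : G, ρ s * ρG g = ρG (conjAut G s hsn hsn' g) * ρ s := by
    intro g
    change ρ s * ρ (g : Γ) = ρ (s * (g : Γ) * s⁻¹) * ρ s
    rw [← map_mul, ← map_mul]
    congr 1
    group
  have h := sum_tw_mul_conj (conjAut G s hsn hsn') ρG (ρ s) hp hA hAρ 1
  have htw : ∀ g : G, tw ρG (ρ s) 1 g = ρ.character ((g : Γ) * s) := by
    intro g
    unfold tw Representation.character
    rw [pow_one]
    change LinearMap.trace ℂ _ (ρ (g : Γ) * ρ s) = _
    rw [← map_mul]
  simp only [htw] at h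
  exact h

theorem sum_coset_orth_cross (G : Subgroup Γ) [Fintype G] {s : Γ}
    (hsn : ∀ g ∈ G, s * g * s⁻¹ ∈ G) (hsn' : ∀ g ∈ G, s⁻¹ * g * s ∈ G)
    {d d' : ℕ} (ρ : Representation ℂ Γ (Fin d → ℂ)) (ρ' : Representation ℂ Γ (Fin d' → ℂ))
    (hirr : IsIrrCharacter G (fun g : G => ρ.character g))
    (hirr' : IsIrrCharacter G (fun g : G => ρ'.character g))
    (hne : (fun g : G => ρ.character g) ≠ (fun g : G => ρ'.character g)) :
    ∑ g : G, ρ.character ((g : Γ) * s) * (starRingEnd ℂ) (ρ'.character ((g : Γ) * s)) = 0 := by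
  set ρG : Representation ℂ G (Fin d → ℂ) := MonoidHom.comp ρ G.subtype with hρG
  set ρG' : Representation ℂ G (Fin d' → ℂ) := MonoidHom.comp ρ' G.subtype with hρG'
  haveI : ρG.IsIrreducible := isIrreducible_of_irr_character ρG hirr
  haveI : ρG'.IsIrreducible := isIrreducible_of_irr_character ρG' hirr'
  have hp : orderOf s ≠ 0 := (orderOf_pos s).ne'
  have hA' : (ρ' s) ^ orderOf s = 1 := by rw [← map_pow, pow_orderOf_eq_one, map_one]
  have hAρ' : ∀ g : G, ρ' s * ρG' g = ρG' (conjAut G s hsn hsn' g) * ρ' s := by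
    intro g
    change ρ' s * ρ' (g : Γ) = ρ' (s * (g : Γ) * s⁻¹) * ρ' s
    rw [← map_mul, ← map_mul]
    congr 1
    group
  have h := sum_tw_mul_conj_cross (conjAut G s hsn hsn') ρG (ρ s) ρG' (ρ' s) hne hp hA' hAρ' 1
  have htw : ∀ g : G, tw ρG (ρ s) 1 g = ρ.character ((g : Γ) * s) := by
    intro g
    unfold tw Representation.character
    rw [pow_one]
    change LinearMap.trace ℂ _ (ρ (g : Γ) * ρ s) = _
    rw [← map_mul]
  have htw' : ∀ g : G, tw ρG' (ρ' s) 1 g = ρ'.character ((g : Γ) * s) := by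
    intro g
    unfold tw Representation.character
    rw [pow_one]
    change LinearMap.trace ℂ _ (ρ' (g : Γ) * ρ' s) = _
    rw [← map_mul]
  simp only [htw, htw'] at h
  exact h

end CycSum

end Cfsg.Agent.Helper74
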