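/-
Helper library of seat helper74: coprime cyclic complement `S = ⟨s⟩` of `G`, `C = C_G(S)`.
The functions `c ↦ χ̂ (c s)` on `C` (for characters `χ̂` of the ambient group whose restrictions to
`G` are irreducible) are orthonormal.
-/
import Cfsg.Agent.Helper74.CycSum

set_option autoImplicit false

namespace Cfsg.Agent.Helper74

open Cfsg

section CycOrth

variable {Γ : Type*} [Group Γ] [Fintype Γ]

theorem classInner_coset_self (G S C : Subgroup Γ) [Fintype G] [Fintype C]
    (hnorm : ∀ s ∈ S, ∀ g ∈ G, s * g * s⁻¹ ∈ G) (hcop : (Nat.card G).Coprime (Nat.card S))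
    (hC : C = G ⊓ Subgroup.centralizer (S : Set Γ)) (hCG : C ≤ G) {s : Γ}
    (hs : Subgroup.zpowers s = S) {χh : Γ → ℂ} (hχh : IsCharacter Γ χh)
    (hres : IsIrrCharacter G (fun g : G => χh g)) :
    classInner (fun c : C => χh ((c : Γ) * s)) (fun c : C => χh ((c : Γ) * s)) = 1 := by
  obtain ⟨d, ρ, rfl⟩ := hχh
  have hsS : s ∈ S := hs ▸ Subgroup.mem_zpowers s
  have hsn : ∀ g ∈ G, s * g * s⁻¹ ∈ G := hnorm s hsS
  have hsn' : ∀ g ∈ G, s⁻¹ * g * s ∈ G := by
    intro g hg
    have := hnorm s⁻¹ (S.inv_mem hsS) g hg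
    rwa [inv_inv] at this
  have h1 := sum_coset_eq G S C hnorm hcop hC hCG hs
    (fun y => ρ.character y * (starRingEnd ℂ) (ρ.character y)) (by
      intro x _ y
      rw [Representation.char_conj])
  have h2 := sum_coset_orth_self G hsn hsn' ρ hres
  rw [h2] at h1
  have hG0 : (Fintype.card G : ℂ) ≠ 0 := by exact_mod_cast Fintype.card_ne_zero
  have hC0 : (Fintype.card C : ℂ) ≠ 0 := by exact_mod_cast Fintype.card_ne_zero
  have h3 : ∑ c : C, ρ.character ((c : Γ) * s) * (starRingEnd ℂ) (ρ.character ((c : Γ) * s)) =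
      (Fintype.card C : ℂ) := by
    apply mul_left_cancel₀ hG0
    rw [← h1]
    ring
  unfold classInner
  rw [Nat.card_eq_fintype_card, h3]
  field_simp

theorem classInner_coset_cross (G S C : Subgroup Γ) [Fintype G] [Fintype C]
    (hnorm : ∀ s ∈ S, ∀ g ∈ G, s * g * s⁻¹ ∈ G) (hcop : (Nat.card G).Coprime (Nat.card S))
    (hC : C = G ⊓ Subgroup.centralizer (S : Set Γ)) (hCG : C ≤ G) {s : Γ}
    (hs : Subgroup.zpowers s = S) {χh χh' : Γ → ℂ} (hχh : IsCharacter Γ χh)
    (hχh' : IsCharacter Γ χh')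
    (hres : IsIrrCharacter G (fun g : G => χh g)) (hres' : IsIrrCharacter G (fun g : G => χh' g))
    (hne : (fun g : G => χh g) ≠ (fun g : G => χh' g)) :
    classInner (fun c : C => χh ((c : Γ) * s)) (fun c : C => χh' ((c : Γ) * s)) = 0 := by
  obtain ⟨d, ρ, rfl⟩ := hχh
  obtain ⟨d', ρ', rfl⟩ := hχh'
  have hsS : s ∈ S := hs ▸ Subgroup.mem_zpowers s
  have hsn : ∀ g ∈ G, s * g * s⁻¹ ∈ G := hnorm s hsS
  have hsn' : ∀ g ∈ G, s⁻¹ * g * s ∈ G := by
    intro g hg
    have := hnorm s⁻¹ (S.inv_mem hsS) g hg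
    rwa [inv_inv] at this
  have h1 := sum_coset_eq G S C hnorm hcop hC hCG hs
    (fun y => ρ.character y * (starRingEnd ℂ) (ρ'.character y)) (by
      intro x _ y
      rw [Representation.char_conj, Representation.char_conj])
  have h2 := sum_coset_orth_cross G hsn hsn' ρ ρ' hres hres' hne
  rw [h2, mul_zero] at h1
  have hG0 : (Fintype.card G : ℂ) ≠ 0 := by exact_mod_cast Fintype.card_ne_zero
  have h3 : ∑ c : C, ρ.character ((c : Γ) * s) * (starRingEnd ℂ) (ρ'.character ((c : Γ) * s)) =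
      0 := by
    rcases mul_eq_zero.mp h1.symm with h | h
    · exact absurd h hG0
    · exact h
  unfold classInner
  rw [h3, mul_zero]

end CycOrth

end Cfsg.Agent.Helper74
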