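/-
Helper library of seat helper74: the canonical extension (determinantal order prime to the index)
of an irreducible character of a normal Hall subgroup is fixed by the Galois automorphisms that
fix the `|G|`-th roots of unity: `χ̂ (y ^ m) = χ̂ y` for `m ≡ 1 (mod |G|)`, `m` prime to `|Γ|`.
-/
import Cfsg.Agent.Helper15.DetChar
import Cfsg.Agent.Helper75.Galois
import Cfsg.Agent.Helper74.PDeg

set_option autoImplicit false

namespace Cfsg.Agent.Helper74

open Cfsg

universe u

section CycRat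

theorem detChar_ringEquiv {G : Type u} [Group G] [Finite G] (σ : ℂ ≃+* ℂ) {χ : G → ℂ}
    (hχ : IsCharacter G χ) : detChar (fun g => σ (χ g)) = fun g => σ (detChar χ g) := by
  obtain ⟨n, ρ, rfl⟩ := hχ
  have h1 := Cfsg.Agent.Helper15.detChar_of_rep ρ ρ.character ⟨n, ρ, rfl⟩ rfl
  have h2 := Cfsg.Agent.Helper15.detChar_of_rep (Helper75.twist σ ρ)
    (fun g => σ (ρ.character g)) (Helper75.isCharacter_ringEquiv σ ⟨n, ρ, rfl⟩)
    (funext fun g => Helper75.twist_character σ ρ g)
  rw [h1, h2]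
  funext g
  rw [Helper75.twist_apply, LinearMap.det_toLin']
  change _ = σ (LinearMap.det (ρ g))
  rw [← LinearMap.det_toMatrix' (ρ g)]
  exact (RingHom.map_det σ.toRingHom _).symm

theorem detOrder_ringEquiv {G : Type u} [Group G] [Finite G] (σ : ℂ ≃+* ℂ) {χ : G → ℂ}
    (hχ : IsCharacter G χ) : detOrder (fun g => σ (χ g)) = detOrder χ := by
  unfold detOrder
  rw [detChar_ringEquiv σ hχ]
  let Φ : (G → ℂ) →* (G → ℂ) :=
    { toFun := fun f g => σ (f g)
      map_one' := by funext g; simp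
      map_mul' := fun f h => by funext g; simp }
  have hinj : Function.Injective Φ := fun f h hfh => by
    funext g
    exact σ.injective (congrFun hfh g)
  exact orderOf_injective Φ hinj (detChar χ)

/-- The canonical extension is fixed by `y ↦ y ^ m` for `m ≡ 1 (mod |G|)` prime to `|Γ|`. -/
theorem canonical_pow_eq {Γ : Type u} [Group Γ] [Finite Γ] (G : Subgroup Γ) [hG : G.Normal]
    (hcop : (Nat.card G).Coprime G.index) (χh : Γ → ℂ) (hχh : IsIrrCharacter Γ χh)
    (hres : IsIrrCharacter G (fun g : G => χh g)) (hdet : (detOrder χh).Coprime G.index)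
    (m : ℕ) (hm : m.Coprime (Nat.card Γ)) (hm1 : m ≡ 1 [MOD Nat.card G]) (y : Γ) :
    χh (y ^ m) = χh y := by
  have hχc : IsCharacter Γ χh := Helper79.isCharacter_of_irr hχh
  have hinv : ∀ (g : Γ) (n : G),
      (fun g : G => χh g) ⟨g * n * g⁻¹, hG.conj_mem (n : Γ) n.2 g⟩ = (fun g : G => χh g) n := by
    intro g n
    exact Helper79.isCharacter_isClassFunction hχc (n : Γ) g
  have hd : (fun g : G => χh g) 1 = (charDegree (fun g : G => χh g) : ℂ) :=
    Helper80.irr_one_eq ⟨_, hres⟩
  have h1 : detOrder (fun g : G => χh g) ∣ Nat.card G :=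
    detOrder_dvd_card (Helper79.isCharacter_of_irr hres)
  have h2 : charDegree (fun g : G => χh g) ∣ Nat.card G :=
    Helper79.irr_charDegree_dvd_card ⟨_, hres⟩
  have hc : Nat.Coprime G.index (detOrder (fun g : G => χh g) * charDegree (fun g : G => χh g)) :=
    Nat.Coprime.mul_right (Nat.Coprime.coprime_dvd_right h1 hcop.symm)
      (Nat.Coprime.coprime_dvd_right h2 hcop.symm)
  obtain ⟨χ₀, -, huniq⟩ := Cfsg.Agent.S0867.result G (fun g : G => χh g) hres hinv _ hd hc
  have e1 : χh = χ₀ := huniq χh hχh (fun n => rfl) hdet.symm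
  obtain ⟨σ, hσ⟩ := Helper75.exists_ringEquiv_pow (Nat.card Γ) Nat.card_pos.ne' m hm
  have hpow : ∀ y, σ (χh y) = χh (y ^ m) := by
    obtain ⟨n, ρ, -, rfl⟩ := hχh
    intro y
    exact (Helper75.character_pow_eq ρ σ m hσ y).symm
  have e2 : (fun y => σ (χh y)) = χ₀ := by
    apply huniq _ (Helper75.isIrrCharacter_ringEquiv σ hχh)
    · intro n
      rw [hpow]
      have h3 : orderOf (n : Γ) ∣ Nat.card G := Subgroup.orderOf_dvd_natCard G n.2
      have h4 : (n : Γ) ^ m = (n : Γ) ^ 1 := pow_eq_pow_iff_modEq.mpr (hm1.of_dvd h3)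
      rw [h4, pow_one]
    · rw [detOrder_ringEquiv σ hχc]
      exact hdet.symm
  calc χh (y ^ m) = σ (χh y) := (hpow y).symm
    _ = χ₀ y := congrFun e2 y
    _ = χh y := (congrFun e1 y).symm

end CycRat

end Cfsg.Agent.Helper74
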