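/-
Helper library of seat helper74: the Glauberman correspondent of an invariant irreducible
character under a coprime cyclic group, read off from the canonical extension.
`Γ = G S`, `G` normal, `S` cyclic of order prime to `|G|`, `C = C_G(S)`; `χ̂ ∈ Irr(Γ)` with
irreducible restriction to `G` and determinantal order prime to `|S|`.  Then there are
`β ∈ Irr(C)` and a sign `ε` with `χ̂ (c s) = ε β (c)` for all `c ∈ C` and all generators `s` of
`S`, and `β` is a constituent of the restriction of `χ̂` to `C`.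
-/
import Cfsg.Agent.Helper74.CycOrth
import Cfsg.Agent.Helper74.CycRat
import Cfsg.Agent.Helper74.CycFourier

set_option autoImplicit false

namespace Cfsg.Agent.Helper74

open Cfsg

open scoped ComplexConjugate

universe u

section CycMain

variable {Γ : Type u} [Group Γ]

theorem normal_of_sup_eq_top (G S : Subgroup Γ) (hnorm : ∀ s ∈ S, ∀ g ∈ G, s * g * s⁻¹ ∈ G)
    (htop : G ⊔ S = ⊤) : G.Normal := by
  have hSG : S ≤ Subgroup.normalizer (G : Set Γ) := by
    intro t ht
    rw [Subgroup.mem_normalizer_iff]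
    intro x
    constructor
    · intro hx
      exact hnorm t ht x hx
    · intro hx
      have := hnorm t⁻¹ (S.inv_mem ht) _ hx
      have e : t⁻¹ * (t * x * t⁻¹) * t⁻¹⁻¹ = x := by group
      rw [e] at this
      exact this
  have : Subgroup.normalizer (G : Set Γ) = ⊤ := by
    rw [eq_top_iff, ← htop]
    exact sup_le Subgroup.le_normalizer hSG
  exact Subgroup.normalizer_eq_top_iff.mp this

theorem zpowers_coe_eq (S : Subgroup Γ) (s₀ : S) (h : ∀ x : S, x ∈ Subgroup.zpowers s₀) :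
    Subgroup.zpowers (s₀ : Γ) = S := by
  apply le_antisymm
  · rw [Subgroup.zpowers_le]
    exact s₀.2
  · intro x hx
    obtain ⟨i, hi⟩ := Subgroup.mem_zpowers_iff.mp (h ⟨x, hx⟩)
    rw [Subgroup.mem_zpowers_iff]
    refine ⟨i, ?_⟩
    have := congrArg (fun y : S => (y : Γ)) hi
    simpa using this

theorem exists_pow_coprime_of_zpowers_eq [Finite Γ] {s s' : Γ}
    (h : Subgroup.zpowers s' = Subgroup.zpowers s) :
    ∃ k : ℕ, k.Coprime (orderOf s) ∧ s' = s ^ k := by
  have hmem : s' ∈ Subgroup.zpowers s := h ▸ Subgroup.mem_zpowers s'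
  have hmem' : s' ∈ Submonoid.powers s :=
    (isOfFinOrder_of_finite s).mem_powers_iff_mem_zpowers.mpr hmem
  obtain ⟨k, hk⟩ := (Submonoid.mem_powers_iff _ _).mp hmem'
  refine ⟨k, ?_, hk.symm⟩
  have hord : orderOf s' = orderOf s := by
    rw [← Nat.card_zpowers, ← Nat.card_zpowers, h]
  rw [← hk, orderOf_pow] at hord
  have hpos : 0 < orderOf s := orderOf_pos s
  have hdvd : Nat.gcd (orderOf s) k ∣ orderOf s := Nat.gcd_dvd_left _ _
  have h1 : orderOf s / Nat.gcd (orderOf s) k * Nat.gcd (orderOf s) k = orderOf s :=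
    Nat.div_mul_cancel hdvd
  rw [hord] at h1
  have h2 : Nat.gcd (orderOf s) k = 1 := by
    have : orderOf s * Nat.gcd (orderOf s) k = orderOf s * 1 := by rw [h1, mul_one]
    exact Nat.eq_of_mul_eq_mul_left hpos this
  exact (Nat.coprime_comm).mp h2

variable [Fintype Γ]

/-- The canonical extension takes the same values on `c s` and `c s^k`, `k` prime to `|S|`. -/
theorem canonical_coset_pow (G S : Subgroup Γ) (hnorm : ∀ s ∈ S, ∀ g ∈ G, s * g * s⁻¹ ∈ G)
    (hcop : (Nat.card G).Coprime (Nat.card S)) (htop : G ⊔ S = ⊤) {s : Γ}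
    (hs : Subgroup.zpowers s = S) {χh : Γ → ℂ} (hχh : IsIrrCharacter Γ χh)
    (hres : IsIrrCharacter G (fun g : G => χh g)) (hdet : (detOrder χh).Coprime (Nat.card S))
    {c : Γ} (hc : c ∈ G) (hcs : Commute c s) (k : ℕ) (hk : k.Coprime (Nat.card S)) :
    χh (c * s ^ k) = χh (c * s) := by
  haveI hG : G.Normal := normal_of_sup_eq_top G S hnorm htop
  have hbot : G ⊓ S = ⊥ := disjoint_iff.mp (Subgroup.disjoint_of_coprime_natCard hcop)
  have hcompl : G.IsComplement' S := Cfsg.Agent.Helper35.isComplement'_of_normal hbot htop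
  have hidx : G.index = Nat.card S := hcompl.symm.index_eq_card
  have hcard : Nat.card G * Nat.card S = Nat.card Γ := hcompl.card_mul_card
  have hord : orderOf s = Nat.card S := by rw [← hs, Nat.card_zpowers]
  obtain ⟨m, hm1, hmk⟩ := Nat.chineseRemainder hcop 1 k
  have hmG : (m : ℕ).Coprime (Nat.card G) := by
    have := hm1.gcd_eq
    unfold Nat.Coprime
    rw [this]
    exact Nat.gcd_one_left _
  have hmS : (m : ℕ).Coprime (Nat.card S) := by
    have := hmk.gcd_eq
    unfold Nat.Coprime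
    rw [this]
    exact hk
  have hmΓ : (m : ℕ).Coprime (Nat.card Γ) := by
    rw [← hcard]
    exact Nat.Coprime.mul_right hmG hmS
  have h1 := canonical_pow_eq G (by rw [hidx]; exact hcop) χh hχh hres
    (by rw [hidx]; exact hdet) m hmΓ hm1 (c * s)
  have hcm : c ^ (m : ℕ) = c := by
    have h3 : orderOf c ∣ Nat.card G := Subgroup.orderOf_dvd_natCard G hc
    have : c ^ (m : ℕ) = c ^ 1 := pow_eq_pow_iff_modEq.mpr (hm1.of_dvd h3)
    rw [this, pow_one]
  have hsm : s ^ (m : ℕ) = s ^ k := pow_eq_pow_iff_modEq.mpr (by rw [hord]; exact hmk)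
  rw [hcs.mul_pow, hcm, hsm] at h1
  exact h1

/-- **Glauberman correspondent via the canonical extension** (cyclic coprime action). -/
theorem cyc_main (G S C : Subgroup Γ) [Fintype G] [Fintype C]
    (hnorm : ∀ s ∈ S, ∀ g ∈ G, s * g * s⁻¹ ∈ G) (hcop : (Nat.card G).Coprime (Nat.card S))
    (htop : G ⊔ S = ⊤) (hcyc : IsCyclic S)
    (hC : C = G ⊓ Subgroup.centralizer (S : Set Γ)) (hCG : C ≤ G)
    {χh : Γ → ℂ} (hχh : IsIrrCharacter Γ χh) (hres : IsIrrCharacter G (fun g : G => χh g))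
    (hdet : (detOrder χh).Coprime (Nat.card S)) :
    ∃ (β : IrrCharacter C) (ε : ℤ), (ε = 1 ∨ ε = -1) ∧
      (∀ c : C, ∀ s : Γ, Subgroup.zpowers s = S →
        χh ((c : Γ) * s) = (ε : ℂ) * (β : C → ℂ) c) ∧
      classInner (fun c : C => χh (c : Γ)) (β : C → ℂ) ≠ 0 := by
  classical
  letI : Fintype S := Fintype.ofFinite S
  letI : Fintype (IrrCharacter C) := Fintype.ofFinite _
  letI : Fintype (IrrCharacter S) := Fintype.ofFinite _
  obtain ⟨s₀, hs₀⟩ := hcyc.exists_generator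
  have hs : Subgroup.zpowers (s₀ : Γ) = S := zpowers_coe_eq S s₀ hs₀
  have hχc : IsCharacter Γ χh := Helper79.isCharacter_of_irr hχh
  have hCS : ∀ c ∈ C, ∀ x ∈ S, c * x = x * c := by
    intro c hc x hx
    have : c ∈ G ⊓ Subgroup.centralizer (S : Set Γ) := hC ▸ hc
    exact ((Subgroup.mem_centralizer_iff.mp this.2) x hx).symm
  have hSc : ∀ a b : S, a * b = b * a := by
    intro a b
    obtain ⟨i, hi⟩ := Subgroup.mem_zpowers_iff.mp (hs₀ a)
    obtain ⟨j, hj⟩ := Subgroup.mem_zpowers_iff.mp (hs₀ b)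
    rw [← hi, ← hj]
    exact zpow_mul_comm s₀ i j
  have hgen : ∀ k : ℕ, k.Coprime (Nat.card S) → ∀ c : C,
      χh ((c : Γ) * ((s₀ ^ k : S) : Γ)) = χh ((c : Γ) * (s₀ : Γ)) := by
    intro k hk c
    have hcG : (c : Γ) ∈ G := hCG c.2
    have hcs : Commute (c : Γ) (s₀ : Γ) := hCS c c.2 s₀ s₀.2
    rw [Subgroup.coe_pow]
    exact canonical_coset_pow G S hnorm hcop htop hs hχh hres hdet hcG hcs k hk
  have hint : ∀ β : IrrCharacter C, ∃ m : ℤ,
      classInner (fun c : C => χh ((c : Γ) * (s₀ : Γ))) (β : C → ℂ) = (m : ℂ) :=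
    fun β => coset_inner_int C S hCS hSc hχc β s₀ hgen
  choose m hm using hint
  set φ : C → ℂ := fun c : C => χh ((c : Γ) * (s₀ : Γ)) with hφ
  have hφcl : IsClassFunction C φ := by
    intro c u
    change χh (((u * c * u⁻¹ : C) : Γ) * (s₀ : Γ)) = χh ((c : Γ) * (s₀ : Γ))
    have hus := hCS u u.2 s₀ s₀.2
    have e : ((u * c * u⁻¹ : C) : Γ) * (s₀ : Γ) =
        (u : Γ) * ((c : Γ) * (s₀ : Γ)) * (u : Γ)⁻¹ := by
      have h' : (u : Γ)⁻¹ * (s₀ : Γ) = (s₀ : Γ) * (u : Γ)⁻¹ := by
        calc (u : Γ)⁻¹ * (s₀ : Γ) = (u : Γ)⁻¹ * ((s₀ : Γ) * (u : Γ)) * (u : Γ)⁻¹ := by group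
          _ = (u : Γ)⁻¹ * ((u : Γ) * (s₀ : Γ)) * (u : Γ)⁻¹ := by rw [hus]
          _ = (s₀ : Γ) * (u : Γ)⁻¹ := by group
      change (u : Γ) * (c : Γ) * (u : Γ)⁻¹ * (s₀ : Γ) = _
      rw [mul_assoc ((u : Γ) * (c : Γ)), h']
      group
    rw [e]
    exact Helper79.isCharacter_isClassFunction hχc _ _
  have hnorm1 : classInner φ φ = 1 :=
    classInner_coset_self G S C hnorm hcop hC hCG hs hχc hres
  have hpars := Cfsg.Agent.Helper15.classInner_eq_sum (θ := φ) (θ' := φ) hφcl
  rw [hnorm1] at hpars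
  have hsumZ : ∑ β : IrrCharacter C, m β * m β = 1 := by
    have : ((∑ β : IrrCharacter C, m β * m β : ℤ) : ℂ) = 1 := by
      rw [hpars]
      push_cast
      apply Finset.sum_congr rfl
      intro β _
      rw [hm β]
      simp
    exact_mod_cast this
  obtain ⟨β₀, hβ₀⟩ : ∃ β₀, m β₀ ≠ 0 := by
    by_contra hcon
    push Not at hcon
    simp [hcon] at hsumZ
  have hsplit := Finset.add_sum_erase Finset.univ (fun β => m β * m β) (Finset.mem_univ β₀)
  rw [hsumZ] at hsplit
  have hge : 1 ≤ m β₀ * m β₀ := by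
    rcases lt_or_gt_of_ne hβ₀ with h | h
    · nlinarith
    · nlinarith
  have hrest_nonneg : 0 ≤ ∑ β ∈ Finset.univ.erase β₀, m β * m β :=
    Finset.sum_nonneg (fun β _ => mul_self_nonneg _)
  have h1 : m β₀ * m β₀ = 1 := by linarith
  have hrest : ∑ β ∈ Finset.univ.erase β₀, m β * m β = 0 := by linarith
  have hzero : ∀ β, β ≠ β₀ → m β = 0 := by
    intro β hβ
    have := (Finset.sum_eq_zero_iff_of_nonneg (fun β _ => mul_self_nonneg (m β))).mp hrest β
      (Finset.mem_erase.mpr ⟨hβ, Finset.mem_univ β⟩)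
    exact mul_self_eq_zero.mp this
  have hε : m β₀ = 1 ∨ m β₀ = -1 := by
    have : (m β₀ - 1) * (m β₀ + 1) = 0 := by
      have : (m β₀ - 1) * (m β₀ + 1) = m β₀ * m β₀ - 1 := by ring
      rw [this, h1]
      rfl
    rcases mul_eq_zero.mp this with h | h
    · left; linarith
    · right; linarith
  have hφeq : ∀ c : C, φ c = (m β₀ : ℂ) * (β₀ : C → ℂ) c := by
    intro c
    have := congrFun (Cfsg.Agent.Helper15.classFun_eq_sum hφcl) c
    rw [this, Finset.sum_apply, Finset.sum_eq_single β₀]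
    · rw [Pi.smul_apply, smul_eq_mul, hm]
    · intro β _ hβ
      rw [Pi.smul_apply, hm, hzero β hβ]
      simp
    · intro h
      exact absurd (Finset.mem_univ _) h
  refine ⟨β₀, m β₀, hε, ?_, ?_⟩
  · intro c s hs'
    obtain ⟨k, hk, rfl⟩ := exists_pow_coprime_of_zpowers_eq (hs'.trans hs.symm)
    have hord : orderOf (s₀ : Γ) = Nat.card S := by rw [← Nat.card_zpowers, hs]
    rw [hord] at hk
    have := hgen k hk c
    rw [Subgroup.coe_pow] at this
    rw [this]
    exact hφeq c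
  · obtain ⟨a, ha⟩ := exists_fourier C S hCS hSc hχc β₀
    have h1' := ha s₀
    rw [show classInner (fun c : C => χh ((c : Γ) * (s₀ : Γ))) (β₀ : C → ℂ) = (m β₀ : ℂ)
      from hm β₀] at h1'
    have hex : ∃ l, a l ≠ 0 := by
      by_contra hcon
      push Not at hcon
      rw [Finset.sum_eq_zero (fun l _ => by rw [hcon l]; simp)] at h1'
      have : m β₀ = 0 := by exact_mod_cast h1'
      exact hβ₀ this
    obtain ⟨l₀, hl₀⟩ := hex
    have h2 := ha 1
    have hone : ∀ l : IrrCharacter S, (l : S → ℂ) 1 = 1 := by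
      intro l
      rw [Helper80.irr_one_eq l, Helper79.irr_charDegree_eq_one_of_comm hSc l, Nat.cast_one]
    simp only [hone, mul_one] at h2
    have h3 : classInner (fun c : C => χh (c : Γ)) (β₀ : C → ℂ) = ((∑ l, a l : ℕ) : ℂ) := by
      rw [Nat.cast_sum, ← h2]
      congr 1
      funext c
      rw [Subgroup.coe_one, mul_one]
    rw [h3]
    have : 0 < ∑ l, a l :=
      Finset.sum_pos' (fun l _ => Nat.zero_le _) ⟨l₀, Finset.mem_univ _, Nat.pos_of_ne_zero hl₀⟩
    exact_mod_cast this.ne'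

end CycMain

end Cfsg.Agent.Helper74
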