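/-
Helper library of seat helper74: the Glauberman correspondence for a coprime cyclic group,
described by the values of the canonical extension (statement S4446).
-/
import Cfsg.Agent.Helper74.CycMain
import Cfsg.Agent.Helper74.PDeg3

set_option autoImplicit false

namespace Cfsg.Agent.Helper74

open Cfsg

open scoped ComplexConjugate

universe u

section CycFinal

/-- Isomorphic groups have the same number of conjugacy classes. -/
theorem card_conjClasses_congr {A B : Type*} [Group A] [Group B] (e : A ≃* B) :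
    Nat.card (ConjClasses A) = Nat.card (ConjClasses B) := by
  apply Nat.card_congr
  refine
    { toFun := ConjClasses.map e.toMonoidHom
      invFun := ConjClasses.map e.symm.toMonoidHom
      left_inv := ?_
      right_inv := ?_ }
  · intro x
    obtain ⟨a, rfl⟩ := ConjClasses.mk_surjective x
    change ConjClasses.mk (e.symm (e a)) = ConjClasses.mk a
    rw [e.symm_apply_apply]
  · intro x
    obtain ⟨a, rfl⟩ := ConjClasses.mk_surjective x
    change ConjClasses.mk (e (e.symm a)) = ConjClasses.mk a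
    rw [e.apply_symm_apply]

/-- A signed irreducible character determines the sign and the character. -/
theorem sign_irr_unique {C : Type*} [Group C] (β β' : IrrCharacter C) (ε ε' : ℤ)
    (hε : ε = 1 ∨ ε = -1) (hε' : ε' = 1 ∨ ε' = -1)
    (h : ∀ c : C, (ε : ℂ) * (β : C → ℂ) c = (ε' : ℂ) * (β' : C → ℂ) c) : β = β' ∧ ε = ε' := by
  have h1 := h 1
  rw [Helper80.irr_one_eq β, Helper80.irr_one_eq β'] at h1
  have hd := Helper80.irr_degree_pos β
  have hd' := Helper80.irr_degree_pos β'
  have hεε : ε = ε' := by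
    rcases hε with rfl | rfl <;> rcases hε' with rfl | rfl
    · rfl
    · exfalso
      have : ((charDegree (β : C → ℂ) + charDegree (β' : C → ℂ) : ℕ) : ℂ) = 0 := by
        push_cast
        push_cast at h1
        linear_combination h1
      have h2 : charDegree (β : C → ℂ) + charDegree (β' : C → ℂ) = 0 := by exact_mod_cast this
      omega
    · exfalso
      have : ((charDegree (β : C → ℂ) + charDegree (β' : C → ℂ) : ℕ) : ℂ) = 0 := by
        push_cast
        push_cast at h1
        linear_combination -h1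
      have h2 : charDegree (β : C → ℂ) + charDegree (β' : C → ℂ) = 0 := by exact_mod_cast this
      omega
    · rfl
  refine ⟨?_, hεε⟩
  subst hεε
  have hε0 : (ε : ℂ) ≠ 0 := by
    rcases hε with rfl | rfl <;> norm_num
  apply Subtype.ext
  funext c
  exact mul_left_cancel₀ hε0 (h c)

variable {Γ : Type u} [Group Γ] [Fintype Γ]

/-- `S`-invariance of a character of the normal subgroup `G` gives invariance under `Γ = G S`. -/
theorem inv_of_sinv (G S : Subgroup Γ) [hG : G.Normal] (htop : G ⊔ S = ⊤) (χ : IrrCharacter G)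
    (h : ∀ s ∈ S, ∀ g g' : G, (g' : Γ) = s * g * s⁻¹ → (χ : G → ℂ) g' = (χ : G → ℂ) g) :
    ∀ (x : Γ) (k : G),
      (χ : G → ℂ) ⟨x * k * x⁻¹, hG.conj_mem (k : Γ) k.2 x⟩ = (χ : G → ℂ) k := by
  intro g k
  have hg : g ∈ G ⊔ S := by rw [htop]; trivial
  obtain ⟨k₁, hk₁, h₁, hh₁, rfl⟩ := Subgroup.mem_sup_of_normal_left.mp hg
  have e1 : (⟨k₁ * h₁ * k * (k₁ * h₁)⁻¹, hG.conj_mem (k : Γ) k.2 (k₁ * h₁)⟩ : G) =
      ⟨k₁, hk₁⟩ * ⟨h₁ * k * h₁⁻¹, hG.conj_mem (k : Γ) k.2 h₁⟩ * ⟨k₁, hk₁⟩⁻¹ := by
    apply Subtype.ext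
    change k₁ * h₁ * k * (k₁ * h₁)⁻¹ = k₁ * (h₁ * k * h₁⁻¹) * k₁⁻¹
    group
  rw [e1, Helper79.isCharacter_isClassFunction (Helper79.irr_isCharacter χ)]
  exact h h₁ hh₁ k ⟨h₁ * k * h₁⁻¹, hG.conj_mem (k : Γ) k.2 h₁⟩ rfl

/-- Existence of the canonical extension of an `S`-invariant irreducible character. -/
theorem exists_canonical (G S : Subgroup Γ) (hnorm : ∀ s ∈ S, ∀ g ∈ G, s * g * s⁻¹ ∈ G)
    (hcop : (Nat.card G).Coprime (Nat.card S)) (htop : G ⊔ S = ⊤) (χ : IrrCharacter G)
    (h : ∀ s ∈ S, ∀ g g' : G, (g' : Γ) = s * g * s⁻¹ → (χ : G → ℂ) g' = (χ : G → ℂ) g) :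
    ∃ χh : IrrCharacter Γ, (∀ g : G, (χh : Γ → ℂ) g = (χ : G → ℂ) g) ∧
      (detOrder (χh : Γ → ℂ)).Coprime (Nat.card S) := by
  haveI hG : G.Normal := normal_of_sup_eq_top G S hnorm htop
  have hbot : G ⊓ S = ⊥ := disjoint_iff.mp (Subgroup.disjoint_of_coprime_natCard hcop)
  have hcompl : G.IsComplement' S := Cfsg.Agent.Helper35.isComplement'_of_normal hbot htop
  have hidx : G.index = Nat.card S := hcompl.symm.index_eq_card
  have hd : (χ : G → ℂ) 1 = (charDegree (χ : G → ℂ) : ℂ) := Helper80.irr_one_eq χ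
  have h1 : detOrder (χ : G → ℂ) ∣ Nat.card G := detOrder_dvd_card (Helper79.irr_isCharacter χ)
  have h2 : charDegree (χ : G → ℂ) ∣ Nat.card G := Helper79.irr_charDegree_dvd_card χ
  have hc : Nat.Coprime G.index (detOrder (χ : G → ℂ) * charDegree (χ : G → ℂ)) := by
    rw [hidx]
    exact Nat.Coprime.mul_right (Nat.Coprime.coprime_dvd_right h1 hcop.symm)
      (Nat.Coprime.coprime_dvd_right h2 hcop.symm)
  obtain ⟨χ₀, ⟨hχ₀, hext, hdet⟩, -⟩ := Cfsg.Agent.S0867.result G (χ : G → ℂ) χ.2
    (inv_of_sinv G S htop χ h) _ hd hc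
  refine ⟨⟨χ₀, hχ₀⟩, hext, ?_⟩
  change (detOrder χ₀).Coprime (Nat.card S)
  rw [hdet]
  exact Nat.Coprime.coprime_dvd_left h1 hcop

/-- The number of `S`-invariant irreducible characters of `G` is the number of irreducible
characters of `C = C_G(S)` (`S` solvable, coprime, `G` normal in the ambient group). -/
theorem card_irrInv_eq_card_irr_fixed (G S C : Subgroup Γ) [hG : G.Normal] [Fintype G]
    (hcop : (Nat.card G).Coprime (Nat.card S)) (hsolv : Group.IsSolvable S)
    (hC : C = G ⊓ Subgroup.centralizer (S : Set Γ)) :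
    Nat.card {χ : IrrCharacter G // ∀ s ∈ S, ∀ g g' : G, (g' : Γ) = s * g * s⁻¹ →
      (χ : G → ℂ) g' = (χ : G → ℂ) g} = Nat.card (IrrCharacter C) := by
  have hbot : G ⊓ S = ⊥ := disjoint_iff.mp (Subgroup.disjoint_of_coprime_natCard hcop)
  have h1 := solv_count_subgroup G S (fun s _ g hg => hG.conj_mem g hg s) hcop hsolv
  have h2 := card_inv_classes G S hcop hsolv
  let e : C ≃* G.subgroupOf (Subgroup.normalizer (S : Set Γ)) :=
    { toFun := fun c => ⟨⟨(c : Γ), Subgroup.centralizer_le_normalizer _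
          ((hC ▸ c.2 : (c : Γ) ∈ G ⊓ Subgroup.centralizer (S : Set Γ)).2)⟩,
        Subgroup.mem_subgroupOf.mpr (hC ▸ c.2 : (c : Γ) ∈ G ⊓ Subgroup.centralizer (S : Set Γ)).1⟩
      invFun := fun x => ⟨((x : Subgroup.normalizer (S : Set Γ)) : Γ), by
        rw [hC]
        refine ⟨Subgroup.mem_subgroupOf.mp x.2, ?_⟩
        change ((x : Subgroup.normalizer (S : Set Γ)) : Γ) ∈ Subgroup.centralizer (S : Set Γ)
        rw [Subgroup.mem_centralizer_iff]
        intro t ht
        exact commute_of_mem_normalizer G S hbot (Subgroup.mem_subgroupOf.mp x.2)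
          (x : Subgroup.normalizer (S : Set Γ)).2 ht⟩
      left_inv := fun c => rfl
      right_inv := fun x => rfl
      map_mul' := fun a b => rfl }
  rw [h1, h2, Helper80.natCard_irr_eq_card_conjClasses, card_conjClasses_congr e]

end CycFinal

end Cfsg.Agent.Helper74
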