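/-
Helper library of seat helper74: the Glauberman correspondence for a coprime cyclic group,
described by the values of the canonical extension (statement S4446).
-/
import Cfsg.Agent.Helper74.CycFinal

set_option autoImplicit false

namespace Cfsg.Agent.Helper74

open Cfsg

open scoped ComplexConjugate

section CycGlauberman

theorem cyc_glauberman {Γ : Type*} [Group Γ] [Fintype Γ] (G S : Subgroup Γ) [Fintype G] (hnorm : ∀ s ∈ S, ∀ g ∈ G, s * g * s⁻¹ ∈ G) (hcop : (Nat.card G).Coprime (Nat.card S)) (htop : G ⊔ S = ⊤) (hcyc : IsCyclic S) (C : Subgroup Γ) [Fintype C] (hC : C = G ⊓ Subgroup.centralizer (S : Set Γ)) (hCG : C ≤ G) : (∀ (χ : Cfsg.IrrCharacter G) (χh : Cfsg.IrrCharacter Γ), (∀ s ∈ S, ∀ g g' : G, (g' : Γ) = s * g * s⁻¹ → (χ : G → ℂ) g' = (χ : G → ℂ) g) → (∀ g : G, (χh : Γ → ℂ) g = (χ : G → ℂ) g) → (Cfsg.detOrder (χh : Γ → ℂ)).Coprime (Nat.card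 S) → (∃! βε : Cfsg.IrrCharacter C × ℤ, (βε.2 = 1 ∨ βε.2 = -1) ∧ ∀ c : C, ∀ s : Γ, Subgroup.zpowers s = S → (χh : Γ → ℂ) ((c : Γ) * s) = (βε.2 : ℂ) * (βε.1 : C → ℂ) c) ∧ ∀ β : Cfsg.IrrCharacter C, ∀ ε : ℤ, (ε = 1 ∨ ε = -1) → (∀ c : C, ∀ s : Γ, Subgroup.zpowers s = S → (χh : Γ → ℂ) ((c : Γ) * s) = (ε : ℂ) * (β : C → ℂ) c) → Cfsg.classInner (fun c : C => (χ : G → ℂ) ⟨c, hCG c.2⟩) (β : C → ℂ) ≠ 0) ∧ (∀ (χ χ' : Cfsg.IrrCharacter G) (χh χh' : Cfsg.IrrCharacter Γ), (∀ s ∈ S, ∀ g g' : G, (g' : Γ) = s * g * s⁻¹ → (χ : G → ℂ) g' = (χ : G → ℂ) g) → (∀ s ∈ S, ∀ g g' : G, (g' : Γ) = s * g * s⁻¹ → (χ' : G → ℂ) g' = (χ' : G → ℂ) g) → (∀ g : G, (χh : Γ → ℂ) g = (χ : G → ℂ) g) → (∀ g : G, (χh' : Γ → ℂ) g = (χ' : G → ℂ) g) → (Cfsg.detOrder (χh : Γ → ℂ)).Coprime (Nat.card S) → (Cfsg.detOrder (χh' : Γ → ℂ)).Coprime (Nat.card S) → ∀ β : Cfsg.IrrCharacter C, ∀ ε ε' : ℤ, (ε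 = 1 ∨ ε = -1) → (ε' = 1 ∨ ε' = -1) → (∀ c : C, ∀ s : Γ, Subgroup.zpowers s = S → (χh : Γ → ℂ) ((c : Γ) * s) = (ε : ℂ) * (β : C → ℂ) c) → (∀ c : C, ∀ s : Γ, Subgroup.zpowers s = S → (χh' : Γ → ℂ) ((c : Γ) * s) = (ε' : ℂ) * (β : C → ℂ) c) → χ = χ') ∧ (∀ β : Cfsg.IrrCharacter C, ∃ (χ : Cfsg.IrrCharacter G) (χh : Cfsg.IrrCharacter Γ) (ε : ℤ), (∀ s ∈ S, ∀ g g' : G, (g' : Γ) = s * g * s⁻¹ → (χ : G → ℂ) g' = (χ : G → ℂ) g) ∧ (∀ g : G, (χh : Γ → ℂ) g = (χ : G → ℂ) g) ∧ (Cfsg.detOrder (χh : Γ → ℂ)).Coprime (Nat.card S) ∧ (ε = 1 ∨ ε = -1) ∧ ∀ c : C, ∀ s : Γ, Subgroup.zpowers s = S → (χh : Γ → ℂ) ((c : Γ) * s) = (ε : ℂ) * (β : C → ℂ) c) := by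
  classical
  haveI hG : G.Normal := normal_of_sup_eq_top G S hnorm htop
  obtain ⟨s₀, hs₀⟩ := hcyc.exists_generator
  have hs : Subgroup.zpowers (s₀ : Γ) = S := zpowers_coe_eq S s₀ hs₀
  have hsolv : Group.IsSolvable S := by
    apply Group.isSolvable_of_comm
    intro a b
    obtain ⟨i, hi⟩ := Subgroup.mem_zpowers_iff.mp (hs₀ a)
    obtain ⟨j, hj⟩ := Subgroup.mem_zpowers_iff.mp (hs₀ b)
    rw [← hi, ← hj]
    exact zpow_mul_comm s₀ i j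
  have key : ∀ (χ : IrrCharacter G) (χh : IrrCharacter Γ),
      (∀ g : G, (χh : Γ → ℂ) g = (χ : G → ℂ) g) →
      (detOrder (χh : Γ → ℂ)).Coprime (Nat.card S) →
      ∃ (β : IrrCharacter C) (ε : ℤ), (ε = 1 ∨ ε = -1) ∧
        (∀ c : C, ∀ s : Γ, Subgroup.zpowers s = S →
          (χh : Γ → ℂ) ((c : Γ) * s) = (ε : ℂ) * (β : C → ℂ) c) ∧
        classInner (fun c : C => (χ : G → ℂ) ⟨c, hCG c.2⟩) (β : C → ℂ) ≠ 0 := by
    intro χ χh hext hdet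
    have hres : IsIrrCharacter G (fun g : G => (χh : Γ → ℂ) g) := by
      have : (fun g : G => (χh : Γ → ℂ) g) = (χ : G → ℂ) := funext hext
      rw [this]
      exact χ.2
    obtain ⟨β, ε, hε, hval, hcon⟩ := cyc_main G S C hnorm hcop htop hcyc hC hCG χh.2 hres hdet
    refine ⟨β, ε, hε, hval, ?_⟩
    have : (fun c : C => (χ : G → ℂ) ⟨c, hCG c.2⟩) = (fun c : C => (χh : Γ → ℂ) (c : Γ)) := by
      funext c
      exact (hext ⟨c, hCG c.2⟩).symm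
    rw [this]
    exact hcon
  have uniq : ∀ (χh : Γ → ℂ) (β β' : IrrCharacter C) (ε ε' : ℤ), (ε = 1 ∨ ε = -1) →
      (ε' = 1 ∨ ε' = -1) →
      (∀ c : C, ∀ s : Γ, Subgroup.zpowers s = S → χh ((c : Γ) * s) = (ε : ℂ) * (β : C → ℂ) c) →
      (∀ c : C, ∀ s : Γ, Subgroup.zpowers s = S →
        χh ((c : Γ) * s) = (ε' : ℂ) * (β' : C → ℂ) c) → β = β' ∧ ε = ε' := by
    intro χh β β' ε ε' hε hε' h h'
    exact sign_irr_unique β β' ε ε' hε hε' (fun c => (h c _ hs).symm.trans (h' c _ hs))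
  have inj : ∀ (χ χ' : IrrCharacter G) (χh χh' : IrrCharacter Γ),
      (∀ g : G, (χh : Γ → ℂ) g = (χ : G → ℂ) g) →
      (∀ g : G, (χh' : Γ → ℂ) g = (χ' : G → ℂ) g) →
      ∀ (β : IrrCharacter C) (ε ε' : ℤ), (ε = 1 ∨ ε = -1) → (ε' = 1 ∨ ε' = -1) →
      (∀ c : C, ∀ s : Γ, Subgroup.zpowers s = S →
        (χh : Γ → ℂ) ((c : Γ) * s) = (ε : ℂ) * (β : C → ℂ) c) →
      (∀ c : C, ∀ s : Γ, Subgroup.zpowers s = S →
        (χh' : Γ → ℂ) ((c : Γ) * s) = (ε' : ℂ) * (β : C → ℂ) c) → χ = χ' := by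
    intro χ χ' χh χh' hext hext' β ε ε' hε hε' hv hv'
    by_contra hne
    have hres : IsIrrCharacter G (fun g : G => (χh : Γ → ℂ) g) := by
      have : (fun g : G => (χh : Γ → ℂ) g) = (χ : G → ℂ) := funext hext
      rw [this]
      exact χ.2
    have hres' : IsIrrCharacter G (fun g : G => (χh' : Γ → ℂ) g) := by
      have : (fun g : G => (χh' : Γ → ℂ) g) = (χ' : G → ℂ) := funext hext'
      rw [this]
      exact χ'.2
    have hne' : (fun g : G => (χh : Γ → ℂ) g) ≠ (fun g : G => (χh' : Γ → ℂ) g) := by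
      intro h
      apply hne
      apply Subtype.ext
      funext g
      rw [← hext g, ← hext' g]
      exact congrFun h g
    have h0 := classInner_coset_cross G S C hnorm hcop hC hCG hs (Helper79.irr_isCharacter χh)
      (Helper79.irr_isCharacter χh') hres hres' hne'
    have e1 : (fun c : C => (χh : Γ → ℂ) ((c : Γ) * (s₀ : Γ))) = (ε : ℂ) • (β : C → ℂ) := by
      funext c
      rw [hv c _ hs]
      rfl
    have e2 : (fun c : C => (χh' : Γ → ℂ) ((c : Γ) * (s₀ : Γ))) = (ε' : ℂ) • (β : C → ℂ) := by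
      funext c
      rw [hv' c _ hs]
      rfl
    rw [e1, e2, Cfsg.Agent.Helper15.classInner_smul_left,
      Cfsg.Agent.Helper15.classInner_smul_right, Cfsg.Agent.Helper15.irr_inner_self β.2,
      mul_one] at h0
    rcases hε with rfl | rfl <;> rcases hε' with rfl | rfl <;> simp at h0
  refine ⟨?_, ?_, ?_⟩
  · intro χ χh _ hext hdet
    obtain ⟨β, ε, hε, hval, hcon⟩ := key χ χh hext hdet
    refine ⟨⟨(β, ε), ⟨hε, hval⟩, ?_⟩, ?_⟩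
    · rintro ⟨β', ε'⟩ ⟨hε', hval'⟩
      obtain ⟨h1, h2⟩ := uniq _ β' β ε' ε hε' hε hval' hval
      rw [h1, h2]
    · intro β' ε' hε' hval'
      obtain ⟨h1, h2⟩ := uniq _ β' β ε' ε hε' hε hval' hval
      rw [h1]
      exact hcon
  · intro χ χ' χh χh' _ _ hext hext' _ _ β ε ε' hε hε' hv hv'
    exact inj χ χ' χh χh' hext hext' β ε ε' hε hε' hv hv'
  · intro β
    have hcan : ∀ χ : {χ : IrrCharacter G // ∀ s ∈ S, ∀ g g' : G, (g' : Γ) = s * g * s⁻¹ →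
        (χ : G → ℂ) g' = (χ : G → ℂ) g}, ∃ χh : IrrCharacter Γ,
        (∀ g : G, (χh : Γ → ℂ) g = (χ.1 : G → ℂ) g) ∧
        (detOrder (χh : Γ → ℂ)).Coprime (Nat.card S) :=
      fun χ => exists_canonical G S hnorm hcop htop χ.1 χ.2
    choose E hE1 hE2 using hcan
    have hkey : ∀ χ : {χ : IrrCharacter G // ∀ s ∈ S, ∀ g g' : G, (g' : Γ) = s * g * s⁻¹ →
        (χ : G → ℂ) g' = (χ : G → ℂ) g}, ∃ (β : IrrCharacter C) (ε : ℤ), (ε = 1 ∨ ε = -1) ∧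
        (∀ c : C, ∀ s : Γ, Subgroup.zpowers s = S →
          (E χ : Γ → ℂ) ((c : Γ) * s) = (ε : ℂ) * (β : C → ℂ) c) := by
      intro χ
      obtain ⟨β, ε, hε, hval, -⟩ := key χ.1 (E χ) (hE1 χ) (hE2 χ)
      exact ⟨β, ε, hε, hval⟩
    choose P Eps hEps hP using hkey
    have hPinj : Function.Injective P := by
      intro χ χ' h
      apply Subtype.ext
      exact inj χ.1 χ'.1 (E χ) (E χ') (hE1 χ) (hE1 χ') (P χ) (Eps χ) (Eps χ') (hEps χ)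
        (hEps χ') (hP χ) (by rw [h]; exact hP χ')
    have hcard := card_irrInv_eq_card_irr_fixed G S C hcop hsolv hC
    have hbij := (Nat.bijective_iff_injective_and_card P).mpr ⟨hPinj, hcard⟩
    obtain ⟨χ, rfl⟩ := hbij.2 β
    exact ⟨χ.1, E χ, Eps χ, χ.2, hE1 χ, hE2 χ, hEps χ, hP χ⟩

end CycGlauberman

end Cfsg.Agent.Helper74
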