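import Mathlib
import Cfsg.Prelude.Def_GeometricClasses
import Cfsg.Agent.Helper69.E4Def
import Cfsg.Agent.Helper66.E4BASE1
import Cfsg.Agent.Helper66.E4BASE2
import Cfsg.Agent.Helper73.E4AVG
import Cfsg.Agent.Helper81.E4CENT5
import Cfsg.Agent.Helper81.E4TRACE5

/-!
Piece TR3B of CALL S6002 (helper69): `tr y * tr y⁻¹ = 4` for a non-scalar element of order 3 of
the normaliser of `E4 ι` centralising a non-scalar element of `E4 ι`.
-/

set_option autoImplicit false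

namespace Cfsg.Agent.Helper74

open Cfsg.Agent.Helper69
open scoped Matrix

/-- one term of the averaging sum, for an element of order three -/
theorem e4tr3_term {F : Type*} [Field F] (ι : F) (hι : ι ^ 2 = -1)
    (y : GL (Fin 4) F) (hy : y ∈ Cfsg.Geo.subgroupNormalizer (E4 ι)) (hy3 : y ^ 3 = 1)
    (b c d e : ℕ) :
    ((y : Matrix (Fin 4) (Fin 4) F) * e4Pauli F b c d e =
        e4Pauli F b c d e * (y : Matrix (Fin 4) (Fin 4) F) →
      (e4Pauli F b c d e * (y : Matrix (Fin 4) (Fin 4) F) *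
        (e4Z2 F ^ e * e4X2 F ^ d * e4Z1 F ^ c * e4X1 F ^ b) *
        ((y⁻¹ : GL (Fin 4) F) : Matrix (Fin 4) (Fin 4) F)).trace = 4) ∧
    (¬ (y : Matrix (Fin 4) (Fin 4) F) * e4Pauli F b c d e =
        e4Pauli F b c d e * (y : Matrix (Fin 4) (Fin 4) F) →
      (e4Pauli F b c d e * (y : Matrix (Fin 4) (Fin 4) F) *
        (e4Z2 F ^ e * e4X2 F ^ d * e4Z1 F ^ c * e4X1 F ^ b) *
        ((y⁻¹ : GL (Fin 4) F) : Matrix (Fin 4) (Fin 4) F)).trace = 0) := by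
  obtain ⟨σg, hσg⟩ : ∃ σg : GL (Fin 4) F, σg = Helper66.e4gX1 F ^ b * Helper66.e4gZ1 F ^ c *
      Helper66.e4gX2 F ^ d * Helper66.e4gZ2 F ^ e := ⟨_, rfl⟩
  have hσE : σg ∈ E4 ι := by
    rw [hσg]
    exact (E4 ι).mul_mem ((E4 ι).mul_mem ((E4 ι).mul_mem
      ((E4 ι).pow_mem (Helper66.e4gX1_mem ι) b) ((E4 ι).pow_mem (Helper66.e4gZ1_mem ι) c))
      ((E4 ι).pow_mem (Helper66.e4gX2_mem ι) d)) ((E4 ι).pow_mem (Helper66.e4gZ2_mem ι) e)
  have hσval : (σg : Matrix (Fin 4) (Fin 4) F) = e4Pauli F b c d e := by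
    have := Helper66.e4g_val ι hι 0 b c d e
    rw [pow_zero, one_mul, pow_zero, one_smul] at this
    rw [hσg]
    exact this
  have hσinv : ((σg⁻¹ : GL (Fin 4) F) : Matrix (Fin 4) (Fin 4) F)
      = e4Z2 F ^ e * e4X2 F ^ d * e4Z1 F ^ c * e4X1 F ^ b := by
    apply Units.inv_eq_of_mul_eq_one_right
    rw [hσval]
    exact Helper81.e4_pauli_inv b c d e
  have hyN : y ∈ Subgroup.normalizer ((E4 ι : Subgroup (GL (Fin 4) F)) : Set (GL (Fin 4) F)) :=
    hy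
  have hconjE : y * σg⁻¹ * y⁻¹ ∈ E4 ι :=
    (Subgroup.mem_normalizer_iff.mp hyN σg⁻¹).mp ((E4 ι).inv_mem hσE)
  obtain ⟨Λ, hΛ⟩ : ∃ Λ : GL (Fin 4) F, Λ = σg * (y * σg⁻¹ * y⁻¹) := ⟨_, rfl⟩
  have hΛE : Λ ∈ E4 ι := by
    rw [hΛ]
    exact (E4 ι).mul_mem hσE hconjE
  have hΛval : (Λ : Matrix (Fin 4) (Fin 4) F) = e4Pauli F b c d e *
      (y : Matrix (Fin 4) (Fin 4) F) * (e4Z2 F ^ e * e4X2 F ^ d * e4Z1 F ^ c * e4X1 F ^ b) *
      ((y⁻¹ : GL (Fin 4) F) : Matrix (Fin 4) (Fin 4) F) := by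
    rw [hΛ, Units.val_mul, Units.val_mul, Units.val_mul, hσval, hσinv]
    simp only [mul_assoc]
  rw [← hΛval, ← hσval, ← Units.val_mul, ← Units.val_mul]
  constructor
  · intro hcomm
    have hcomm' : y * σg = σg * y := Units.ext hcomm
    have hΛ1 : Λ = 1 := by
      rw [hΛ]
      have h1 : y * σg⁻¹ = σg⁻¹ * y := by
        calc y * σg⁻¹ = σg⁻¹ * (σg * y) * σg⁻¹ := by group
          _ = σg⁻¹ * (y * σg) * σg⁻¹ := by rw [hcomm']
          _ = σg⁻¹ * y := by group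
      rw [h1]
      group
    rw [hΛ1, Units.val_one, Matrix.trace_one]
    simp
  · intro hncomm
    rcases Helper66.e4_trace ι hι Λ hΛE with ⟨lam, hlam⟩ | htr
    · exfalso
      apply hncomm
      have hΛc : ∀ g : GL (Fin 4) F, Λ * g = g * Λ := Helper81.e4_comm_scalar Λ lam hlam
      have hconj : y * σg⁻¹ * y⁻¹ = σg⁻¹ * Λ := by
        rw [hΛ]
        group
      have hpow : ∀ n : ℕ, y ^ n * σg⁻¹ * (y ^ n)⁻¹ = σg⁻¹ * Λ ^ n := by
        intro n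
        induction n with
        | zero => simp
        | succ n ih =>
          have hc : y * Λ ^ n * y⁻¹ = Λ ^ n := by
            have hc' := (Commute.pow_left (show Commute Λ y from hΛc y) n).eq
            rw [← hc', mul_inv_cancel_right]
          calc y ^ (n + 1) * σg⁻¹ * (y ^ (n + 1))⁻¹
              = y * (y ^ n * σg⁻¹ * (y ^ n)⁻¹) * y⁻¹ := by
                rw [pow_succ']
                group
            _ = y * (σg⁻¹ * Λ ^ n) * y⁻¹ := by rw [ih]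
            _ = (y * σg⁻¹ * y⁻¹) * (y * Λ ^ n * y⁻¹) := by group
            _ = σg⁻¹ * Λ * Λ ^ n := by rw [hc, hconj]
            _ = σg⁻¹ * Λ ^ (n + 1) := by rw [pow_succ', mul_assoc]
      have hΛ3 : Λ ^ 3 = 1 := by
        have h := hpow 3
        rw [hy3, one_mul, inv_one, mul_one] at h
        have h' : σg⁻¹ * 1 = σg⁻¹ * Λ ^ 3 := by rw [mul_one]; exact h
        exact (mul_left_cancel h').symm
      have hΛ4 : Λ ^ 4 = 1 := by
        apply Units.ext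
        rw [Units.val_pow_eq_pow_val, Units.val_one]
        have h4 : (Λ : Matrix (Fin 4) (Fin 4) F) ^ 4 = ((Λ : Matrix (Fin 4) (Fin 4) F) ^ 2) ^ 2 := by
          rw [← pow_mul]
        rw [h4]
        rcases Helper66.e4_sq ι hι Λ hΛE with h | h <;> rw [h] <;> simp
      have hΛ1 : Λ = 1 := by
        have h : Λ ^ 4 = Λ ^ 3 * Λ := pow_succ Λ 3
        rw [hΛ3, hΛ4, one_mul] at h
        exact h.symm
      have hcomm : y * σg = σg * y := by
        rw [hΛ1, mul_one] at hconj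
        have h1 : y * σg⁻¹ = σg⁻¹ * y := by
          calc y * σg⁻¹ = y * σg⁻¹ * y⁻¹ * y := by group
            _ = σg⁻¹ * y := by rw [hconj]
        calc y * σg = σg * (σg⁻¹ * y) * σg := by group
          _ = σg * (y * σg⁻¹) * σg := by rw [h1]
          _ = σg * y := by group
      rw [hcomm]
    · exact htr

/-- PIECE TR3B -/
theorem e4_trace_three {F : Type*} [Field F] (h2 : (2 : F) ≠ 0) (ι : F) (hι : ι ^ 2 = -1)
    (y : GL (Fin 4) F) (hy : y ∈ Cfsg.Geo.subgroupNormalizer (E4 ι)) (hy3 : y ^ 3 = 1)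
    (hns : ∀ c : F, (y : Matrix (Fin 4) (Fin 4) F) ≠ c • (1 : Matrix (Fin 4) (Fin 4) F))
    (w : GL (Fin 4) F) (hw : w ∈ E4 ι)
    (hwns : ∀ c : F, (w : Matrix (Fin 4) (Fin 4) F) ≠ c • (1 : Matrix (Fin 4) (Fin 4) F))
    (hyw : y * w = w * y) :
    (y : Matrix (Fin 4) (Fin 4) F).trace *
      ((y⁻¹ : GL (Fin 4) F) : Matrix (Fin 4) (Fin 4) F).trace = 4 := by
  classical
  have hcard := Helper66.e4_card h2 ι hι
  haveI hfin : Finite ↥(E4 ι) := Nat.finite_of_card_ne_zero (by rw [hcard]; norm_num)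
  haveI : Fact (Nat.Prime 3) := ⟨by norm_num⟩
  have hyN : y ∈ Subgroup.normalizer ((E4 ι : Subgroup (GL (Fin 4) F)) : Set (GL (Fin 4) F)) :=
    hy
  obtain ⟨D, hDmem, hmod⟩ := Helper81.e4_fix_count (E4 ι) y hyN 3
    (fun e _ => by rw [hy3, one_mul, mul_one])
  rw [hcard] at hmod
  have hDdvd : Nat.card D ∣ 2 ^ 6 := by
    have := Subgroup.card_subgroup_dvd_card D
    rw [hcard] at this
    exact this
  obtain ⟨j, hj6, hj⟩ := (Nat.dvd_prime_pow Nat.prime_two).1 hDdvd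
  have hD : Nat.card D = 1 ∨ Nat.card D = 4 ∨ Nat.card D = 16 ∨ Nat.card D = 64 := by
    unfold Nat.ModEq at hmod
    rw [hj] at hmod ⊢
    interval_cases j <;> simp_all
  -- the Pauli words commuting with `y`
  let P : Fin 2 × Fin 2 × Fin 2 × Fin 2 → Matrix (Fin 4) (Fin 4) F := fun t =>
    e4Pauli F (t.1 : ℕ) (t.2.1 : ℕ) (t.2.2.1 : ℕ) (t.2.2.2 : ℕ)
  let S : Finset (Fin 2 × Fin 2 × Fin 2 × Fin 2) := Finset.univ.filter
    (fun t => (y : Matrix (Fin 4) (Fin 4) F) * P t = P t * (y : Matrix (Fin 4) (Fin 4) F))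
  have hι0 : ι ≠ 0 := by
    rintro rfl
    have h4 := Helper66.e4_iota_pow_four (0 : F) hι
    simp at h4
  -- the parametrisation of `D`
  have hcomm_of : ∀ (a : ℕ) (t : Fin 2 × Fin 2 × Fin 2 × Fin 2), t ∈ S →
      y * (Helper66.e4gI ι hι ^ a * Helper66.e4gX1 F ^ (t.1 : ℕ) * Helper66.e4gZ1 F ^ (t.2.1 : ℕ) *
        Helper66.e4gX2 F ^ (t.2.2.1 : ℕ) * Helper66.e4gZ2 F ^ (t.2.2.2 : ℕ)) =
      (Helper66.e4gI ι hι ^ a * Helper66.e4gX1 F ^ (t.1 : ℕ) * Helper66.e4gZ1 F ^ (t.2.1 : ℕ) *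
        Helper66.e4gX2 F ^ (t.2.2.1 : ℕ) * Helper66.e4gZ2 F ^ (t.2.2.2 : ℕ)) * y := by
    intro a t ht
    have ht' : (y : Matrix (Fin 4) (Fin 4) F) * P t = P t * (y : Matrix (Fin 4) (Fin 4) F) :=
      (Finset.mem_filter.mp ht).2
    apply Units.ext
    have hv := Helper66.e4g_val ι hι a (t.1 : ℕ) (t.2.1 : ℕ) (t.2.2.1 : ℕ) (t.2.2.2 : ℕ)
    rw [Units.val_mul y, Units.val_mul _ y, hv, Matrix.mul_smul, Matrix.smul_mul]
    exact congrArg (fun M => ι ^ a • M) ht'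
  let f : Fin 4 × S → D := fun p =>
    ⟨⟨Helper66.e4gI ι hι ^ (p.1 : ℕ) * Helper66.e4gX1 F ^ (p.2.1.1 : ℕ) *
      Helper66.e4gZ1 F ^ (p.2.1.2.1 : ℕ) * Helper66.e4gX2 F ^ (p.2.1.2.2.1 : ℕ) *
      Helper66.e4gZ2 F ^ (p.2.1.2.2.2 : ℕ), Helper66.e4g_mem ι hι _ _ _ _ _⟩,
      (hDmem _).mpr (hcomm_of _ p.2.1 p.2.2)⟩
  have hfval : ∀ p : Fin 4 × S, (((f p : E4 ι) : GL (Fin 4) F) : Matrix (Fin 4) (Fin 4) F) =
      ι ^ (p.1 : ℕ) • P p.2.1 := fun p => Helper66.e4g_val ι hι _ _ _ _ _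
  have hfinj : Function.Injective f := by
    intro p p' h
    have h' : (((f p : E4 ι) : GL (Fin 4) F) : Matrix (Fin 4) (Fin 4) F) =
        (((f p' : E4 ι) : GL (Fin 4) F) : Matrix (Fin 4) (Fin 4) F) := by rw [h]
    rw [hfval, hfval] at h'
    obtain ⟨h1, h2', h3, h4, h5⟩ :=
      Helper66.e4_normal_inj h2 ι hι p.1.2 p.2.1.1.2 p.2.1.2.1.2 p.2.1.2.2.1.2 p.2.1.2.2.2.2
        p'.1.2 p'.2.1.1.2 p'.2.1.2.1.2 p'.2.1.2.2.1.2 p'.2.1.2.2.2.2 h'
    exact Prod.ext (Fin.ext h1) (Subtype.ext (Prod.ext (Fin.ext h2') (Prod.ext (Fin.ext h3)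
      (Prod.ext (Fin.ext h4) (Fin.ext h5)))))
  have hfsurj : Function.Surjective f := by
    rintro ⟨⟨g, hg⟩, hgD⟩
    obtain ⟨a, b, c, d, e, hgm⟩ := (Helper66.e4_mem_iff ι hι g).mp hg
    have hgy : y * g = g * y := (hDmem ⟨g, hg⟩).mp hgD
    have hgm' : (g : Matrix (Fin 4) (Fin 4) F) =
        ι ^ (a % 4) • e4Pauli F (b % 2) (c % 2) (d % 2) (e % 2) := by
      rw [hgm, ← pow_eq_pow_mod a (Helper66.e4_iota_pow_four ι hι), ← Helper66.e4Pauli_mod]
    let t : Fin 2 × Fin 2 × Fin 2 × Fin 2 := (⟨b % 2, Nat.mod_lt _ (by norm_num)⟩,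
      ⟨c % 2, Nat.mod_lt _ (by norm_num)⟩, ⟨d % 2, Nat.mod_lt _ (by norm_num)⟩,
      ⟨e % 2, Nat.mod_lt _ (by norm_num)⟩)
    have htS : t ∈ S := by
      apply Finset.mem_filter.mpr
      refine ⟨Finset.mem_univ _, ?_⟩
      have h1 := congrArg Units.val hgy
      rw [Units.val_mul, Units.val_mul, hgm', Matrix.mul_smul, Matrix.smul_mul] at h1
      have hu : IsUnit (ι ^ (a % 4)) := (IsUnit.mk0 ι hι0).pow _
      exact hu.smul_left_cancel.mp h1
    refine ⟨(⟨a % 4, Nat.mod_lt _ (by norm_num)⟩, ⟨t, htS⟩), ?_⟩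
    apply Subtype.ext
    apply Subtype.ext
    apply Units.ext
    rw [hfval, hgm']
  have hcardD : Nat.card D = 4 * S.card := by
    rw [← Nat.card_congr (Equiv.ofBijective f ⟨hfinj, hfsurj⟩), Nat.card_prod]
    simp [Nat.card_eq_fintype_card]
  -- `Nat.card D = 16`
  have hD16 : Nat.card D = 16 := by
    rcases hD with hD1 | hD4 | hD16 | hD64
    · exfalso
      have h0 : (0 : Fin 2 × Fin 2 × Fin 2 × Fin 2) ∈ S := by
        apply Finset.mem_filter.mpr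
        refine ⟨Finset.mem_univ _, ?_⟩
        have hP0 : P 0 = 1 := by simp [P, e4Pauli]
        rw [hP0, mul_one, one_mul]
      have hpos : 0 < S.card := Finset.card_pos.mpr ⟨0, h0⟩
      omega
    · exfalso
      obtain ⟨c, hc⟩ := Helper81.e4_scalars_of_card_four h2 ι hι y D hDmem hD4 w hw hyw
      exact hwns c hc
    · exact hD16
    · exfalso
      have hDtop : D = ⊤ := Subgroup.eq_top_of_card_eq D (by rw [hD64, hcard])
      have hcommE : ∀ e ∈ E4 ι, y * e = e * y := fun e he =>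
        (hDmem ⟨e, he⟩).mp (by rw [hDtop]; trivial)
      obtain ⟨c, hc⟩ := Helper81.e4_scalar_of_commute_E4 h2 ι y hcommE
      exact hns c hc
  have hS4 : S.card = 4 := by omega
  -- the averaging sum
  have havg := Helper73.e4_avg (y : Matrix (Fin 4) (Fin 4) F)
  have h1 := congrArg (fun A : Matrix (Fin 4) (Fin 4) F =>
    (A * ((y⁻¹ : GL (Fin 4) F) : Matrix (Fin 4) (Fin 4) F)).trace) havg
  simp only [Finset.sum_mul, Matrix.trace_sum] at h1
  rw [Matrix.smul_mul, one_mul, Matrix.trace_smul, smul_eq_mul] at h1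
  have hterm : ∀ b c d e : ℕ, (e4Pauli F b c d e * (y : Matrix (Fin 4) (Fin 4) F) *
        (e4Z2 F ^ e * e4X2 F ^ d * e4Z1 F ^ c * e4X1 F ^ b) *
        ((y⁻¹ : GL (Fin 4) F) : Matrix (Fin 4) (Fin 4) F)).trace =
      if (y : Matrix (Fin 4) (Fin 4) F) * e4Pauli F b c d e =
        e4Pauli F b c d e * (y : Matrix (Fin 4) (Fin 4) F) then 4 else 0 := by
    intro b c d e
    obtain ⟨hA, hB⟩ := e4tr3_term ι hι y hy hy3 b c d e
    split_ifs with hc
    · exact hA hc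
    · exact hB hc
  have hsum : ∑ b ∈ Finset.range 2, ∑ c ∈ Finset.range 2, ∑ d ∈ Finset.range 2,
      ∑ e ∈ Finset.range 2, (e4Pauli F b c d e * (y : Matrix (Fin 4) (Fin 4) F) *
        (e4Z2 F ^ e * e4X2 F ^ d * e4Z1 F ^ c * e4X1 F ^ b) *
        ((y⁻¹ : GL (Fin 4) F) : Matrix (Fin 4) (Fin 4) F)).trace = 16 := by
    simp only [hterm]
    rw [Finset.sum_range]
    simp only [Finset.sum_range]
    have hre : ∑ b : Fin 2, ∑ c : Fin 2, ∑ d : Fin 2, ∑ e : Fin 2,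
        (if (y : Matrix (Fin 4) (Fin 4) F) * e4Pauli F (b : ℕ) (c : ℕ) (d : ℕ) (e : ℕ) =
          e4Pauli F (b : ℕ) (c : ℕ) (d : ℕ) (e : ℕ) * (y : Matrix (Fin 4) (Fin 4) F)
          then (4 : F) else 0) =
        ∑ t : Fin 2 × Fin 2 × Fin 2 × Fin 2,
          (if (y : Matrix (Fin 4) (Fin 4) F) * P t = P t * (y : Matrix (Fin 4) (Fin 4) F)
            then (4 : F) else 0) := by
      simp only [Fintype.sum_prod_type]
      rfl
    rw [hre, ← Finset.sum_filter]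
    show ∑ t ∈ S, (4 : F) = 16
    rw [Finset.sum_const, hS4]
    norm_num
  rw [hsum] at h1
  have h4 : (4 : F) ≠ 0 := by
    have h : (4 : F) = 2 * 2 := by norm_num
    rw [h]
    exact mul_ne_zero h2 h2
  have h5 : (4 : F) * ((y : Matrix (Fin 4) (Fin 4) F).trace *
      ((y⁻¹ : GL (Fin 4) F) : Matrix (Fin 4) (Fin 4) F).trace - 4) = 0 := by
    linear_combination -h1
  rcases mul_eq_zero.mp h5 with h | h
  · exact absurd h h4
  · exact sub_eq_zero.mp h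

end Cfsg.Agent.Helper74
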