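/-
Helper library of seat helper74: invariant characters over invariant *linear* characters.
`A ≤ G` normal subgroups of `Γ`, `(|Γ:G|, |G:A|) = 1`, `Γ/G` solvable, `μ : A →* ℂˣ` invariant in
`Γ`.  Then some `Γ`-invariant `β ∈ Irr(G)` restricts to `A` as `β(1) μ`.
This file: descent of irreducible characters along a surjection, and the case where the order of
`μ` is prime to `|Γ:G|` (Schur–Zassenhaus in `Γ / ker μ`, then `over_solv_subgroup`).
-/
import Cfsg.Agent.Helper74.Over4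
import Cfsg.Agent.Helper75.Ito
import Cfsg.Agent.Helper15.LinExt
import Cfsg.Agent.Helper79.Linear
import Cfsg.Agent.Helper15.ProjExt
import Cfsg.Agent.Helper35.HallCoprime

set_option autoImplicit false

namespace Cfsg.Agent.Helper74

open Cfsg

section ExtDescend

theorem ext_descend {H G : Type*} [Group H] [Finite H] [Group G] (f : H →* G)
    (hf : Function.Surjective f) {χ : H → ℂ} (hχ : IsIrrCharacter H χ)
    (hker : ∀ z ∈ f.ker, χ z = χ 1) :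
    ∃ ψ : G → ℂ, IsIrrCharacter G ψ ∧ ∀ x : H, ψ (f x) = χ x := by
  obtain ⟨ψ₀, hψ₀, hψ₀χ⟩ := Helper79.exists_irr_deflation f.ker hχ hker
  set e := QuotientGroup.quotientKerEquivOfSurjective f hf with he
  refine ⟨fun g => ψ₀ (e.symm g), (Helper79.isIrrCharacter_mulEquiv e.symm).mpr hψ₀, fun x => ?_⟩
  have h1 : e.symm (f x) = (x : H ⧸ f.ker) := by
    rw [MulEquiv.symm_apply_eq]
    rfl
  show ψ₀ (e.symm (f x)) = χ x
  rw [h1, hψ₀χ]

end ExtDescend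

section ExtSplit

theorem ext_split_order {M : Type*} [Group M] (μ : M) (m₁ m₂ : ℕ)
    (hm : orderOf μ = m₁ * m₂) (hc : m₁.Coprime m₂) :
    ∃ μ₁ μ₂ : M, μ₁ * μ₂ = μ ∧ orderOf μ₁ ∣ m₁ ∧ orderOf μ₂ ∣ m₂ ∧
      (∀ f : M →* M, f μ = μ → f μ₁ = μ₁ ∧ f μ₂ = μ₂) := by
  have hbez := Nat.gcd_eq_gcd_ab m₁ m₂
  rw [hc.gcd_eq_one] at hbez
  have hpow : μ ^ ((m₁ : ℤ) * m₂) = 1 := by
    rw [← Nat.cast_mul, zpow_natCast, ← hm, pow_orderOf_eq_one]
  refine ⟨μ ^ ((m₂ : ℤ) * Nat.gcdB m₁ m₂), μ ^ ((m₁ : ℤ) * Nat.gcdA m₁ m₂), ?_, ?_, ?_, ?_⟩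
  · rw [← zpow_add, add_comm, ← hbez]
    simp
  · apply orderOf_dvd_of_pow_eq_one
    rw [← zpow_natCast, ← zpow_mul]
    have h1 : (m₂ : ℤ) * Nat.gcdB m₁ m₂ * m₁ = (m₁ : ℤ) * m₂ * Nat.gcdB m₁ m₂ := by ring
    rw [h1, zpow_mul, hpow, one_zpow]
  · apply orderOf_dvd_of_pow_eq_one
    rw [← zpow_natCast, ← zpow_mul]
    have h1 : (m₁ : ℤ) * Nat.gcdA m₁ m₂ * m₂ = (m₁ : ℤ) * m₂ * Nat.gcdA m₁ m₂ := by ring
    rw [h1, zpow_mul, hpow, one_zpow]
  · intro f hf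
    rw [map_zpow, map_zpow, hf]
    exact ⟨rfl, rfl⟩

end ExtSplit

section ExtLinear

universe u

variable {Γ : Type u} [Group Γ] [Finite Γ]

/-- The case where the order of `μ` is prime to `|Γ:G|`. -/
theorem ext_linear_coprime (G A : Subgroup Γ) [hG : G.Normal] [hA : A.Normal] [Fintype G]
    (hAG : A ≤ G) (hcop : (G.index).Coprime (A.relIndex G))
    (hsolv : Group.IsSolvable (Γ ⧸ G)) (μ : A →* ℂˣ)
    (hμ : ∀ (x : Γ) (a : A), μ ⟨x * a * x⁻¹, hA.conj_mem a a.2 x⟩ = μ a)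
    (hord : (G.index).Coprime (orderOf μ)) :
    ∃ β : IrrCharacter G,
      (∀ a : A, (β : G → ℂ) ⟨a, hAG a.2⟩ = (β : G → ℂ) 1 * (μ a : ℂ)) ∧
      ∀ (x : Γ) (g : G), (β : G → ℂ) ⟨x * g * x⁻¹, hG.conj_mem g g.2 x⟩ = (β : G → ℂ) g := by
  classical
  obtain ⟨K, hK⟩ : ∃ K : Subgroup Γ, K = μ.ker.map A.subtype := ⟨_, rfl⟩
  have hKmem : ∀ k : Γ, k ∈ K ↔ ∃ h : k ∈ A, μ ⟨k, h⟩ = 1 := by
    intro k
    rw [hK, Subgroup.mem_map]
    constructor
    · rintro ⟨a, ha, rfl⟩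
      exact ⟨a.2, MonoidHom.mem_ker.mp ha⟩
    · rintro ⟨h, h1⟩
      exact ⟨⟨k, h⟩, MonoidHom.mem_ker.mpr h1, rfl⟩
  have hKA : K ≤ A := fun k hk => ((hKmem k).mp hk).1
  haveI hKn : K.Normal := by
    constructor
    intro k hk x
    obtain ⟨h, h1⟩ := (hKmem k).mp hk
    refine (hKmem _).mpr ⟨hA.conj_mem k h x, ?_⟩
    rw [← h1]
    exact hμ x ⟨k, h⟩
  obtain ⟨q, hq⟩ : ∃ q : Γ →* Γ ⧸ K, q = QuotientGroup.mk' K := ⟨_, rfl⟩
  have hqs : Function.Surjective q := by rw [hq]; exact QuotientGroup.mk'_surjective K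
  have hqker : q.ker = K := by rw [hq]; exact QuotientGroup.ker_mk' K
  have hq1 : ∀ x : Γ, q x = 1 ↔ x ∈ K := by
    intro x
    rw [← MonoidHom.mem_ker, hqker]
  obtain ⟨G', hG'⟩ : ∃ G' : Subgroup (Γ ⧸ K), G' = G.map q := ⟨_, rfl⟩
  obtain ⟨A', hA'⟩ : ∃ A' : Subgroup (Γ ⧸ K), A' = A.map q := ⟨_, rfl⟩
  haveI hG'n : G'.Normal := by rw [hG']; exact Subgroup.Normal.map hG q hqs
  haveI hA'n : A'.Normal := by rw [hA']; exact Subgroup.Normal.map hA q hqs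
  have hA'G' : A' ≤ G' := by rw [hA', hG']; exact Subgroup.map_mono hAG
  have hidx : G'.index = G.index := by
    rw [hG']
    exact Subgroup.index_map_eq _ hqs (by rw [hqker]; exact hKA.trans hAG)
  -- exponent of `G'`
  have hexp : ∀ y ∈ G', y ^ (A.relIndex G * orderOf μ) = 1 := by
    intro y hy
    rw [hG'] at hy
    obtain ⟨g, hg, rfl⟩ := hy
    rw [← map_pow, hq1, hKmem]
    have h1 : g ^ A.relIndex G ∈ A := by
      have := Subgroup.pow_index_mem (A.subgroupOf G) (⟨g, hg⟩ : G)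
      rw [Subgroup.mem_subgroupOf] at this
      exact this
    have h2 : g ^ (A.relIndex G * orderOf μ) ∈ A := by
      rw [pow_mul]
      exact A.pow_mem h1 _
    refine ⟨h2, ?_⟩
    have h3 : (⟨g ^ (A.relIndex G * orderOf μ), h2⟩ : A) = ⟨g ^ A.relIndex G, h1⟩ ^ orderOf μ := by
      apply Subtype.ext
      show g ^ (A.relIndex G * orderOf μ) = (g ^ A.relIndex G) ^ orderOf μ
      rw [pow_mul]
    rw [h3, map_pow, ← MonoidHom.pow_apply, pow_orderOf_eq_one]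
    rfl
  have hcard : (Nat.card G').Coprime G.index := by
    apply Nat.coprime_of_dvd
    intro p hp hpG hpa
    haveI : Fact p.Prime := ⟨hp⟩
    obtain ⟨y, hy⟩ := exists_prime_orderOf_dvd_card' p hpG
    have h1 : p ∣ A.relIndex G * orderOf μ := by
      rw [← hy]
      apply orderOf_dvd_of_pow_eq_one
      apply Subtype.ext
      rw [Subgroup.coe_pow]
      exact hexp y.1 y.2
    have h2 : (G.index).Coprime (A.relIndex G * orderOf μ) := Nat.Coprime.mul_right hcop hord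
    have h3 := Nat.dvd_gcd hpa h1
    rw [Nat.Coprime.gcd_eq_one h2] at h3
    exact hp.one_lt.ne' (Nat.dvd_one.mp h3)
  obtain ⟨H', hH'⟩ := Subgroup.exists_right_complement'_of_coprime (N := G')
    (by rw [hidx]; exact hcard)
  have hH'card : Nat.card H' = G.index := by
    rw [← hidx]
    exact hH'.symm.index_eq_card.symm
  have hH'solv : Group.IsSolvable H' := by
    haveI := hsolv
    have h1 : Group.IsSolvable ((Γ ⧸ K) ⧸ G') := by
      let f : Γ ⧸ G →* (Γ ⧸ K) ⧸ G' := QuotientGroup.map G G' q (by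
        rw [hG']; exact Subgroup.le_comap_map q G)
      have hf : Function.Surjective f := by
        intro y
        obtain ⟨y', rfl⟩ := QuotientGroup.mk_surjective y
        obtain ⟨x, rfl⟩ := hqs y'
        exact ⟨(x : Γ ⧸ G), rfl⟩
      exact Group.isSolvable_of_surjective hf
    let φ : H' →* (Γ ⧸ K) ⧸ G' := (QuotientGroup.mk' G').comp H'.subtype
    have hφ : Function.Injective φ := by
      rw [injective_iff_map_eq_one]
      intro h hh
      have h2 : (h : Γ ⧸ K) ∈ G' := by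
        have h3 : ((h : Γ ⧸ K) : (Γ ⧸ K) ⧸ G') = 1 := hh
        rwa [QuotientGroup.eq_one_iff] at h3
      have h4 : (h : Γ ⧸ K) ∈ G' ⊓ H' := ⟨h2, h.2⟩
      rw [hH'.disjoint.eq_bot] at h4
      exact Subtype.ext (Subgroup.mem_bot.mp h4)
    exact Group.isSolvable_of_isSolvable_injective hφ
  -- the character of `A'`
  obtain ⟨fA, hfA⟩ : ∃ fA : A →* A', ∀ a : A, ((fA a : A') : Γ ⧸ K) = q a := by
    subst hA'
    exact ⟨q.subgroupMap A, fun a => rfl⟩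
  have hfAs : Function.Surjective fA := by
    rintro ⟨y, hy⟩
    have hy' := hy
    rw [hA'] at hy'
    obtain ⟨a, ha, hay⟩ := hy'
    refine ⟨⟨a, ha⟩, Subtype.ext ?_⟩
    rw [hfA]
    exact hay
  have hfAker : fA.ker ≤ μ.ker := by
    intro a ha
    rw [MonoidHom.mem_ker] at ha ⊢
    have h1 : q (a : Γ) = 1 := by
      rw [← hfA, ha]
      rfl
    rw [hq1, hKmem] at h1
    obtain ⟨h, h2⟩ := h1
    exact h2
  obtain ⟨μ', hμ'⟩ : ∃ μ' : A' →* ℂˣ, ∀ a : A, μ' (fA a) = μ a :=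
    ⟨fA.liftOfRightInverse (Function.surjInv hfAs) (Function.rightInverse_surjInv hfAs)
      ⟨μ, hfAker⟩, fun a => MonoidHom.liftOfRightInverse_comp_apply _ _ _ ⟨μ, hfAker⟩ a⟩
  have hμ'inv : ∀ (s : Γ ⧸ K) (y y' : A'), (y' : Γ ⧸ K) = s * y * s⁻¹ → μ' y' = μ' y := by
    intro s y y' hy
    obtain ⟨x, rfl⟩ := hqs s
    obtain ⟨a, rfl⟩ := hfAs y
    have h1 : y' = fA ⟨x * a * x⁻¹, hA.conj_mem a a.2 x⟩ := by
      apply Subtype.ext
      rw [hy, hfA, hfA, map_mul, map_mul, map_inv]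
    rw [h1, hμ', hμ', hμ x a]
  letI : Fintype G' := Fintype.ofFinite _
  letI : Fintype A' := Fintype.ofFinite _
  obtain ⟨χ', hχ'1, hχ'inv⟩ := over_solv_subgroup G' H' A'
    (fun s _ g hg => hG'n.conj_mem g hg s) hA'G'
    (fun g _ n hn => hA'n.conj_mem n hn g) (fun s _ n hn => hA'n.conj_mem n hn s)
    (by rw [hH'card]; exact hcard) hH'solv
    ⟨fun y => (μ' y : ℂ), Helper79.isIrrCharacter_of_hom μ'⟩
    (fun s _ g g' hg' => congrArg (fun u : ℂˣ => (u : ℂ)) (hμ'inv s g g' hg'))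
  -- pointwise form on `A'`
  have hpt : ∀ y : A', (χ' : G' → ℂ) ⟨y, hA'G' y.2⟩ = (χ' : G' → ℂ) 1 * (μ' y : ℂ) := by
    obtain ⟨N₀, hN₀⟩ : ∃ N₀ : Subgroup G', N₀ = A'.subgroupOf G' := ⟨_, rfl⟩
    haveI : N₀.Normal := by
      constructor
      intro n hn g
      rw [hN₀, Subgroup.mem_subgroupOf] at hn ⊢
      exact hA'n.conj_mem n.1 hn g.1
    letI : Fintype N₀ := Fintype.ofFinite _
    subst hN₀
    set e := Subgroup.subgroupOfEquivOfLe hA'G' with he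
    have hϑ : IsIrrCharacter (A'.subgroupOf G') (fun x => (μ' (e x) : ℂ)) :=
      Helper79.isIrrCharacter_of_hom (μ'.comp e.toMonoidHom)
    have hcon : classInner (fun n : A'.subgroupOf G' => (χ' : G' → ℂ) n)
        (fun x : A'.subgroupOf G' => (μ' (e x) : ℂ)) ≠ 0 := by
      rw [Helper75.classInner_subgroupOf hA'G' (χ' : G' → ℂ) (fun y : A' => (μ' y : ℂ))]
      exact hχ'1
    have hinv : ∀ g : G', Helper75.conjFun (A'.subgroupOf G') g
        (fun x : A'.subgroupOf G' => (μ' (e x) : ℂ)) =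
        fun x : A'.subgroupOf G' => (μ' (e x) : ℂ) := by
      intro g
      funext x
      rw [Helper75.conjFun_apply]
      exact congrArg (fun u : ℂˣ => (u : ℂ)) (hμ'inv (g : Γ ⧸ K) (e x) (e _) rfl)
    obtain ⟨k, -, hres, -⟩ := Helper75.restrict_eq_natCast_smul_of_invariant (A'.subgroupOf G')
      χ'.2 hϑ hcon hinv
    intro y
    have h1 := congrFun hres (e.symm y)
    have h2 := congrFun hres 1
    simp only [Pi.smul_apply, smul_eq_mul, MulEquiv.apply_symm_apply, map_one, Units.val_one,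
      mul_one] at h1 h2
    have h3 : ((1 : A'.subgroupOf G') : G') = 1 := rfl
    rw [h3] at h2
    rw [h2, ← h1]
    rfl
  -- inflation to `G`
  obtain ⟨qG, hqG⟩ : ∃ qG : G →* G', ∀ g : G, ((qG g : G') : Γ ⧸ K) = q g := by
    subst hG'
    exact ⟨q.subgroupMap G, fun g => rfl⟩
  have hqGs : Function.Surjective qG := by
    rintro ⟨y, hy⟩
    have hy' := hy
    rw [hG'] at hy'
    obtain ⟨g, hg, hgy⟩ := hy'
    refine ⟨⟨g, hg⟩, Subtype.ext ?_⟩
    rw [hqG]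
    exact hgy
  refine ⟨⟨fun g => (χ' : G' → ℂ) (qG g), Helper79.isIrrCharacter_comp qG hqGs χ'.2⟩, ?_, ?_⟩
  · intro a
    show (χ' : G' → ℂ) (qG ⟨a, hAG a.2⟩) = (χ' : G' → ℂ) (qG 1) * (μ a : ℂ)
    have h1 : qG ⟨a, hAG a.2⟩ = ⟨fA a, hA'G' (fA a).2⟩ := by
      apply Subtype.ext
      rw [hqG, hfA]
    rw [h1, hpt, hμ', map_one]
  · intro x g
    show (χ' : G' → ℂ) (qG ⟨x * g * x⁻¹, hG.conj_mem g g.2 x⟩) = (χ' : G' → ℂ) (qG g)
    obtain ⟨⟨g₁, h₁⟩, hgh⟩ := hH'.2 (q x)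
    have hgh' : (g₁ : Γ ⧸ K) * (h₁ : Γ ⧸ K) = q x := hgh
    obtain ⟨u, hu⟩ : ∃ u : G', (u : Γ ⧸ K) = h₁ * qG g * (h₁ : Γ ⧸ K)⁻¹ :=
      ⟨⟨_, hG'n.conj_mem _ (qG g).2 h₁⟩, rfl⟩
    have h1 : (χ' : G' → ℂ) u = (χ' : G' → ℂ) (qG g) := hχ'inv h₁ h₁.2 (qG g) u hu
    have h2 : qG ⟨x * g * x⁻¹, hG.conj_mem g g.2 x⟩ = g₁ * u * g₁⁻¹ := by
      apply Subtype.ext
      rw [hqG, Subgroup.coe_mul, Subgroup.coe_mul, Subgroup.coe_inv, hu, hqG, map_mul, map_mul,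
        map_inv, ← hgh']
      group
    rw [h2, Helper79.isCharacter_conj_eq (Helper79.irr_isCharacter χ'), h1]

/-- **Invariant characters over invariant linear characters**: `A ≤ G` normal in `Γ`,
`(|Γ:G|, |G:A|) = 1`, `Γ/G` solvable, `μ : A →* ℂˣ` invariant in `Γ`. -/
theorem ext_linear (G A : Subgroup Γ) [hG : G.Normal] [hA : A.Normal] [Fintype G]
    (hAG : A ≤ G) (hcop : (G.index).Coprime (A.relIndex G))
    (hsolv : Group.IsSolvable (Γ ⧸ G)) (μ : A →* ℂˣ)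
    (hμ : ∀ (x : Γ) (a : A), μ ⟨x * a * x⁻¹, hA.conj_mem a a.2 x⟩ = μ a) :
    ∃ β : IrrCharacter G,
      (∀ a : A, (β : G → ℂ) ⟨a, hAG a.2⟩ = (β : G → ℂ) 1 * (μ a : ℂ)) ∧
      ∀ (x : Γ) (g : G), (β : G → ℂ) ⟨x * g * x⁻¹, hG.conj_mem g g.2 x⟩ = (β : G → ℂ) g := by
  classical
  have hm : 0 < orderOf μ := Helper15.orderOf_hom_pos μ
  obtain ⟨m₁, m₂, hm12, hc12, hm₁, hm₂⟩ :=
    Helper35.exists_pi_factorization {p | p ∣ G.index} (orderOf μ) hm.ne'
  have hm₁b : m₁.Coprime (A.relIndex G) := by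
    apply Nat.coprime_of_dvd
    intro p hp hp1 hp2
    have h1 : p ∣ G.index := hm₁ p hp hp1
    have h3 := Nat.dvd_gcd h1 hp2
    rw [Nat.Coprime.gcd_eq_one hcop] at h3
    exact hp.one_lt.ne' (Nat.dvd_one.mp h3)
  have hm₂a : (G.index).Coprime m₂ := by
    apply Nat.coprime_of_dvd
    intro p hp hp1 hp2
    exact hm₂ p hp hp1 hp2
  have hμc : ∀ x : Γ, MonoidHom.compHom' (Helper15.conjNHom (N := A) x) μ = μ := by
    intro x
    apply MonoidHom.ext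
    intro a
    exact hμ x a
  obtain ⟨μ₁, μ₂, hμ12, ho1, ho2, hfix⟩ := ext_split_order (M := A →* ℂˣ) μ m₁ m₂ hm12 hc12
  have hμ₁inv : ∀ (x : Γ) (a : A), μ₁ ⟨x * a * x⁻¹, hA.conj_mem a a.2 x⟩ = μ₁ a := by
    intro x a
    exact DFunLike.congr_fun (hfix (MonoidHom.compHom' (Helper15.conjNHom (N := A) x)) (hμc x)).1 a
  have hμ₂inv : ∀ (x : Γ) (a : A), μ₂ ⟨x * a * x⁻¹, hA.conj_mem a a.2 x⟩ = μ₂ a := by
    intro x a
    exact DFunLike.congr_fun (hfix (MonoidHom.compHom' (Helper15.conjNHom (N := A) x)) (hμc x)).2 a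
  -- the invariant extension of `μ₁`
  haveI hA₀n : (A.subgroupOf G).Normal := by
    constructor
    intro n hn g
    rw [Subgroup.mem_subgroupOf] at hn ⊢
    exact hA.conj_mem n.1 hn g.1
  obtain ⟨e, he⟩ : ∃ e : A.subgroupOf G ≃* A, ∀ n, ((e n : A) : Γ) = ((n : G) : Γ) :=
    ⟨Subgroup.subgroupOfEquivOfLe hAG, fun _ => rfl⟩
  obtain ⟨f₁, hf₁⟩ : ∃ f₁ : A.subgroupOf G →* ℂˣ, ∀ n, f₁ n = μ₁ (e n) :=
    ⟨μ₁.comp e.toMonoidHom, fun _ => rfl⟩
  have hf₁inv : ∀ (g : G) (n : A.subgroupOf G),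
      f₁ ⟨g * n * g⁻¹, hA₀n.conj_mem (n : G) n.2 g⟩ = f₁ n := by
    intro g n
    rw [hf₁, hf₁, ← hμ₁inv (g : Γ) (e n)]
    congr 1
    apply Subtype.ext
    rw [he]
    simp [he]
  have hf₁ord : orderOf f₁ ∣ m₁ := by
    apply orderOf_dvd_of_pow_eq_one
    apply MonoidHom.ext
    intro n
    rw [MonoidHom.pow_apply, hf₁, ← MonoidHom.pow_apply, orderOf_dvd_iff_pow_eq_one.mp ho1]
    rfl
  obtain ⟨F, hF, hFord⟩ := Helper15.exists_hom_extension_coprime (A.subgroupOf G) f₁ hf₁inv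
    (Nat.Coprime.coprime_dvd_right hf₁ord hm₁b.symm)
  have hcopF : Nat.Coprime (A.subgroupOf G).index (orderOf F) := by
    rw [hFord]
    exact Nat.Coprime.coprime_dvd_right hf₁ord hm₁b.symm
  have hFinv : ∀ (x : Γ) (g : G), F ⟨x * g * x⁻¹, hG.conj_mem g g.2 x⟩ = F g := by
    intro x g
    have h1 : MonoidHom.compHom' (Helper15.conjNHom (N := G) x) F = F := by
      apply Helper15.hom_eq_of_coprime (A.subgroupOf G)
      · intro n
        have h2 : (⟨x * ((n : G) : Γ) * x⁻¹, hG.conj_mem _ (n : G).2 x⟩ : G) ∈ A.subgroupOf G := by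
          rw [Subgroup.mem_subgroupOf]
          exact hA.conj_mem _ (Subgroup.mem_subgroupOf.mp n.2) x
        have h3 := hF ⟨_, h2⟩
        have h4 : MonoidHom.compHom' (Helper15.conjNHom (N := G) x) F (n : G) =
            F ⟨x * ((n : G) : Γ) * x⁻¹, hG.conj_mem _ (n : G).2 x⟩ := rfl
        rw [h4, h3, hF, hf₁, hf₁, ← hμ₁inv x (e n)]
        congr 1
        apply Subtype.ext
        rw [he]
        simp [he]
      · apply Nat.Coprime.coprime_dvd_right _ hcopF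
        apply orderOf_dvd_of_pow_eq_one
        rw [← map_pow, pow_orderOf_eq_one, map_one]
      · exact hcopF
    exact DFunLike.congr_fun h1 g
  have hord2 : (G.index).Coprime (orderOf μ₂) := Nat.Coprime.coprime_dvd_right ho2 hm₂a
  obtain ⟨β₂, hβ₂1, hβ₂2⟩ := ext_linear_coprime G A hAG hcop hsolv μ₂ hμ₂inv hord2
  refine ⟨Helper79.irrTwist F β₂, ?_, ?_⟩
  · intro a
    rw [Helper79.irrTwist_apply, Helper79.irrTwist_apply, map_one, Units.val_one, one_mul, hβ₂1]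
    have h1 : F ⟨a, hAG a.2⟩ = μ₁ a := by
      have h2 := hF (e.symm a)
      rw [hf₁, MulEquiv.apply_symm_apply] at h2
      rw [← h2]
      congr 1
      apply Subtype.ext
      rw [← he, MulEquiv.apply_symm_apply]
    rw [h1, ← hμ12, MonoidHom.mul_apply, Units.val_mul]
    ring
  · intro x g
    rw [Helper79.irrTwist_apply, Helper79.irrTwist_apply, hFinv, hβ₂2]

end ExtLinear

end Cfsg.Agent.Helper74
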