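/-
Helper library of seat helper74: invariant characters over invariant characters, solvable top
quotient (Isaacs, Problem 13.10 / Theorem 13.31 for `Γ/G` solvable).
`N ≤ G` normal in `Γ`, `(|Γ:G|, |G:N|) = 1`, `Γ/G` solvable, `θ ∈ Irr(N)` invariant in `Γ`:
some `Γ`-invariant `χ ∈ Irr(G)` lies over `θ`.
The reduction to linear characters goes through the finite central extension `finLift` of
Helper15 (a projective representation extending `θ`) and Gallagher's theorem.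
-/
import Cfsg.Agent.Helper74.Ext1
import Cfsg.Agent.Helper15.FinLift
import Cfsg.Agent.Helper15.Gallagher

set_option autoImplicit false

namespace Cfsg.Agent.Helper74

open Cfsg

section ExtLift

universe u

variable {Γ : Type u} [Group Γ] [Finite Γ]

omit [Finite Γ] in
/-- Abstract reduction: a finite group `L` over `Γ` carrying a character `σ` which, over `N`, is
`θ` up to a linear character `c`. -/
theorem ext_of_lift (G N : Subgroup Γ) [hG : G.Normal] [hN : N.Normal] [Fintype G] [Fintype N]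
    (hNG : N ≤ G) (hcop : (G.index).Coprime (N.relIndex G))
    (hsolv : Group.IsSolvable (Γ ⧸ G)) (θ : IrrCharacter N)
    {L : Type u} [Group L] [Finite L] (π : L →* Γ) (hπ : Function.Surjective π)
    (σ : L → ℂ) (hσ : IsCharacter L σ) (c : (N.comap π) →* ℂˣ)
    (hσc : ∀ a : N.comap π, σ a = (c a : ℂ) * (θ : N → ℂ) ⟨π a, a.2⟩)
    (hcinv : ∀ (x : L) (a : N.comap π),
      c ⟨x * a * x⁻¹, (hN.comap π).conj_mem a a.2 x⟩ = c a) :
    ∃ χ : IrrCharacter G, classInner (fun n : N => (χ : G → ℂ) ⟨n, hNG n.2⟩) (θ : N → ℂ) ≠ 0 ∧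
      ∀ (x : Γ) (g : G), (χ : G → ℂ) ⟨x * g * x⁻¹, hG.conj_mem g g.2 x⟩ = (χ : G → ℂ) g := by
  classical
  haveI hĜn : (G.comap π).Normal := hG.comap π
  haveI hÂn : (N.comap π).Normal := hN.comap π
  have hÂĜ : N.comap π ≤ G.comap π := Subgroup.comap_mono hNG
  letI : Fintype (G.comap π) := Fintype.ofFinite _
  have hidx : (G.comap π).index = G.index := Subgroup.index_comap_of_surjective G hπ
  have hrel : (N.comap π).relIndex (G.comap π) = N.relIndex G := by
    rw [Subgroup.relIndex_comap, Subgroup.map_comap_eq_self_of_surjective hπ]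
  have hsolv' : Group.IsSolvable (L ⧸ G.comap π) := by
    haveI := hsolv
    let f : L ⧸ G.comap π →* Γ ⧸ G := QuotientGroup.map (G.comap π) G π le_rfl
    have hf : Function.Injective f := by
      rw [injective_iff_map_eq_one]
      intro y hy
      obtain ⟨x, rfl⟩ := QuotientGroup.mk_surjective y
      have h1 : ((π x : Γ) : Γ ⧸ G) = 1 := hy
      rw [QuotientGroup.eq_one_iff] at h1 ⊢
      exact h1
    exact Group.isSolvable_of_isSolvable_injective hf
  obtain ⟨β, hβ1, hβ2⟩ := ext_linear (G.comap π) (N.comap π) hÂĜ (by rw [hidx, hrel]; exact hcop)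
    hsolv' c⁻¹ (by
      intro x a
      rw [MonoidHom.inv_apply, MonoidHom.inv_apply, hcinv])
  have hβ1' : ∀ a : N.comap π, (β : G.comap π → ℂ) ⟨a, hÂĜ a.2⟩ * σ a =
      (β : G.comap π → ℂ) 1 * (θ : N → ℂ) ⟨π a, a.2⟩ := by
    intro a
    rw [hβ1 a, hσc a, MonoidHom.inv_apply, Units.val_inv_eq_inv_val, mul_assoc, ← mul_assoc _ _ ((θ : N → ℂ) _),
      inv_mul_cancel₀ (Units.ne_zero _), one_mul]
  -- Gallagher
  haveI hÂ₀n : ((N.comap π).subgroupOf (G.comap π)).Normal := by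
    constructor
    intro n hn g
    rw [Subgroup.mem_subgroupOf] at hn ⊢
    exact hÂn.conj_mem n.1 hn g.1
  letI : Fintype ((N.comap π).subgroupOf (G.comap π)) := Fintype.ofFinite _
  obtain ⟨e, he⟩ : ∃ e : (N.comap π).subgroupOf (G.comap π) ≃* N.comap π,
      ∀ n, ((e n : N.comap π) : L) = ((n : G.comap π) : L) :=
    ⟨Subgroup.subgroupOfEquivOfLe hÂĜ, fun _ => rfl⟩
  obtain ⟨φ, hφ⟩ : ∃ φ : (N.comap π).subgroupOf (G.comap π) →* ℂˣ, ∀ n, φ n = (c (e n))⁻¹ :=
    ⟨c⁻¹.comp e.toMonoidHom, fun _ => rfl⟩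
  obtain ⟨φc, hφc⟩ : ∃ φc : (N.comap π).subgroupOf (G.comap π) → ℂ, φc = fun n => (φ n : ℂ) :=
    ⟨_, rfl⟩
  obtain ⟨ϑ, hϑ⟩ : ∃ ϑ : (N.comap π).subgroupOf (G.comap π) → ℂ,
      ϑ = fun n : (N.comap π).subgroupOf (G.comap π) => σ ((n : G.comap π) : L) := ⟨_, rfl⟩
  obtain ⟨χG, hχG⟩ : ∃ χG : G.comap π → ℂ, χG = fun x : G.comap π => σ (x : L) := ⟨_, rfl⟩
  have hφirr : IsIrrCharacter ((N.comap π).subgroupOf (G.comap π)) φc := by
    rw [hφc]
    exact Helper79.isIrrCharacter_of_hom φ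
  have hφinv : ∀ (g : G.comap π) (n : (N.comap π).subgroupOf (G.comap π)),
      φc ⟨g * n * g⁻¹, hÂ₀n.conj_mem (n : G.comap π) n.2 g⟩ = φc n := by
    intro g n
    rw [hφc]
    show (φ _ : ℂ) = (φ n : ℂ)
    rw [hφ, hφ, ← hcinv (g : L) (e n)]
    congr 3
    apply Subtype.ext
    rw [he]
    simp [he]
  have hprod : IsIrrCharacter ((N.comap π).subgroupOf (G.comap π)) (φc * ϑ) := by
    obtain ⟨πA, hπA⟩ : ∃ πA : (N.comap π).subgroupOf (G.comap π) →* N,
        ∀ n, ((πA n : N) : Γ) = π ((n : G.comap π) : L) :=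
      ⟨(π.subgroupComap N).comp e.toMonoidHom, fun n => by
        show π ((e n : N.comap π) : L) = _
        rw [he]⟩
    have hπAs : Function.Surjective πA := by
      intro n
      obtain ⟨x, hx⟩ := hπ (n : Γ)
      have hxÂ : x ∈ N.comap π := by rw [Subgroup.mem_comap, hx]; exact n.2
      refine ⟨e.symm ⟨x, hxÂ⟩, Subtype.ext ?_⟩
      rw [hπA, ← he, MulEquiv.apply_symm_apply]
      exact hx
    have h1 : φc * ϑ = fun a => (θ : N → ℂ) (πA a) := by
      funext a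
      rw [Pi.mul_apply, hφc, hϑ]
      show (φ a : ℂ) * σ ((a : G.comap π) : L) = _
      rw [← he, hσc (e a), hφ, Units.val_inv_eq_inv_val, ← mul_assoc,
        inv_mul_cancel₀ (Units.ne_zero _), one_mul]
      refine congrArg (θ : N → ℂ) (Subtype.ext ?_)
      show π ((e a : N.comap π) : L) = ((πA a : N) : Γ)
      rw [hπA, he]
    rw [h1]
    exact Helper79.isIrrCharacter_comp πA hπAs θ.2
  have hχGc : IsCharacter (G.comap π) χG := by
    rw [hχG]
    exact Helper79.isCharacter_comp hσ (G.comap π).subtype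
  have hβ0 : (β : G.comap π → ℂ) 1 ≠ 0 := Helper80.irr_one_ne_zero β
  have hβφ : classInner (indFun ((N.comap π).subgroupOf (G.comap π)) φc)
      (β : G.comap π → ℂ) ≠ 0 := by
    rw [Helper3.frobenius_reciprocity _ _ _
      (Helper15.isClassFunction_of_isChar (Helper79.irr_isCharacter β))]
    have h1 : (fun h : (N.comap π).subgroupOf (G.comap π) => (β : G.comap π → ℂ) h) =
        ((β : G.comap π → ℂ) 1) • φc := by
      funext h
      have h2 := hβ1 (e h)
      rw [Pi.smul_apply, smul_eq_mul, hφc]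
      show _ = (β : G.comap π → ℂ) 1 * (φ h : ℂ)
      rw [hφ, ← MonoidHom.inv_apply, ← h2]
      exact congrArg (β : G.comap π → ℂ) (Subtype.ext (he h).symm)
    rw [h1, Helper15.classInner_smul_right, Helper15.irr_inner_self hφirr, mul_one]
    exact (map_ne_zero _).mpr hβ0
  obtain ⟨hirr, -⟩ := Helper15.gallagher_mul_irr ((N.comap π).subgroupOf (G.comap π))
    φc ϑ hφirr hφinv hprod χG hχGc (fun n => by rw [hχG, hϑ]) (β : G.comap π → ℂ) β.2 hβφ
  -- descent to `G`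
  have hπGs : Function.Surjective (π.subgroupComap G) :=
    π.subgroupComap_surjective_of_surjective G hπ
  have hmul : ∀ x : G.comap π, ((β : G.comap π → ℂ) * χG) x =
      (β : G.comap π → ℂ) x * σ (x : L) := by
    intro x
    rw [Pi.mul_apply, hχG]
  have hker : ∀ z ∈ (π.subgroupComap G).ker,
      ((β : G.comap π → ℂ) * χG) z = ((β : G.comap π → ℂ) * χG) 1 := by
    intro z hz
    have hz1 : π (z : L) = 1 := congrArg Subtype.val (MonoidHom.mem_ker.mp hz)
    have hzÂ : (z : L) ∈ N.comap π := by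
      rw [Subgroup.mem_comap, hz1]
      exact N.one_mem
    have h1 := hβ1' ⟨z, hzÂ⟩
    have h2 := hβ1' 1
    have h3 : (⟨((⟨z, hzÂ⟩ : N.comap π) : L), hÂĜ hzÂ⟩ : G.comap π) = z := rfl
    have h4 : (⟨((1 : N.comap π) : L), hÂĜ (1 : N.comap π).2⟩ : G.comap π) = 1 := rfl
    rw [h3] at h1
    rw [h4] at h2
    rw [hmul, hmul, h1]
    have h5 : σ ((1 : G.comap π) : L) = σ ((1 : N.comap π) : L) := rfl
    rw [h5, h2]
    refine congrArg (fun t => (β : G.comap π → ℂ) 1 * (θ : N → ℂ) t) (Subtype.ext ?_)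
    show π (z : L) = π ((1 : N.comap π) : L)
    rw [hz1, Subgroup.coe_one, map_one]
  obtain ⟨χ, hχirr, hχ⟩ := ext_descend (π.subgroupComap G) hπGs hirr hker
  refine ⟨⟨χ, hχirr⟩, ?_, ?_⟩
  · have h1 : (fun n : N => χ ⟨n, hNG n.2⟩) = ((β : G.comap π → ℂ) 1) • (θ : N → ℂ) := by
      funext n
      obtain ⟨x, hx⟩ := hπ (n : Γ)
      have hxÂ : x ∈ N.comap π := by rw [Subgroup.mem_comap, hx]; exact n.2
      have h2 := hχ ⟨x, hÂĜ hxÂ⟩
      have h3 : π.subgroupComap G ⟨x, hÂĜ hxÂ⟩ = ⟨n, hNG n.2⟩ := Subtype.ext hx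
      rw [h3] at h2
      rw [h2, hmul, Pi.smul_apply, smul_eq_mul]
      have h4 := hβ1' ⟨x, hxÂ⟩
      rw [show (⟨π ((⟨x, hxÂ⟩ : N.comap π) : L), (⟨x, hxÂ⟩ : N.comap π).2⟩ : N) = n from
        Subtype.ext hx] at h4
      exact h4
    show classInner (fun n : N => χ ⟨n, hNG n.2⟩) (θ : N → ℂ) ≠ 0
    rw [h1, Helper15.classInner_smul_left, Helper15.irr_inner_self θ.2, mul_one]
    exact hβ0
  · intro x g
    obtain ⟨x', rfl⟩ := hπ x
    obtain ⟨g', rfl⟩ := hπGs g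
    have h1 : (⟨π x' * ((π.subgroupComap G g' : G) : Γ) * (π x')⁻¹,
        hG.conj_mem _ (π.subgroupComap G g').2 (π x')⟩ : G) =
        π.subgroupComap G ⟨x' * g' * x'⁻¹, hĜn.conj_mem g' g'.2 x'⟩ := by
      apply Subtype.ext
      show π x' * π (g' : L) * (π x')⁻¹ = π (x' * g' * x'⁻¹)
      rw [map_mul, map_mul, map_inv]
    show χ _ = χ _
    rw [h1, hχ, hχ, hmul, hmul, hβ2 x' g']
    congr 1
    exact Helper79.isCharacter_conj_eq hσ _ _

section ExtScalar

variable {N : Subgroup Γ} [hN : N.Normal] {d : ℕ} (ρ : Representation ℂ N (Fin d → ℂ))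

omit [Finite Γ] in
/-- Over `N`, an element of the lift group is a scalar times the base lift. -/
theorem ext_scalar_hom [Finite N] (hρ : ρ.IsIrreducible) (hd : 0 < d) :
    ∃ c : (N.comap (Helper15.finLiftPr ρ (Nat.card N))) →* ℂˣ,
      ∀ a : N.comap (Helper15.finLiftPr ρ (Nat.card N)),
        (a.1.1.2 : (Module.End ℂ (Fin d → ℂ))ˣ) =
          Helper15.scalarUnit d (c a) * Helper15.thetaUnit ρ ⟨a.1.1.1, a.2⟩ := by
  have hex : ∀ a : N.comap (Helper15.finLiftPr ρ (Nat.card N)), ∃ c : ℂˣ,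
      (a.1.1.2 : (Module.End ℂ (Fin d → ℂ))ˣ) =
        Helper15.scalarUnit d c * Helper15.thetaUnit ρ ⟨a.1.1.1, a.2⟩ := fun a =>
    Helper15.lift_eq_scalar_mul ρ hρ (Helper15.base_mem_liftGroup ρ ⟨a.1.1.1, a.2⟩) a.1.2.1
  choose c₀ hc₀ using hex
  refine ⟨MonoidHom.mk' c₀ ?_, hc₀⟩
  intro a b
  apply Helper15.scalarUnit_injective hd
  have h1 := hc₀ (a * b)
  have h2 : ((a * b).1.1.2 : (Module.End ℂ (Fin d → ℂ))ˣ) = a.1.1.2 * b.1.1.2 := rfl
  have h3 : (⟨(a * b).1.1.1, (a * b).2⟩ : N) = ⟨a.1.1.1, a.2⟩ * ⟨b.1.1.1, b.2⟩ := rfl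
  rw [h2, hc₀ a, hc₀ b, h3, map_mul] at h1
  have h4 : Helper15.scalarUnit d (c₀ a) * Helper15.thetaUnit ρ ⟨a.1.1.1, a.2⟩ *
      (Helper15.scalarUnit d (c₀ b) * Helper15.thetaUnit ρ ⟨b.1.1.1, b.2⟩) =
      Helper15.scalarUnit d (c₀ a * c₀ b) *
        (Helper15.thetaUnit ρ ⟨a.1.1.1, a.2⟩ * Helper15.thetaUnit ρ ⟨b.1.1.1, b.2⟩) := by
    rw [map_mul, mul_assoc, ← mul_assoc (Helper15.thetaUnit ρ ⟨a.1.1.1, a.2⟩),
      ← Helper15.scalarUnit_comm, mul_assoc, mul_assoc]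
  rw [h4] at h1
  exact (mul_right_cancel h1).symm

end ExtScalar

/-- **Invariant characters over invariant characters, solvable top quotient.** -/
theorem ext_solv_top (G N : Subgroup Γ) [hG : G.Normal] [hN : N.Normal] [Fintype G] [Fintype N]
    (hNG : N ≤ G) (hcop : (G.index).Coprime (N.relIndex G))
    (hsolv : Group.IsSolvable (Γ ⧸ G)) (θ : IrrCharacter N)
    (hinv : ∀ (x : Γ) (n : N),
      (θ : N → ℂ) ⟨x * n * x⁻¹, hN.conj_mem n n.2 x⟩ = (θ : N → ℂ) n) :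
    ∃ χ : IrrCharacter G, classInner (fun n : N => (χ : G → ℂ) ⟨n, hNG n.2⟩) (θ : N → ℂ) ≠ 0 ∧
      ∀ (x : Γ) (g : G), (χ : G → ℂ) ⟨x * g * x⁻¹, hG.conj_mem g g.2 x⟩ = (χ : G → ℂ) g := by
  classical
  obtain ⟨d, ρ, hρirr, hρ⟩ := θ.2
  have hinv' : ∀ (g : Γ) (n : N), ρ.character (Helper15.conjN g n) = ρ.character n := by
    intro g n
    rw [hρ]
    exact hinv g n
  have hd : 0 < d := by
    have := hρirr
    simpa using Helper80.rep_finrank_pos ρ
  haveI : Finite (Helper15.finLift ρ (Nat.card N)) :=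
    Helper15.finite_finLift ρ hρirr hinv' _ Nat.card_pos
  obtain ⟨c, hc⟩ := ext_scalar_hom ρ hρirr hd
  refine ext_of_lift G N hNG hcop hsolv θ (Helper15.finLiftPr ρ (Nat.card N))
    (Helper15.finLiftPr_surjective ρ hinv' _ hd)
    (Helper15.finLiftRep ρ (Nat.card N)).character ⟨d, _, rfl⟩ c ?_ ?_
  · intro a
    rw [← hρ]
    show LinearMap.trace ℂ _ (Helper15.finLiftRep ρ (Nat.card N) a.1) =
      (c a : ℂ) * LinearMap.trace ℂ _ (ρ ⟨a.1.1.1, a.2⟩)
    rw [Helper15.finLiftRep_apply, hc a, Units.val_mul, Helper15.scalarUnit_coe,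
      Helper15.thetaUnit_coe, smul_mul_assoc, one_mul, map_smul, smul_eq_mul]
  · intro x a
    apply Helper15.scalarUnit_injective hd
    have h1 := hc ⟨x * a * x⁻¹, (hN.comap (Helper15.finLiftPr ρ (Nat.card N))).conj_mem a a.2 x⟩
    have h2 : ((x * (a : Helper15.finLift ρ (Nat.card N)) * x⁻¹).1.2 :
        (Module.End ℂ (Fin d → ℂ))ˣ) = x.1.2 * a.1.1.2 * x.1.2⁻¹ := rfl
    have h3 := Helper15.liftGroup_units ρ x.2.1 ⟨a.1.1.1, a.2⟩
    have h4 : (⟨(x * (a : Helper15.finLift ρ (Nat.card N)) * x⁻¹).1.1, (hN.comap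
        (Helper15.finLiftPr ρ (Nat.card N))).conj_mem a a.2 x⟩ : N) =
        Helper15.conjN x.1.1 ⟨a.1.1.1, a.2⟩ := rfl
    have h5 : x.1.2 * a.1.1.2 * x.1.2⁻¹ = Helper15.scalarUnit d (c a) *
        Helper15.thetaUnit ρ (Helper15.conjN x.1.1 ⟨a.1.1.1, a.2⟩) := by
      have key : ∀ (X S T T' : (Module.End ℂ (Fin d → ℂ))ˣ), X * S = S * X → X * T = T' * X →
          X * (S * T) * X⁻¹ = S * T' := by
        intro X S T T' h7 h8
        rw [← mul_assoc X, h7, mul_assoc S, h8, ← mul_assoc, mul_inv_cancel_right]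
      rw [hc a]
      exact key _ _ _ _ (Helper15.scalarUnit_comm _ _).symm h3
    have h6 : Helper15.scalarUnit d (c ⟨x * a * x⁻¹, (hN.comap
        (Helper15.finLiftPr ρ (Nat.card N))).conj_mem a a.2 x⟩) *
        Helper15.thetaUnit ρ (Helper15.conjN x.1.1 ⟨a.1.1.1, a.2⟩) =
        Helper15.scalarUnit d (c a) *
          Helper15.thetaUnit ρ (Helper15.conjN x.1.1 ⟨a.1.1.1, a.2⟩) := by
      rw [← h5, ← h2, ← h4]
      exact h1.symm
    exact mul_right_cancel h6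

end ExtLift

end Cfsg.Agent.Helper74
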