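/-
Helper library of seat helper74: the double count behind Isaacs 13.29 for a `p`-group.
Given a commuting square of groups `E → D → G`, `E → K → G`, Glauberman correspondences
`Irr_P(G) ↔ Irr(D)` and `Irr_Q(K) ↔ Irr(E)` (p-group case), an invariant `χ ∈ Irr(G)` with
correspondent `β` (multiplicity `m_β`) and an invariant `θ ∈ Irr(K)` with correspondent `η`
(multiplicity `m_θ`):  `m_β [β_E, η] ≡ [χ_K, θ] m_θ (mod p)`.
-/
import Cfsg.Agent.Helper74.Over1

set_option autoImplicit false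

namespace Cfsg.Agent.Helper74

open Cfsg

open scoped ComplexConjugate

section OverDouble

theorem over_double_count {G K D E : Type*} [Group G] [Fintype G] [Group K] [Fintype K]
    [Group D] [Fintype D] [Group E] [Fintype E] (p : ℕ) [Fact p.Prime]
    (ι : D →* G) (j : K →* G) (ι' : E →* K) (j' : E →* D)
    (hsq : ∀ e : E, ι (j' e) = j (ι' e))
    (InvG : IrrCharacter G → Prop) (RG : GlaubCorr p InvG ι)
    (𝒬 : Subgroup (MulAut K)) (hQ : IsPGroup p 𝒬)
    (RK : GlaubCorr p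
      (fun θ : IrrCharacter K => ∀ a ∈ 𝒬, ∀ k, (θ : K → ℂ) (a k) = (θ : K → ℂ) k) ι')
    (hfixE : ∀ a ∈ 𝒬, ∀ e : E, a (ι' e) = ι' e)
    (χ : IrrCharacter G) (hχ : InvG χ)
    (hχK : ∀ a ∈ 𝒬, ∀ k : K, (χ : G → ℂ) (j (a k)) = (χ : G → ℂ) (j k))
    (β : IrrCharacter D) (mβ : ℕ)
    (hmβ : classInner (fun d : D => (χ : G → ℂ) (ι d)) (β : D → ℂ) = (mβ : ℂ)) (hpβ : ¬ p ∣ mβ)
    (θ : IrrCharacter K) (hθ : ∀ a ∈ 𝒬, ∀ k, (θ : K → ℂ) (a k) = (θ : K → ℂ) k)
    (η : IrrCharacter E) (mθ : ℕ)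
    (hmθ : classInner (fun e : E => (θ : K → ℂ) (ι' e)) (η : E → ℂ) = (mθ : ℂ)) (hpθ : ¬ p ∣ mθ)
    (u v : ℕ) (hu : classInner (fun e : E => (β : D → ℂ) (j' e)) (η : E → ℂ) = (u : ℂ))
    (hv : classInner (fun k : K => (χ : G → ℂ) (j k)) (θ : K → ℂ) = (v : ℂ)) :
    mβ * u ≡ v * mθ [MOD p] := by
  classical
  letI : Fintype (IrrCharacter D) := Fintype.ofFinite _
  letI : Fintype (IrrCharacter K) := Fintype.ofFinite _
  obtain ⟨iG, -, -, -⟩ := RG
  obtain ⟨iK, -, iiiK, -⟩ := RK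
  choose m1 hm1 using fun δ : IrrCharacter D => exists_mult ι χ δ
  choose m2 hm2 using fun δ : IrrCharacter D => exists_mult j' δ η
  choose k1 hk1 using fun θ' : IrrCharacter K => exists_mult j χ θ'
  choose k2 hk2 using fun θ' : IrrCharacter K => exists_mult ι' θ' η
  have hX1 := mult_trans ι j' χ η m1 m2 hm1 hm2
  have hX2 := mult_trans j ι' χ η k1 k2 hk1 hk2
  have hfun : (fun c : E => (χ : G → ℂ) ((ι.comp j') c)) =
      (fun c : E => (χ : G → ℂ) ((j.comp ι') c)) := by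
    funext c
    simp only [MonoidHom.comp_apply]
    rw [hsq]
  rw [hfun, hX2] at hX1
  have hsum : ∑ θ' : IrrCharacter K, k1 θ' * k2 θ' = ∑ δ : IrrCharacter D, m1 δ * m2 δ := by
    exact_mod_cast hX1
  have hside1 : ∑ δ : IrrCharacter D, m1 δ * m2 δ ≡ mβ * u [MOD p] := by
    have e1 : m1 β = mβ := by exact_mod_cast (hm1 β).symm.trans hmβ
    have e2 : m2 β = u := by exact_mod_cast (hm2 β).symm.trans hu
    rw [← e1, ← e2, ← Finset.add_sum_erase Finset.univ _ (Finset.mem_univ β)]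
    have hdvd : p ∣ ∑ δ ∈ Finset.univ.erase β, m1 δ * m2 δ := by
      apply Finset.dvd_sum
      intro δ hδ
      apply dvd_mul_of_dvd_left
      by_contra hnd
      obtain ⟨δ₀, _, huniq⟩ := iG χ hχ
      have h1 := huniq δ ⟨m1 δ, hm1 δ, hnd⟩
      have h2 := huniq β ⟨mβ, hmβ, hpβ⟩
      exact (Finset.ne_of_mem_erase hδ) (h1.trans h2.symm)
    have h0 := Nat.ModEq.add_left (m1 β * m2 β) ((Nat.modEq_zero_iff_dvd).mpr hdvd)
    rwa [add_zero] at h0
  have hside2 : ∑ θ' : IrrCharacter K, k1 θ' * k2 θ' ≡ v * mθ [MOD p] := by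
    have e1 : k1 θ = v := by exact_mod_cast (hk1 θ).symm.trans hv
    have e2 : k2 θ = mθ := by exact_mod_cast (hk2 θ).symm.trans hmθ
    rw [← e1, ← e2]
    letI : MulAction (MulAut K) (IrrCharacter K) := irrMulAction
    refine over_sum_modEq (P := ↥𝒬) hQ (fun θ' => k1 θ' * k2 θ') ?_ θ ?_ ?_
    · intro a θ'
      have hk1' : k1 (a • θ') = k1 θ' := by
        have h : classInner (fun k : K => (χ : G → ℂ) (j k))
            ((a • θ' : IrrCharacter K) : K → ℂ) =
            classInner (fun k : K => (χ : G → ℂ) (j k)) (θ' : K → ℂ) := by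
          rw [← classInner_comp_equiv ((a : MulAut K)⁻¹).toEquiv
            (fun k : K => (χ : G → ℂ) (j k)) (θ' : K → ℂ)]
          congr 1
          funext k
          exact (hχK (a : MulAut K)⁻¹ (𝒬.inv_mem a.2) k).symm
        rw [hk1, hk1] at h
        exact_mod_cast h
      have hk2' : k2 (a • θ') = k2 θ' := by
        have h : (fun e : E => ((a • θ' : IrrCharacter K) : K → ℂ) (ι' e)) =
            (fun e : E => (θ' : K → ℂ) (ι' e)) := by
          funext e
          change (θ' : K → ℂ) ((a : MulAut K)⁻¹ (ι' e)) = _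
          rw [hfixE _ (𝒬.inv_mem a.2) e]
        have h' := hk2 (a • θ')
        rw [h, hk2 θ'] at h'
        exact_mod_cast h'.symm
      change k1 (a • θ') * k2 (a • θ') = k1 θ' * k2 θ'
      rw [hk1', hk2']
    · intro a
      apply Subtype.ext
      funext k
      change (θ : K → ℂ) ((a : MulAut K)⁻¹ k) = (θ : K → ℂ) k
      exact hθ _ (𝒬.inv_mem a.2) k
    · intro θ' hfix hne
      apply dvd_mul_of_dvd_right
      by_contra hnd
      have hθ'inv : ∀ a ∈ 𝒬, ∀ k, (θ' : K → ℂ) (a k) = (θ' : K → ℂ) k := by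
        intro a ha k
        have h := congrArg (fun x : IrrCharacter K => (x : K → ℂ) (a k)) (hfix ⟨a, ha⟩)
        change (θ' : K → ℂ) ((a : MulAut K)⁻¹ (a k)) = (θ' : K → ℂ) (a k) at h
        rw [← h]
        congr 1
        simp
      exact hne (iiiK θ' θ hθ'inv hθ η (k2 θ') mθ (hk2 θ') hnd hmθ hpθ)
  exact hside1.symm.trans (hsum ▸ hside2)

end OverDouble

end Cfsg.Agent.Helper74
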