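/-
Helper library of seat helper74: Isaacs 13.31 for a solvable group of operators, abstract form.
`𝒜 ≤ Aut(G)` solvable of order prime to `|G|`, `N ⊲ G` an `𝒜`-invariant normal subgroup and
`θ ∈ Irr(N)` an `𝒜`-invariant character: some `𝒜`-invariant `χ ∈ Irr(G)` lies over `θ`.
-/
import Cfsg.Agent.Helper74.Over2

set_option autoImplicit false

namespace Cfsg.Agent.Helper74

open Cfsg

section OverRes

variable {G : Type*} [Group G]

/-- Restriction of an automorphism to an invariant subgroup. -/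
def resAutSub (N : Subgroup G) (a : MulAut G) (h : ∀ x ∈ N, a x ∈ N)
    (h' : ∀ x ∈ N, a⁻¹ x ∈ N) : MulAut ↥N where
  toFun x := ⟨a x.1, h x.1 x.2⟩
  invFun x := ⟨a⁻¹ x.1, h' x.1 x.2⟩
  left_inv x := by
    apply Subtype.ext
    show a⁻¹ (a x.1) = x.1
    rw [← MulAut.mul_apply, inv_mul_cancel, MulAut.one_apply]
  right_inv x := by
    apply Subtype.ext
    show a (a⁻¹ x.1) = x.1
    rw [← MulAut.mul_apply, mul_inv_cancel, MulAut.one_apply]
  map_mul' x y := by
    apply Subtype.ext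
    show a (x.1 * y.1) = a x.1 * a y.1
    rw [map_mul]

theorem resAutSub_apply_coe (N : Subgroup G) (a : MulAut G) (h : ∀ x ∈ N, a x ∈ N)
    (h' : ∀ x ∈ N, a⁻¹ x ∈ N) (x : ↥N) : ((resAutSub N a h h' x : ↥N) : G) = a x.1 := rfl

/-- The restriction homomorphism `𝒜 → Aut(N)` for an `𝒜`-invariant subgroup `N`. -/
def resHomSub (N : Subgroup G) (𝒜 : Subgroup (MulAut G)) (hN : ∀ a ∈ 𝒜, ∀ x ∈ N, a x ∈ N) :
    ↥𝒜 →* MulAut ↥N where
  toFun a := resAutSub N a.1 (hN a.1 a.2) (hN a.1⁻¹ (𝒜.inv_mem a.2))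
  map_one' := by
    ext x
    rfl
  map_mul' a b := by
    ext x
    rfl

theorem resHomSub_apply_coe (N : Subgroup G) (𝒜 : Subgroup (MulAut G))
    (hN : ∀ a ∈ 𝒜, ∀ x ∈ N, a x ∈ N) (a : ↥𝒜) (x : ↥N) :
    ((resHomSub N 𝒜 hN a x : ↥N) : G) = a.1 x.1 := rfl

end OverRes

section OverInduction

universe u

/-- **Isaacs 13.31, solvable operators** (abstract form). -/
theorem over_solv_aux :
    ∀ (n : ℕ) (G : Type u) [Group G] [Fintype G], Fintype.card G = n →
    ∀ (𝒜 : Subgroup (MulAut G)), Group.IsSolvable ↥𝒜 →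
    (Fintype.card G).Coprime (Nat.card 𝒜) →
    ∀ (N : Subgroup G) [N.Normal] [Fintype ↥N], (∀ a ∈ 𝒜, ∀ x ∈ N, a x ∈ N) →
    ∀ (θ : IrrCharacter ↥N),
    (∀ a ∈ 𝒜, ∀ x y : ↥N, (y : G) = a (x : G) → (θ : ↥N → ℂ) y = (θ : ↥N → ℂ) x) →
    ∃ χ : IrrCharacter G, classInner (fun x : ↥N => (χ : G → ℂ) x) (θ : ↥N → ℂ) ≠ 0 ∧
      ∀ a ∈ 𝒜, ∀ g, (χ : G → ℂ) (a g) = (χ : G → ℂ) g := by
  classical
  intro n
  induction n using Nat.strong_induction_on with
  | _ n ih =>
    intro G _ _ hn 𝒜 hsolv hcop N _ _ hNinv θ hθ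
    by_cases htriv : 𝒜 = ⊥
    · subst htriv
      obtain ⟨χ, hχ⟩ := Helper76.exists_irr_over N θ
      exact ⟨χ, hχ, fun a ha g => by rw [Subgroup.mem_bot.mp ha]; rfl⟩
    · haveI : Finite (MulAut G) :=
        Finite.of_injective (fun a : MulAut G => (a : G → G)) DFunLike.coe_injective
      haveI : Nontrivial ↥𝒜 := (Subgroup.nontrivial_iff_ne_bot 𝒜).mpr htriv
      haveI := hsolv
      obtain ⟨p, hp, P₀, hP₀bot, hP₀, hP₀norm⟩ := exists_normal_pgroup ↥𝒜
      haveI : Fact p.Prime := ⟨hp⟩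
      set P : Subgroup (MulAut G) := P₀.map 𝒜.subtype with hPdef
      have hP : IsPGroup p P := hP₀.map 𝒜.subtype
      have hPA : P ≤ 𝒜 := by
        rintro _ ⟨b₀, -, rfl⟩
        exact b₀.2
      have hnorm : ∀ a ∈ 𝒜, ∀ b ∈ P, a * b * a⁻¹ ∈ P := by
        rintro a ha _ ⟨b₀, hb₀, rfl⟩
        exact ⟨⟨a, ha⟩ * b₀ * ⟨a, ha⟩⁻¹, hP₀norm.conj_mem b₀ hb₀ ⟨a, ha⟩, rfl⟩
      have hPbot : P ≠ ⊥ := by
        intro h
        apply hP₀bot
        rw [eq_bot_iff]
        intro b₀ hb₀
        have h1 : 𝒜.subtype b₀ ∈ P := ⟨b₀, hb₀, rfl⟩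
        rw [h, Subgroup.mem_bot] at h1
        rw [Subgroup.mem_bot]
        exact Subtype.ext h1
      haveI : Nontrivial ↥P := (Subgroup.nontrivial_iff_ne_bot P).mpr hPbot
      have hpP : p ∣ Nat.card ↥P := by
        obtain ⟨k', hk0', hk'⟩ := hP.nontrivial_iff_card.mp inferInstance
        rw [hk']; exact dvd_pow_self p hk0'.ne'
      have hcopP : (Fintype.card G).Coprime (Nat.card P) :=
        Nat.Coprime.coprime_dvd_right (Subgroup.card_dvd_of_le hPA) hcop
      have hpG : ¬ p ∣ Fintype.card G := by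
        intro h
        have := Nat.dvd_gcd h hpP
        rw [Nat.Coprime.gcd_eq_one hcopP] at this
        exact hp.one_lt.ne' (Nat.dvd_one.mp this)
      set D : Subgroup G := fixSubgroup P with hD
      letI : Fintype ↥D := Fintype.ofFinite _
      have hDdvd : Fintype.card ↥D ∣ Fintype.card G := by
        have := Subgroup.card_subgroup_dvd_card D
        rwa [Nat.card_eq_fintype_card, Nat.card_eq_fintype_card] at this
      have hpD : ¬ p ∣ Nat.card ↥D := by
        rw [Nat.card_eq_fintype_card]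
        exact fun h => hpG (dvd_trans h hDdvd)
      have hDlt : Fintype.card ↥D < Fintype.card G := by
        apply lt_of_le_of_ne (Nat.le_of_dvd Fintype.card_pos hDdvd)
        intro heq
        have htop : D = ⊤ := by
          apply Subgroup.eq_top_of_card_eq
          rw [Nat.card_eq_fintype_card, Nat.card_eq_fintype_card, heq]
        apply hPbot
        rw [eq_bot_iff]
        intro b hb
        rw [Subgroup.mem_bot]
        ext g
        have : g ∈ D := by rw [htop]; exact Subgroup.mem_top g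
        exact this b hb
      set res : ↥𝒜 →* MulAut ↥D := resHom' 𝒜 P hnorm with hres
      have hsolvD : Group.IsSolvable ↥res.range :=
        Group.isSolvable_of_surjective (f := res.rangeRestrict) res.rangeRestrict_surjective
      have hcopD : (Fintype.card ↥D).Coprime (Nat.card res.range) :=
        Nat.Coprime.coprime_dvd_left hDdvd
          (Nat.Coprime.coprime_dvd_right (Subgroup.card_range_dvd res) hcop)
      -- the normal subgroup `N ∩ D` of `D`
      set N' : Subgroup ↥D := N.subgroupOf D with hN'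
      haveI : N'.Normal := Subgroup.normal_subgroupOf
      letI : Fintype ↥N' := Fintype.ofFinite _
      have hN'inv : ∀ b ∈ res.range, ∀ x ∈ N', b x ∈ N' := by
        rintro _ ⟨a, rfl⟩ x hx
        rw [hN', Subgroup.mem_subgroupOf] at hx ⊢
        rw [hres, resHom'_apply_coe]
        exact hNinv a.1 a.2 _ hx
      -- the `P`-correspondence for `N`
      set resN : ↥P →* MulAut ↥N := resHomSub N P (fun a ha => hNinv a (hPA ha)) with hresN
      set 𝒬 : Subgroup (MulAut ↥N) := resN.range with h𝒬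
      have hQ : IsPGroup p 𝒬 :=
        IsPGroup.of_surjective hP resN.rangeRestrict resN.rangeRestrict_surjective
      have hNdvd : Fintype.card ↥N ∣ Fintype.card G := by
        have := Subgroup.card_subgroup_dvd_card N
        rwa [Nat.card_eq_fintype_card, Nat.card_eq_fintype_card] at this
      have hcopN : (Fintype.card ↥N).Coprime (Nat.card 𝒬) :=
        Nat.Coprime.coprime_dvd_left hNdvd
          (Nat.Coprime.coprime_dvd_right (Subgroup.card_range_dvd resN) hcopP)
      set ι' : ↥N' →* ↥N := (D.subtype.comp N'.subtype).codRestrict N (fun x => x.2) with hι'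
      have hι'coe : ∀ x : ↥N', ((ι' x : ↥N) : G) = ((x : ↥D) : G) := fun x => rfl
      have hι'inj : Function.Injective ι' := by
        intro x y hxy
        apply Subtype.ext
        apply Subtype.ext
        exact congrArg (fun z : ↥N => (z : G)) hxy
      have hι'fix : ∀ x : ↥N, (∀ a ∈ 𝒬, a x = x) ↔ x ∈ ι'.range := by
        intro x
        constructor
        · intro h
          have hxD : (x : G) ∈ D := by
            intro b hb
            have := h (resN ⟨b, hb⟩) ⟨⟨b, hb⟩, rfl⟩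
            exact congrArg (fun z : ↥N => (z : G)) this
          exact ⟨⟨⟨x.1, hxD⟩, x.2⟩, Subtype.ext rfl⟩
        · rintro ⟨y, rfl⟩ _ ⟨b, rfl⟩
          apply Subtype.ext
          show b.1 (y.1.1) = y.1.1
          exact y.1.2 b.1 b.2
      have RN := glaub_pgroup_aux p (Fintype.card ↥N) ↥N rfl 𝒬 hQ hcopN ι' hι'inj hι'fix
      have RG := glaub_pgroup_aux p (Fintype.card G) G rfl P hP hcopP D.subtype
        (Subgroup.subtype_injective D)
        (fun g => by
          rw [Subgroup.range_subtype]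
          exact (mem_fixSubgroup P g).symm)
      have hθQ : ∀ a ∈ 𝒬, ∀ k, (θ : ↥N → ℂ) (a k) = (θ : ↥N → ℂ) k := by
        rintro _ ⟨b, rfl⟩ k
        exact hθ b.1 (hPA b.2) k _ rfl
      obtain ⟨η, ⟨mθ, hmθ, hpθ⟩, hηuniq⟩ := RN.1 θ hθQ
      have hηinv : ∀ b ∈ res.range, ∀ x y : ↥N', (y : ↥D) = b (x : ↥D) →
          (η : ↥N' → ℂ) y = (η : ↥N' → ℂ) x := by
        rintro _ ⟨a, rfl⟩ x y hxy
        set τ : MulAut ↥N' := resAutSub N' (res a) (hN'inv _ ⟨a, rfl⟩)
          (hN'inv _ ⟨a⁻¹, by rw [map_inv]⟩) with hτ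
        have hy : y = τ x := Subtype.ext hxy
        set ηa : IrrCharacter ↥N' := ⟨fun z => (η : ↥N' → ℂ) (τ z),
          (Helper79.isIrrCharacter_mulEquiv τ).mpr η.2⟩ with hηa
        have hmb : classInner (fun e : ↥N' => (θ : ↥N → ℂ) (ι' e)) (ηa : ↥N' → ℂ) =
            (mθ : ℂ) := by
          rw [← hmθ, ← classInner_comp_equiv τ.toEquiv
            (fun e : ↥N' => (θ : ↥N → ℂ) (ι' e)) (η : ↥N' → ℂ)]
          congr 1
          funext e
          exact (hθ a.1 a.2 (ι' e) (ι' (τ e)) rfl).symm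
        have h1 := hηuniq ηa ⟨mθ, hmb, hpθ⟩
        rw [hy]
        exact congrFun (congrArg Subtype.val h1) x
      obtain ⟨ψ, hψη, hψinv⟩ := ih (Fintype.card ↥D) (by rw [← hn]; exact hDlt) ↥D rfl
        res.range hsolvD hcopD N' hN'inv η hηinv
      obtain ⟨χ, hχP, m, hm, hpm⟩ := RG.2.2.2 ψ
      have hχA : ∀ a ∈ 𝒜, ∀ g, (χ : G → ℂ) (a g) = (χ : G → ℂ) g := by
        intro a ha g
        set χa : IrrCharacter G := ⟨fun g => (χ : G → ℂ) (a g),
          (Helper79.isIrrCharacter_mulEquiv a).mpr χ.2⟩ with hχa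
        have hχaP : ∀ b ∈ P, ∀ g, (χa : G → ℂ) (b g) = (χa : G → ℂ) g := by
          intro b hb g
          show (χ : G → ℂ) (a (b g)) = (χ : G → ℂ) (a g)
          have : a (b g) = (a * b * a⁻¹) (a g) := by
            show a (b g) = a (b (a⁻¹ (a g)))
            have e : a⁻¹ (a g) = g := by
              show (a⁻¹ * a) g = g
              rw [inv_mul_cancel]
              rfl
            rw [e]
          rw [this, hχP _ (hnorm a ha b hb)]
        have hma : classInner (fun d : ↥D => (χa : G → ℂ) (D.subtype d)) (ψ : ↥D → ℂ) =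
            (m : ℂ) := by
          rw [← hm, ← classInner_comp_equiv (res ⟨a, ha⟩).toEquiv
            (fun d : ↥D => (χ : G → ℂ) (D.subtype d)) (ψ : ↥D → ℂ)]
          congr 1
          funext d
          exact (hψinv (res ⟨a, ha⟩) ⟨⟨a, ha⟩, rfl⟩ d).symm
        have heq := RG.2.2.1 χa χ hχaP hχP ψ m m hma hpm hm hpm
        exact congrFun (congrArg Subtype.val heq) g
      refine ⟨χ, ?_, hχA⟩
      obtain ⟨u, hu⟩ := exists_mult N'.subtype ψ η
      obtain ⟨v, hv⟩ := exists_mult N.subtype χ θ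
      have hfixE : ∀ a ∈ 𝒬, ∀ e : ↥N', a (ι' e) = ι' e := by
        rintro _ ⟨b, rfl⟩ e
        apply Subtype.ext
        show b.1 (e.1.1) = e.1.1
        exact e.1.2 b.1 b.2
      have hχK : ∀ a ∈ 𝒬, ∀ k : ↥N,
          (χ : G → ℂ) (N.subtype (a k)) = (χ : G → ℂ) (N.subtype k) := by
        rintro _ ⟨b, rfl⟩ k
        exact hχP b.1 b.2 k.1
      have hdc := over_double_count p D.subtype N.subtype ι' N'.subtype (fun e => rfl) _ RG 𝒬 hQ
        RN hfixE χ hχP hχK ψ m hm hpm θ hθQ η mθ hmθ hpθ u v hu hv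
      have hu0 : u ≠ 0 := by
        intro h
        apply hψη
        rw [h] at hu
        rw [← Nat.cast_zero]
        exact hu
      have hpu : ¬ p ∣ u := over_mult_not_dvd N' hp hpD ψ η u hu hu0
      have hpv : ¬ p ∣ v * mθ := by
        intro h
        have h2 : p ∣ m * u :=
          Nat.modEq_zero_iff_dvd.mp (hdc.trans (Nat.modEq_zero_iff_dvd.mpr h))
        rcases (Nat.Prime.dvd_mul hp).mp h2 with h1 | h1
        · exact hpm h1
        · exact hpu h1
      intro h0
      have hv' : classInner (fun x : ↥N => (χ : G → ℂ) x) (θ : ↥N → ℂ) = (v : ℂ) := hv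
      rw [hv'] at h0
      have hv0 : v = 0 := by exact_mod_cast h0
      apply hpv
      rw [hv0, zero_mul]
      exact dvd_zero p

end OverInduction

end Cfsg.Agent.Helper74
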