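/-
Helper library of seat helper74: going up an abelian section.
* `rel_exists_twist`: `N ⊲ M` with `M/N` abelian; two irreducible characters of `M` lying over the
  same `θ ∈ Irr(N)` differ by a linear character of `M/N`.
* `rel_coprime_card_of_pow`: subgroups of exponents dividing coprime numbers have coprime orders.
* `rel_abelian_step`: a group `𝒜` of automorphisms of `M` acting on `M/N` "coprimely"
  (`α^a` is conjugation by an element of `N`, `m^b ∈ N`, `(a, b) = 1`) fixes some member of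
  `Irr(M | θ)` for every `𝒜`-invariant `θ ∈ Irr(N)` (Glauberman's lemma).
-/
import Cfsg.Agent.Helper74.Over3
import Cfsg.Agent.Helper75.AbelianQuot
import Cfsg.Agent.Helper75.Ito
import Cfsg.Agent.Helper35.Glauberman
import Cfsg.Agent.Helper79.Linear

set_option autoImplicit false

namespace Cfsg.Agent.Helper74

open Cfsg

open scoped ComplexConjugate

universe u

section RelTwist

variable {M : Type u} [Group M] [Fintype M]

theorem rel_exists_twist (N : Subgroup M) [hN : N.Normal] [Fintype N]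
    (hab : ∀ x y : M, x * y * x⁻¹ * y⁻¹ ∈ N) (χ ψ : IrrCharacter M) (θ : IrrCharacter N)
    (hχ : classInner (fun n : N => (χ : M → ℂ) n) (θ : N → ℂ) ≠ 0)
    (hψ : classInner (fun n : N => (ψ : M → ℂ) n) (θ : N → ℂ) ≠ 0) :
    ∃ f : M →* ℂˣ, (∀ n ∈ N, f n = 1) ∧ ψ = Helper79.irrTwist f χ := by
  classical
  letI : Fintype (IrrCharacter N) := Fintype.ofFinite _
  letI : Fintype (IrrCharacter M) := Fintype.ofFinite _
  have hχc := Helper79.irr_isCharacter χ
  have hψc := Helper79.irr_isCharacter ψ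
  have hχN : IsCharacter N (fun n : N => (χ : M → ℂ) n) := Helper79.isCharacter_restrict hχc N
  have hψN : IsCharacter N (fun n : N => (ψ : M → ℂ) n) := Helper79.isCharacter_restrict hψc N
  -- `[ψ_N, χ_N] ≠ 0`
  obtain ⟨m1, hm1⟩ := Helper75.exists_nat_mult hψN
  obtain ⟨m2, hm2⟩ := Helper75.exists_nat_mult hχN
  have hpars := Helper15.classInner_eq_sum (θ := fun n : N => (ψ : M → ℂ) n)
    (θ' := fun n : N => (χ : M → ℂ) n) (Helper79.isCharacter_isClassFunction hψN)
  have hinner : classInner (fun n : N => (ψ : M → ℂ) n) (fun n : N => (χ : M → ℂ) n) =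
      ((∑ θ' : IrrCharacter N, m1 θ' * m2 θ' : ℕ) : ℂ) := by
    rw [hpars]
    push_cast
    apply Finset.sum_congr rfl
    intro θ' _
    rw [hm1, hm2, Complex.conj_natCast]
  have hm1θ : m1 θ ≠ 0 := by
    intro h
    apply hψ
    rw [hm1, h, Nat.cast_zero]
  have hm2θ : m2 θ ≠ 0 := by
    intro h
    apply hχ
    rw [hm2, h, Nat.cast_zero]
  have hpos : 0 < ∑ θ' : IrrCharacter N, m1 θ' * m2 θ' :=
    Finset.sum_pos' (fun _ _ => Nat.zero_le _)
      ⟨θ, Finset.mem_univ _, Nat.mul_pos (Nat.pos_of_ne_zero hm1θ) (Nat.pos_of_ne_zero hm2θ)⟩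
  -- the character `β = ψ χ̄`
  obtain ⟨β, hβdef⟩ : ∃ β : M → ℂ, β = fun t => (ψ : M → ℂ) t * conj ((χ : M → ℂ) t) := ⟨_, rfl⟩
  have hβ : IsCharacter M β := by
    rw [hβdef]
    exact Helper79.isCharacter_mul hψc (Helper79.isCharacter_conj hχc)
  have hβN : classInner (fun n : N => β n) (fun _ : N => (1 : ℂ)) ≠ 0 := by
    have h1 : classInner (fun n : N => β n) (fun _ : N => (1 : ℂ)) =
        classInner (fun n : N => (ψ : M → ℂ) n) (fun n : N => (χ : M → ℂ) n) := by
      unfold classInner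
      congr 1
      apply Finset.sum_congr rfl
      intro n _
      rw [hβdef]
      simp
    rw [h1, hinner]
    exact_mod_cast hpos.ne'
  -- an irreducible constituent `μ` of `β` with `N` in its kernel
  have hsum := Helper75.character_eq_sum_irr hβ
  obtain ⟨μ, hβμ, hμN⟩ : ∃ μ : IrrCharacter M, classInner β (μ : M → ℂ) ≠ 0 ∧
      classInner (fun n : N => (μ : M → ℂ) n) (fun _ : N => (1 : ℂ)) ≠ 0 := by
    by_contra hcon
    push Not at hcon
    apply hβN
    have h2 : (fun n : N => β n) = ∑ μ : IrrCharacter M,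
        classInner β (μ : M → ℂ) • (fun n : N => (μ : M → ℂ) n) := by
      funext n
      have := congrFun hsum (n : M)
      rw [this, Finset.sum_apply, Finset.sum_apply]
      rfl
    rw [h2, Helper15.classInner_sum_left]
    apply Finset.sum_eq_zero
    intro μ _
    rw [Helper15.classInner_smul_left]
    by_cases h : classInner β (μ : M → ℂ) = 0
    · rw [h, zero_mul]
    · rw [hcon μ h, mul_zero]
  have h1irr : IsIrrCharacter N (fun _ : N => (1 : ℂ)) := Helper80.trivial_isIrrCharacter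
  obtain ⟨e, he0, hres, -⟩ := Helper75.restrict_eq_natCast_smul_of_invariant N μ.2 h1irr hμN
    (fun g => rfl)
  have hμker : ∀ n ∈ N, (μ : M → ℂ) n = (μ : M → ℂ) 1 := by
    intro n hn
    have h3 := congrFun hres ⟨n, hn⟩
    have h4 := congrFun hres 1
    simp only [Pi.smul_apply, smul_eq_mul, mul_one] at h3 h4
    rw [Subgroup.coe_one] at h4
    rw [h4]
    exact h3
  have hμlin : (μ : M → ℂ) 1 = 1 := by
    apply Helper75.irr_one_eq_one_of_comm_mod_ker μ.2
    intro x y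
    exact hμker _ (hab x y)
  obtain ⟨f, hf⟩ := Helper79.isCharacter_linear (Helper79.irr_isCharacter μ) hμlin
  have hβμ' : classInner (fun t => (ψ : M → ℂ) t * (starRingEnd ℂ) ((χ : M → ℂ) t))
      (fun t => (f t : ℂ)) ≠ 0 := by
    have h5 : (fun t => (f t : ℂ)) = (μ : M → ℂ) := funext (fun t => (hf t).symm)
    rw [h5, ← hβdef]
    exact hβμ
  have htw := Helper75.irr_eq_twist χ.2 ψ.2 f hβμ'
  refine ⟨f, ?_, ?_⟩
  · intro n hn
    have h6 : ((f n : ℂˣ) : ℂ) = 1 := by rw [← hf, hμker n hn, hμlin]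
    exact Units.ext h6
  · apply Subtype.ext
    rw [htw]
    rfl

end RelTwist

section RelCoprime

theorem rel_coprime_card_of_pow {𝔊 : Type*} [Group 𝔊] [Finite 𝔊] (A K : Subgroup 𝔊) (a b : ℕ)
    (hab : a.Coprime b) (hA : ∀ x ∈ A, x ^ a = 1) (hK : ∀ y ∈ K, y ^ b = 1) :
    (Nat.card A).Coprime (Nat.card K) := by
  apply Nat.Coprime.symm
  apply Nat.coprime_of_dvd
  intro p hp hpK hpA
  haveI : Fact p.Prime := ⟨hp⟩
  obtain ⟨x, hx⟩ := exists_prime_orderOf_dvd_card' p hpA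
  obtain ⟨y, hy⟩ := exists_prime_orderOf_dvd_card' p hpK
  have h1 : p ∣ a := by
    rw [← hx]
    apply orderOf_dvd_of_pow_eq_one
    apply Subtype.ext
    rw [Subgroup.coe_pow]
    exact hA x.1 x.2
  have h2 : p ∣ b := by
    rw [← hy]
    apply orderOf_dvd_of_pow_eq_one
    apply Subtype.ext
    rw [Subgroup.coe_pow]
    exact hK y.1 y.2
  have h3 := Nat.dvd_gcd h1 h2
  rw [Nat.Coprime.gcd_eq_one hab] at h3
  exact hp.one_lt.ne' (Nat.dvd_one.mp h3)

end RelCoprime

section RelStep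

variable {M : Type u} [Group M]

/-- The linear characters trivial on `N`. -/
def linSub (N : Subgroup M) : Subgroup (M →* ℂˣ) where
  carrier := {f | ∀ n ∈ N, f n = 1}
  mul_mem' := by
    intro f g hf hg n hn
    rw [MonoidHom.mul_apply, hf n hn, hg n hn, one_mul]
  one_mem' := by
    intro n _
    rfl
  inv_mem' := by
    intro f hf n hn
    rw [MonoidHom.inv_apply, hf n hn, inv_one]

theorem mem_linSub (N : Subgroup M) (f : M →* ℂˣ) : f ∈ linSub N ↔ ∀ n ∈ N, f n = 1 := Iff.rfl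

/-- Multiplication by a linear character, as a permutation of the irreducible characters. -/
noncomputable def twistPerm (f : M →* ℂˣ) : Equiv.Perm (IrrCharacter M) where
  toFun := Helper79.irrTwist f
  invFun := Helper79.irrTwist f⁻¹
  left_inv χ := by
    apply Subtype.ext
    funext g
    rw [Helper79.irrTwist_apply, Helper79.irrTwist_apply, ← mul_assoc, MonoidHom.inv_apply,
      ← Units.val_mul, inv_mul_cancel, Units.val_one, one_mul]
  right_inv χ := by
    apply Subtype.ext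
    funext g
    rw [Helper79.irrTwist_apply, Helper79.irrTwist_apply, ← mul_assoc, MonoidHom.inv_apply,
      ← Units.val_mul, mul_inv_cancel, Units.val_one, one_mul]

theorem twistPerm_apply (f : M →* ℂˣ) (χ : IrrCharacter M) (m : M) :
    ((twistPerm f χ : IrrCharacter M) : M → ℂ) m = (f m : ℂ) * (χ : M → ℂ) m := rfl

noncomputable def twistHom : (M →* ℂˣ) →* Equiv.Perm (IrrCharacter M) where
  toFun := twistPerm
  map_one' := by
    apply Equiv.ext
    intro χ
    apply Subtype.ext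
    funext g
    rw [twistPerm_apply, MonoidHom.one_apply, Units.val_one, one_mul]
    rfl
  map_mul' f g := by
    apply Equiv.ext
    intro χ
    apply Subtype.ext
    funext x
    rw [Equiv.Perm.mul_apply, twistPerm_apply, twistPerm_apply, twistPerm_apply,
      MonoidHom.mul_apply, Units.val_mul, mul_assoc]

theorem twistHom_apply (f : M →* ℂˣ) (χ : IrrCharacter M) (m : M) :
    ((twistHom f χ : IrrCharacter M) : M → ℂ) m = (f m : ℂ) * (χ : M → ℂ) m := rfl

variable [Fintype M]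

/-- **Going up an abelian section** (Glauberman's lemma). -/
theorem rel_abelian_step (N : Subgroup M) [hN : N.Normal] [Fintype N]
    (hab : ∀ x y : M, x * y * x⁻¹ * y⁻¹ ∈ N) (𝒜 : Subgroup (MulAut M))
    (hN𝒜 : ∀ α ∈ 𝒜, ∀ x ∈ N, α x ∈ N) (a b : ℕ) (hcop : a.Coprime b)
    (ha : ∀ α ∈ 𝒜, ∃ n ∈ N, α ^ a = MulAut.conj n) (hb : ∀ m : M, m ^ b ∈ N)
    (θ : IrrCharacter N)
    (hθ : ∀ α ∈ 𝒜, ∀ x y : N, (y : M) = α (x : M) → (θ : N → ℂ) y = (θ : N → ℂ) x) :
    ∃ η : IrrCharacter M, classInner (fun n : N => (η : M → ℂ) n) (θ : N → ℂ) ≠ 0 ∧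
      ∀ α ∈ 𝒜, ∀ m, (η : M → ℂ) (α m) = (η : M → ℂ) m := by
  classical
  letI : MulAction (MulAut M) (IrrCharacter M) := irrMulAction
  set φA : ↥𝒜 →* Equiv.Perm (IrrCharacter M) :=
    (MulAction.toPermHom (MulAut M) (IrrCharacter M)).comp 𝒜.subtype with hφA
  set tw : ↥(linSub N) →* Equiv.Perm (IrrCharacter M) := twistHom.comp (linSub N).subtype
    with htw
  have hφA_apply : ∀ (α : ↥𝒜) (χ : IrrCharacter M) (m : M),
      ((φA α χ : IrrCharacter M) : M → ℂ) m = (χ : M → ℂ) ((α : MulAut M)⁻¹ m) :=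
    fun α χ m => rfl
  have htw_apply : ∀ (f : ↥(linSub N)) (χ : IrrCharacter M) (m : M),
      ((tw f χ : IrrCharacter M) : M → ℂ) m = ((f : M →* ℂˣ) m : ℂ) * (χ : M → ℂ) m :=
    fun f χ m => rfl
  have hconj : ∀ x ∈ φA.range, ∀ y ∈ tw.range, x * y * x⁻¹ ∈ tw.range := by
    rintro _ ⟨α, rfl⟩ _ ⟨f, rfl⟩
    refine ⟨⟨(f : M →* ℂˣ).comp ((α : MulAut M)⁻¹ : MulAut M).toMonoidHom, ?_⟩, ?_⟩
    · intro n hn
      show (f : M →* ℂˣ) ((α : MulAut M)⁻¹ n) = 1
      exact (mem_linSub N _).mp f.2 _ (hN𝒜 _ (𝒜.inv_mem α.2) n hn)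
    · apply Equiv.ext
      intro χ
      apply Subtype.ext
      funext m
      have e : (φA α)⁻¹ = φA α⁻¹ := (map_inv φA α).symm
      rw [e, Equiv.Perm.mul_apply, Equiv.Perm.mul_apply, hφA_apply α (tw f (φA α⁻¹ χ)) m,
        htw_apply f (φA α⁻¹ χ), hφA_apply α⁻¹ χ, htw_apply _ χ m]
      show ((f : M →* ℂˣ) ((α : MulAut M)⁻¹ m) : ℂ) * (χ : M → ℂ) m = _
      congr 1
      rw [Subgroup.coe_inv, inv_inv]
      have e2 : (α : MulAut M) ((α : MulAut M)⁻¹ m) = m := by
        rw [← MulAut.mul_apply, mul_inv_cancel, MulAut.one_apply]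
      rw [e2]
  have hAK : φA.range ≤ Subgroup.normalizer (tw.range : Set (Equiv.Perm (IrrCharacter M))) := by
    intro x hx
    rw [Subgroup.mem_normalizer_iff]
    intro y
    constructor
    · exact hconj x hx y
    · intro hy
      have := hconj x⁻¹ (Subgroup.inv_mem _ hx) _ hy
      have e : x⁻¹ * (x * y * x⁻¹) * x⁻¹⁻¹ = y := by group
      rwa [e] at this
  have hcopc : (Nat.card φA.range).Coprime (Nat.card tw.range) := by
    apply rel_coprime_card_of_pow _ _ a b hcop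
    · rintro _ ⟨α, rfl⟩
      rw [← map_pow]
      obtain ⟨n, hn, hαn⟩ := ha α.1 α.2
      apply Equiv.ext
      intro χ
      apply Subtype.ext
      funext m
      rw [hφA_apply, Subgroup.coe_pow, hαn]
      show (χ : M → ℂ) ((MulAut.conj n)⁻¹ m) = (χ : M → ℂ) m
      rw [← map_inv, MulAut.conj_apply]
      exact Helper79.isCharacter_isClassFunction (Helper79.irr_isCharacter χ) m n⁻¹
    · rintro _ ⟨f, rfl⟩
      rw [← map_pow]
      have hfb : f ^ b = 1 := by
        apply Subtype.ext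
        apply MonoidHom.ext
        intro m
        show ((f : M →* ℂˣ) ^ b) m = 1
        rw [MonoidHom.pow_apply, ← map_pow]
        exact (mem_linSub N _).mp f.2 _ (hb m)
      rw [hfb, map_one]
  have hsolv : Group.IsSolvable ↥φA.range ∨ Group.IsSolvable ↥tw.range := by
    right
    apply Group.isSolvable_of_comm
    rintro ⟨_, ⟨f, rfl⟩⟩ ⟨_, ⟨g, rfl⟩⟩
    apply Subtype.ext
    show tw f * tw g = tw g * tw f
    rw [← map_mul, ← map_mul, mul_comm]
  set S : Set (IrrCharacter M) :=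
    {χ | classInner (fun n : N => (χ : M → ℂ) n) (θ : N → ℂ) ≠ 0} with hS
  have hSne : S.Nonempty := by
    obtain ⟨χ, hχ⟩ := Helper76.exists_irr_over N θ
    exact ⟨χ, hχ⟩
  have hSA : ∀ x ∈ φA.range, ∀ χ ∈ S, x • χ ∈ S := by
    rintro _ ⟨α, rfl⟩ χ hχ
    show classInner (fun n : N => ((φA α χ : IrrCharacter M) : M → ℂ) n) (θ : N → ℂ) ≠ 0
    set τ : MulAut ↥N := resAutSub N ((α : MulAut M)⁻¹) (hN𝒜 _ (𝒜.inv_mem α.2))
      (by rw [inv_inv]; exact hN𝒜 _ α.2) with hτ
    have h1 : classInner (fun n : N => (χ : M → ℂ) ((α : MulAut M)⁻¹ (n : M))) (θ : N → ℂ) =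
        classInner (fun n : N => (χ : M → ℂ) n) (θ : N → ℂ) := by
      rw [← classInner_comp_equiv τ.toEquiv (fun n : N => (χ : M → ℂ) n) (θ : N → ℂ)]
      congr 1
      funext n
      exact (hθ _ (𝒜.inv_mem α.2) n (τ n) rfl).symm
    rw [show (fun n : N => ((φA α χ : IrrCharacter M) : M → ℂ) n) =
      (fun n : N => (χ : M → ℂ) ((α : MulAut M)⁻¹ (n : M))) from rfl, h1]
    exact hχ
  have hSK : ∀ y ∈ tw.range, ∀ χ ∈ S, y • χ ∈ S := by
    rintro _ ⟨f, rfl⟩ χ hχ
    show classInner (fun n : N => ((tw f χ : IrrCharacter M) : M → ℂ) n) (θ : N → ℂ) ≠ 0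
    have h1 : (fun n : N => ((tw f χ : IrrCharacter M) : M → ℂ) n) =
        (fun n : N => (χ : M → ℂ) n) := by
      funext n
      rw [htw_apply, (mem_linSub N _).mp f.2 n n.2, Units.val_one, one_mul]
    rw [h1]
    exact hχ
  have htrans : ∀ χ ∈ S, ∀ ψ ∈ S, ∃ y ∈ tw.range, y • χ = ψ := by
    intro χ hχ ψ hψ
    obtain ⟨f, hf, hψχ⟩ := rel_exists_twist N hab χ ψ θ hχ hψ
    exact ⟨tw ⟨f, hf⟩, ⟨_, rfl⟩, hψχ.symm⟩
  obtain ⟨η, hη, hfix⟩ := Helper35.glauberman hAK hcopc hsolv hSne hSA hSK htrans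
  refine ⟨η, hη, ?_⟩
  intro α hα m
  have h1 := hfix (φA ⟨α⁻¹, 𝒜.inv_mem hα⟩) ⟨_, rfl⟩
  have h2 := congrArg (fun x : IrrCharacter M => (x : M → ℂ) m) h1
  have h3 : ((φA ⟨α⁻¹, 𝒜.inv_mem hα⟩ η : IrrCharacter M) : M → ℂ) m = (η : M → ℂ) (α m) := by
    rw [hφA_apply]
    show (η : M → ℂ) ((α⁻¹)⁻¹ m) = (η : M → ℂ) (α m)
    rw [inv_inv]
  rw [← h3]
  exact h2

end RelStep

end Cfsg.Agent.Helper74
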