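/-
Helper library of seat helper74: invariant characters over invariant characters, solvable quotient.
`N ⊲ G` with `G/N` solvable, `𝒜 ≤ Aut(G)` leaving `N` invariant and acting "coprimely" on `G/N`
(`α^a` is conjugation by an element of `N` for `α ∈ 𝒜`, `g^b ∈ N` for `g ∈ G`, `(a, b) = 1`).
Then every `𝒜`-invariant `θ ∈ Irr(N)` lies under an `𝒜`-invariant `χ ∈ Irr(G)`.
Subgroup form: statement S4448.
-/
import Cfsg.Agent.Helper74.Rel1
import Cfsg.Agent.Helper74.Over4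

set_option autoImplicit false

namespace Cfsg.Agent.Helper74

open Cfsg

section RelInduction

universe u

variable {G : Type u} [Group G] [Fintype G]

theorem rel_solv_aux (𝒜 : Subgroup (MulAut G)) (a b : ℕ) (hcop : a.Coprime b) :
    ∀ (k : ℕ) (N : Subgroup G) [N.Normal] [Fintype ↥N],
    (∀ α ∈ 𝒜, ∀ x ∈ N, α x ∈ N) →
    (∀ α ∈ 𝒜, ∃ n ∈ N, α ^ a = MulAut.conj n) → (∀ g : G, g ^ b ∈ N) →
    derivedSeries G k ≤ N →
    ∀ (θ : IrrCharacter ↥N),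
    (∀ α ∈ 𝒜, ∀ x y : ↥N, (y : G) = α (x : G) → (θ : ↥N → ℂ) y = (θ : ↥N → ℂ) x) →
    ∃ χ : IrrCharacter G, classInner (fun x : ↥N => (χ : G → ℂ) x) (θ : ↥N → ℂ) ≠ 0 ∧
      ∀ α ∈ 𝒜, ∀ g, (χ : G → ℂ) (α g) = (χ : G → ℂ) g := by
  classical
  intro k
  induction k with
  | zero =>
    intro N _ _ hN𝒜 ha hb hk θ hθ
    have hNtop : N = ⊤ := by
      rw [eq_top_iff]
      rwa [derivedSeries_zero] at hk
    subst hNtop
    let e : G ≃* ↥(⊤ : Subgroup G) := Subgroup.topEquiv.symm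
    refine ⟨⟨fun g => (θ : ↥(⊤ : Subgroup G) → ℂ) (e g),
      (Helper79.isIrrCharacter_mulEquiv e).mpr θ.2⟩, ?_, ?_⟩
    · have h1 : (fun x : ↥(⊤ : Subgroup G) => (θ : ↥(⊤ : Subgroup G) → ℂ) (e (x : G))) =
          (θ : ↥(⊤ : Subgroup G) → ℂ) := by
        funext x
        congr 1
      show classInner (fun x : ↥(⊤ : Subgroup G) => (θ : ↥(⊤ : Subgroup G) → ℂ) (e (x : G)))
        (θ : ↥(⊤ : Subgroup G) → ℂ) ≠ 0
      rw [h1, Helper15.irr_inner_self θ.2]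
      exact one_ne_zero
    · intro α hα g
      exact hθ α hα (e g) (e (α g)) rfl
  | succ k ih =>
    intro N _ _ hN𝒜 ha hb hk θ hθ
    set M : Subgroup G := N ⊔ derivedSeries G k with hM
    haveI : M.Normal := Subgroup.sup_normal N (derivedSeries G k)
    letI : Fintype ↥M := Fintype.ofFinite _
    have hNM : N ≤ M := le_sup_left
    have hDM : derivedSeries G k ≤ M := le_sup_right
    have hdecomp : ∀ x ∈ M, ∃ n ∈ N, ∃ d ∈ derivedSeries G k, n * d = x := by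
      intro x hx
      have h1 : x ∈ ((N ⊔ derivedSeries G k : Subgroup G) : Set G) := hx
      rw [Subgroup.normal_mul] at h1
      exact Set.mem_mul.mp h1
    have habM : ∀ x ∈ M, ∀ y ∈ M, x * y * x⁻¹ * y⁻¹ ∈ N := by
      intro x hx y hy
      obtain ⟨n₁, hn₁, d₁, hd₁, rfl⟩ := hdecomp x hx
      obtain ⟨n₂, hn₂, d₂, hd₂, rfl⟩ := hdecomp y hy
      have hc : d₁ * d₂ * d₁⁻¹ * d₂⁻¹ ∈ N := by
        apply hk
        rw [derivedSeries_succ]
        have := Subgroup.commutator_mem_commutator hd₁ hd₂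
        rwa [commutatorElement_def] at this
      have h1 : ((n₁ * d₁ * (n₂ * d₂) * (n₁ * d₁)⁻¹ * (n₂ * d₂)⁻¹ : G) : G ⧸ N) =
          ((d₁ * d₂ * d₁⁻¹ * d₂⁻¹ : G) : G ⧸ N) := by
        simp only [QuotientGroup.mk_mul, QuotientGroup.mk_inv,
          (QuotientGroup.eq_one_iff n₁).mpr hn₁, (QuotientGroup.eq_one_iff n₂).mpr hn₂, one_mul]
      rw [← QuotientGroup.eq_one_iff, h1, QuotientGroup.eq_one_iff]
      exact hc
    have hM𝒜 : ∀ α ∈ 𝒜, ∀ x ∈ M, α x ∈ M := by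
      intro α hα x hx
      obtain ⟨n, hn, d, hd, rfl⟩ := hdecomp x hx
      rw [map_mul]
      apply M.mul_mem (hNM (hN𝒜 α hα n hn))
      apply hDM
      have hchar : (derivedSeries G k).Characteristic := derivedSeries_characteristic G k
      exact (Subgroup.characteristic_iff_map_le.mp hchar α) ⟨d, hd, rfl⟩
    -- the abelian step inside `M`
    set N' : Subgroup ↥M := N.subgroupOf M with hN'
    haveI : N'.Normal := Subgroup.normal_subgroupOf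
    letI : Fintype ↥N' := Fintype.ofFinite _
    set res : ↥𝒜 →* MulAut ↥M := resHomSub M 𝒜 hM𝒜 with hres
    have hab' : ∀ x y : ↥M, x * y * x⁻¹ * y⁻¹ ∈ N' := by
      intro x y
      rw [hN', Subgroup.mem_subgroupOf]
      exact habM x.1 x.2 y.1 y.2
    have hN'inv : ∀ α' ∈ res.range, ∀ x ∈ N', α' x ∈ N' := by
      rintro _ ⟨α, rfl⟩ x hx
      rw [hN', Subgroup.mem_subgroupOf] at hx ⊢
      exact hN𝒜 α.1 α.2 _ hx
    have ha' : ∀ α' ∈ res.range, ∃ n ∈ N', α' ^ a = MulAut.conj n := by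
      rintro _ ⟨α, rfl⟩
      obtain ⟨n, hn, hαn⟩ := ha α.1 α.2
      refine ⟨⟨n, hNM hn⟩, ?_, ?_⟩
      · rw [hN', Subgroup.mem_subgroupOf]
        exact hn
      · rw [← map_pow]
        apply MulEquiv.ext
        intro m
        apply Subtype.ext
        show ((α ^ a : ↥𝒜) : MulAut G) (m : G) = n * (m : G) * n⁻¹
        rw [Subgroup.coe_pow, hαn, MulAut.conj_apply]
    have hb' : ∀ m : ↥M, m ^ b ∈ N' := by
      intro m
      rw [hN', Subgroup.mem_subgroupOf, Subgroup.coe_pow]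
      exact hb m.1
    set e := Subgroup.subgroupOfEquivOfLe hNM with he
    set θ' : IrrCharacter ↥N' := ⟨fun x => (θ : ↥N → ℂ) (e x),
      (Helper79.isIrrCharacter_mulEquiv e).mpr θ.2⟩ with hθ'def
    have hθ' : ∀ α' ∈ res.range, ∀ x y : ↥N', (y : ↥M) = α' (x : ↥M) →
        (θ' : ↥N' → ℂ) y = (θ' : ↥N' → ℂ) x := by
      rintro _ ⟨α, rfl⟩ x y hxy
      show (θ : ↥N → ℂ) (e y) = (θ : ↥N → ℂ) (e x)
      apply hθ α.1 α.2 (e x) (e y)
      exact congrArg (fun z : ↥M => (z : G)) hxy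
    obtain ⟨η, hη, hηinv⟩ := rel_abelian_step N' hab' res.range hN'inv a b hcop ha' hb' θ' hθ'
    have hη' : classInner (Helper75.resTo hNM (η : ↥M → ℂ)) (θ : ↥N → ℂ) ≠ 0 := by
      rw [← Helper75.classInner_subgroupOf hNM (η : ↥M → ℂ) (θ : ↥N → ℂ)]
      exact hη
    have hηinv' : ∀ α ∈ 𝒜, ∀ x y : ↥M, (y : G) = α (x : G) →
        (η : ↥M → ℂ) y = (η : ↥M → ℂ) x := by
      intro α hα x y hxy
      have h1 := hηinv (res ⟨α, hα⟩) ⟨_, rfl⟩ x
      have h2 : res ⟨α, hα⟩ x = y := Subtype.ext hxy.symm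
      rw [h2] at h1
      exact h1
    -- induction
    have haM : ∀ α ∈ 𝒜, ∃ n ∈ M, α ^ a = MulAut.conj n := by
      intro α hα
      obtain ⟨n, hn, hαn⟩ := ha α hα
      exact ⟨n, hNM hn, hαn⟩
    obtain ⟨χ, hχ, hχinv⟩ := ih M hM𝒜 haM (fun g => hNM (hb g)) hDM η hηinv'
    refine ⟨χ, ?_, hχinv⟩
    letI : Fintype (IrrCharacter ↥M) := Fintype.ofFinite _
    choose m1 hm1 using fun δ : IrrCharacter ↥M => exists_mult M.subtype χ δ
    choose m2 hm2 using fun δ : IrrCharacter ↥M => exists_mult (Subgroup.inclusion hNM) δ θ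
    have htr := mult_trans M.subtype (Subgroup.inclusion hNM) χ θ m1 m2 hm1 hm2
    have hm1η : m1 η ≠ 0 := by
      intro h
      apply hχ
      have := hm1 η
      rw [h, Nat.cast_zero] at this
      exact this
    have hm2η : m2 η ≠ 0 := by
      intro h
      apply hη'
      have := hm2 η
      rw [h, Nat.cast_zero] at this
      exact this
    have hpos : 0 < ∑ δ : IrrCharacter ↥M, m1 δ * m2 δ :=
      Finset.sum_pos' (fun _ _ => Nat.zero_le _)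
        ⟨η, Finset.mem_univ _, Nat.mul_pos (Nat.pos_of_ne_zero hm1η) (Nat.pos_of_ne_zero hm2η)⟩
    have h3 : classInner (fun x : ↥N => (χ : G → ℂ) x) (θ : ↥N → ℂ) =
        ((∑ δ : IrrCharacter ↥M, m1 δ * m2 δ : ℕ) : ℂ) := htr
    rw [h3]
    exact_mod_cast hpos.ne'

end RelInduction

section RelSub

variable {Γ : Type*} [Group Γ] [Finite Γ]

/-- Subgroup form (statement S4448). -/
theorem rel_solv_subgroup (G S N : Subgroup Γ) [Fintype G] [Fintype N]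
    (hnorm : ∀ s ∈ S, ∀ g ∈ G, s * g * s⁻¹ ∈ G) (hNG : N ≤ G) [hNn : (N.subgroupOf G).Normal]
    (hNS : ∀ s ∈ S, ∀ n ∈ N, s * n * s⁻¹ ∈ N) (hcop : (N.relIndex G).Coprime (Nat.card S))
    (hsolv : Group.IsSolvable (G ⧸ N.subgroupOf G)) (θ : IrrCharacter N)
    (hinv : ∀ s ∈ S, ∀ g g' : N, (g' : Γ) = s * g * s⁻¹ → (θ : N → ℂ) g' = (θ : N → ℂ) g) :
    ∃ χ : IrrCharacter G,
      classInner (fun n : N => (χ : G → ℂ) ⟨n, hNG n.2⟩) (θ : N → ℂ) ≠ 0 ∧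
      (∀ s ∈ S, ∀ g g' : G, (g' : Γ) = s * g * s⁻¹ → (χ : G → ℂ) g' = (χ : G → ℂ) g) := by
  classical
  set φ : ↥S →* MulAut ↥G := conjHom G S hnorm with hφ
  set N₀ : Subgroup ↥G := N.subgroupOf G with hN₀
  letI : Fintype ↥N₀ := Fintype.ofFinite _
  have hN₀inv : ∀ a ∈ φ.range, ∀ x ∈ N₀, a x ∈ N₀ := by
    rintro _ ⟨s, rfl⟩ x hx
    rw [hN₀, Subgroup.mem_subgroupOf] at hx ⊢
    rw [hφ, conjHom_apply_coe]
    exact hNS s.1 s.2 _ hx
  have ha : ∀ α ∈ φ.range, ∃ n ∈ N₀, α ^ Nat.card S = MulAut.conj n := by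
    rintro _ ⟨s, rfl⟩
    refine ⟨1, N₀.one_mem, ?_⟩
    rw [← map_pow, pow_card_eq_one', map_one, map_one]
  have hb : ∀ g : ↥G, g ^ N.relIndex G ∈ N₀ := fun g => Subgroup.pow_index_mem N₀ g
  obtain ⟨k, hk⟩ := hsolv.solvable
  have hk' : derivedSeries ↥G k ≤ N₀ := by
    intro x hx
    have h1 : QuotientGroup.mk' N₀ x ∈ derivedSeries (↥G ⧸ N₀) k :=
      map_derivedSeries_le_derivedSeries (QuotientGroup.mk' N₀) k ⟨x, hx, rfl⟩
    rw [hk, Subgroup.mem_bot] at h1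
    exact (QuotientGroup.eq_one_iff x).mp h1
  set e := Subgroup.subgroupOfEquivOfLe hNG with he
  set θ₀ : IrrCharacter ↥N₀ := ⟨fun x => (θ : N → ℂ) (e x),
    (Helper79.isIrrCharacter_mulEquiv e).mpr θ.2⟩ with hθ₀def
  have hθ₀ : ∀ a ∈ φ.range, ∀ x y : ↥N₀, (y : ↥G) = a (x : ↥G) →
      (θ₀ : ↥N₀ → ℂ) y = (θ₀ : ↥N₀ → ℂ) x := by
    rintro _ ⟨s, rfl⟩ x y hxy
    show (θ : N → ℂ) (e y) = (θ : N → ℂ) (e x)
    apply hinv s.1 s.2 (e x) (e y)
    exact congrArg (fun z : ↥G => (z : Γ)) hxy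
  obtain ⟨χ, hχ, hχinv⟩ := rel_solv_aux φ.range (Nat.card S) (N.relIndex G) hcop.symm k N₀
    hN₀inv ha hb hk' θ₀ hθ₀
  refine ⟨χ, ?_, ?_⟩
  · have h := Helper75.classInner_subgroupOf hNG (χ : G → ℂ) (θ : N → ℂ)
    rw [show (fun n : N => (χ : G → ℂ) ⟨n, hNG n.2⟩) = Helper75.resTo hNG (χ : G → ℂ) from rfl,
      ← h]
    exact hχ
  · intro s hs g g' hg'
    have h1 := hχinv (φ ⟨s, hs⟩) ⟨⟨s, hs⟩, rfl⟩ g
    have h2 : φ ⟨s, hs⟩ g = g' := Subtype.ext hg'.symm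
    rw [h2] at h1
    exact h1

end RelSub

end Cfsg.Agent.Helper74
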