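/-
Helper library of seat helper74: invariant characters over invariant characters, coprime indices
(Isaacs, Theorem 13.31 / Problem 13.10; statement S4450).
`N ≤ G` normal in `Γ`, `(|Γ:G|, |G:N|) = 1`, `Γ/G` or `G/N` solvable, `θ ∈ Irr(N)` invariant in
`Γ`: some `Γ`-invariant `χ ∈ Irr(G)` lies over `θ`.
This file: the case `G/N` solvable (Schur–Zassenhaus complement of `G/N` in `Γ/N`, then
`rel_solv_aux`), and the combination with `ext_solv_top`.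
-/
import Cfsg.Agent.Helper74.Ext2
import Cfsg.Agent.Helper74.Rel2

set_option autoImplicit false

namespace Cfsg.Agent.Helper74

open Cfsg

section ExtBottom

universe u

variable {Γ : Type u} [Group Γ] [Finite Γ]

/-- **Invariant characters over invariant characters, solvable bottom quotient.** -/
theorem ext_solv_bottom (G N : Subgroup Γ) [hG : G.Normal] [hN : N.Normal] [Fintype G]
    [Fintype N] (hNG : N ≤ G) (hcop : (G.index).Coprime (N.relIndex G))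
    (hsolv : Group.IsSolvable (G ⧸ N.subgroupOf G)) (θ : IrrCharacter N)
    (hinv : ∀ (x : Γ) (n : N),
      (θ : N → ℂ) ⟨x * n * x⁻¹, hN.conj_mem n n.2 x⟩ = (θ : N → ℂ) n) :
    ∃ χ : IrrCharacter G, classInner (fun n : N => (χ : G → ℂ) ⟨n, hNG n.2⟩) (θ : N → ℂ) ≠ 0 ∧
      ∀ (x : Γ) (g : G), (χ : G → ℂ) ⟨x * g * x⁻¹, hG.conj_mem g g.2 x⟩ = (χ : G → ℂ) g := by
  classical
  obtain ⟨q, hq⟩ : ∃ q : Γ →* Γ ⧸ N, q = QuotientGroup.mk' N := ⟨_, rfl⟩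
  have hqs : Function.Surjective q := by rw [hq]; exact QuotientGroup.mk'_surjective N
  have hq1 : ∀ x : Γ, q x = 1 ↔ x ∈ N := by
    intro x
    rw [hq, QuotientGroup.mk'_apply, QuotientGroup.eq_one_iff]
  obtain ⟨G', hG'⟩ : ∃ G' : Subgroup (Γ ⧸ N), G' = G.map q := ⟨_, rfl⟩
  haveI hG'n : G'.Normal := by rw [hG']; exact Subgroup.Normal.map hG q hqs
  have hidx : G'.index = G.index := by
    rw [hG']
    exact Subgroup.index_map_eq _ hqs (by rw [hq, QuotientGroup.ker_mk']; exact hNG)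
  have hexp : ∀ y ∈ G', y ^ (N.relIndex G) = 1 := by
    intro y hy
    rw [hG'] at hy
    obtain ⟨g, hg, rfl⟩ := hy
    rw [← map_pow, hq1]
    have h1 := Subgroup.pow_index_mem (N.subgroupOf G) (⟨g, hg⟩ : G)
    rw [Subgroup.mem_subgroupOf] at h1
    exact h1
  have hcard : (Nat.card G').Coprime G.index := by
    apply Nat.coprime_of_dvd
    intro p hp hpG hpa
    haveI : Fact p.Prime := ⟨hp⟩
    obtain ⟨y, hy⟩ := exists_prime_orderOf_dvd_card' p hpG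
    have h1 : p ∣ N.relIndex G := by
      rw [← hy]
      apply orderOf_dvd_of_pow_eq_one
      apply Subtype.ext
      rw [Subgroup.coe_pow]
      exact hexp y.1 y.2
    have h3 := Nat.dvd_gcd hpa h1
    rw [Nat.Coprime.gcd_eq_one hcop] at h3
    exact hp.one_lt.ne' (Nat.dvd_one.mp h3)
  obtain ⟨H', hH'⟩ := Subgroup.exists_right_complement'_of_coprime (N := G')
    (by rw [hidx]; exact hcard)
  have hH'card : Nat.card H' = G.index := by
    rw [← hidx]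
    exact hH'.symm.index_eq_card.symm
  obtain ⟨H, hH⟩ : ∃ H : Subgroup Γ, H = H'.comap q := ⟨_, rfl⟩
  have hnorm : ∀ s ∈ H, ∀ g ∈ G, s * g * s⁻¹ ∈ G := fun s _ g hg => hG.conj_mem g hg s
  have hpowH : ∀ h ∈ H, h ^ G.index ∈ N := by
    intro h hh
    rw [hH, Subgroup.mem_comap] at hh
    rw [← hq1, map_pow]
    have h1 : (⟨q h, hh⟩ : H') ^ Nat.card H' = 1 := pow_card_eq_one'
    rw [hH'card] at h1
    exact congrArg Subtype.val h1
  have hdecomp : ∀ x : Γ, ∃ g ∈ G, ∃ h ∈ H, x = g * h := by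
    intro x
    obtain ⟨⟨⟨g₁, hg₁⟩, h₁⟩, hgh⟩ := hH'.2 (q x)
    have hgh' : g₁ * (h₁ : Γ ⧸ N) = q x := hgh
    rw [hG'] at hg₁
    obtain ⟨g, hg, hgq⟩ := hg₁
    refine ⟨g, hg, g⁻¹ * x, ?_, by group⟩
    rw [hH, Subgroup.mem_comap, map_mul, map_inv, hgq, ← hgh', inv_mul_cancel_left]
    exact h₁.2
  -- the relative theorem for the action of `H` on `G`
  set φ : ↥H →* MulAut ↥G := conjHom G H hnorm with hφ
  set N₀ : Subgroup ↥G := N.subgroupOf G with hN₀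
  letI : Fintype ↥N₀ := Fintype.ofFinite _
  have hN₀inv : ∀ a ∈ φ.range, ∀ x ∈ N₀, a x ∈ N₀ := by
    rintro _ ⟨s, rfl⟩ x hx
    rw [hN₀, Subgroup.mem_subgroupOf] at hx ⊢
    rw [hφ, conjHom_apply_coe]
    exact hN.conj_mem _ hx _
  have ha : ∀ α ∈ φ.range, ∃ n ∈ N₀, α ^ G.index = MulAut.conj n := by
    rintro _ ⟨s, rfl⟩
    have h1 : (s : Γ) ^ G.index ∈ N := hpowH s.1 s.2
    refine ⟨⟨(s : Γ) ^ G.index, hNG h1⟩, ?_, ?_⟩
    · rw [hN₀, Subgroup.mem_subgroupOf]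
      exact h1
    · rw [← map_pow]
      ext g
      rw [hφ, conjHom_apply_coe]
      rfl
  have hb : ∀ g : ↥G, g ^ N.relIndex G ∈ N₀ := fun g => Subgroup.pow_index_mem N₀ g
  obtain ⟨k, hk⟩ := hsolv.solvable
  have hk' : derivedSeries ↥G k ≤ N₀ := by
    intro x hx
    have h1 : QuotientGroup.mk' N₀ x ∈ derivedSeries (↥G ⧸ N₀) k :=
      map_derivedSeries_le_derivedSeries (QuotientGroup.mk' N₀) k ⟨x, hx, rfl⟩
    rw [hk, Subgroup.mem_bot] at h1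
    exact (QuotientGroup.eq_one_iff x).mp h1
  set e := Subgroup.subgroupOfEquivOfLe hNG with he
  set θ₀ : IrrCharacter ↥N₀ := ⟨fun x => (θ : N → ℂ) (e x),
    (Helper79.isIrrCharacter_mulEquiv e).mpr θ.2⟩ with hθ₀def
  have hθ₀ : ∀ a ∈ φ.range, ∀ x y : ↥N₀, (y : ↥G) = a (x : ↥G) →
      (θ₀ : ↥N₀ → ℂ) y = (θ₀ : ↥N₀ → ℂ) x := by
    rintro _ ⟨s, rfl⟩ x y hxy
    show (θ : N → ℂ) (e y) = (θ : N → ℂ) (e x)
    rw [← hinv (s : Γ) (e x)]
    refine congrArg (θ : N → ℂ) (Subtype.ext ?_)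
    exact congrArg (fun z : ↥G => (z : Γ)) hxy
  obtain ⟨χ, hχ, hχinv⟩ := rel_solv_aux φ.range G.index (N.relIndex G) hcop k N₀
    hN₀inv ha hb hk' θ₀ hθ₀
  refine ⟨χ, ?_, ?_⟩
  · have h := Helper75.classInner_subgroupOf hNG (χ : G → ℂ) (θ : N → ℂ)
    rw [show (fun n : N => (χ : G → ℂ) ⟨n, hNG n.2⟩) = Helper75.resTo hNG (χ : G → ℂ) from rfl,
      ← h]
    exact hχ
  · intro x g
    obtain ⟨g₁, hg₁, h, hh, rfl⟩ := hdecomp x
    have h1 := hχinv (φ ⟨h, hh⟩) ⟨⟨h, hh⟩, rfl⟩ g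
    have h2 : (⟨g₁ * h * g * (g₁ * h)⁻¹, hG.conj_mem g g.2 (g₁ * h)⟩ : G) =
        ⟨g₁, hg₁⟩ * (φ ⟨h, hh⟩ g) * (⟨g₁, hg₁⟩ : G)⁻¹ := by
      apply Subtype.ext
      show g₁ * h * g * (g₁ * h)⁻¹ = g₁ * (h * g * h⁻¹) * g₁⁻¹
      group
    rw [h2, Helper79.isCharacter_conj_eq (Helper79.irr_isCharacter χ), h1]

/-- **Isaacs 13.31 / Problem 13.10** (statement S4450). -/
theorem ext_coprime_index (G N : Subgroup Γ) [hG : G.Normal] [hN : N.Normal] [Fintype G]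
    [Fintype N] (hNG : N ≤ G) (hcop : (G.index).Coprime (N.relIndex G))
    (hsolv : Group.IsSolvable (Γ ⧸ G) ∨ Group.IsSolvable (G ⧸ N.subgroupOf G))
    (θ : IrrCharacter N)
    (hinv : ∀ (x : Γ) (n : N),
      (θ : N → ℂ) ⟨x * n * x⁻¹, hN.conj_mem n n.2 x⟩ = (θ : N → ℂ) n) :
    ∃ χ : IrrCharacter G, classInner (fun n : N => (χ : G → ℂ) ⟨n, hNG n.2⟩) (θ : N → ℂ) ≠ 0 ∧
      ∀ (x : Γ) (g : G), (χ : G → ℂ) ⟨x * g * x⁻¹, hG.conj_mem g g.2 x⟩ = (χ : G → ℂ) g := by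
  rcases hsolv with h | h
  · exact ext_solv_top G N hNG hcop h θ hinv
  · exact ext_solv_bottom G N hNG hcop h θ hinv

end ExtBottom

end Cfsg.Agent.Helper74
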