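/-
Helper library of seat helper74 (for S4454): group-theoretic setup for a cyclic Frobenius
action on a section `G / N`.
* `fr_sum`: if `Γ = G H`, `G ∩ H = N` and `F` is right-`H`-invariant then
  `|N| ∑_{y ∈ Γ} F y = |H| ∑_{y ∈ G} F y`.
* `fr_setup`: `Γ / G` cyclic acting without fixed points on `G / N`: there is `H ≥ N` with
  `H ∩ G = N`, `Γ = G H`, `H / N` cyclic and `|H| = |Γ : G| |N|`.
-/
import Mathlib
import Cfsg.Agent.Helper75.PrincipalSubpair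

set_option autoImplicit false

namespace Cfsg.Agent.Helper74

open Cfsg

section FR1

variable {Γ : Type*} [Group Γ]

theorem fr_sum [Fintype Γ] (G H N : Subgroup Γ) [Fintype G] [Fintype H]
    (hinf : ∀ y, y ∈ G → y ∈ H → y ∈ N)
    (hNG : N ≤ G) (hNH : N ≤ H) (hsup : ∀ y : Γ, ∃ g ∈ G, ∃ k ∈ H, y = g * k) (F : Γ → ℂ)
    (hF : ∀ y, ∀ k ∈ H, F (y * k) = F y) :
    (Nat.card N : ℂ) * ∑ y, F y = (Nat.card H : ℂ) * ∑ g : G, F g := by
  classical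
  have h1 : ∑ p : G × H, F ((p.1 : Γ) * (p.2 : Γ)) = (Nat.card H : ℂ) * ∑ g : G, F g := by
    rw [Fintype.sum_prod_type, Finset.mul_sum]
    apply Finset.sum_congr rfl
    intro g _
    rw [Finset.sum_congr rfl (fun (k : H) _ => hF (g : Γ) (k : Γ) k.2), Finset.sum_const,
      Finset.card_univ, nsmul_eq_mul, Nat.card_eq_fintype_card]
  have h2 : ∑ p : G × H, F ((p.1 : Γ) * (p.2 : Γ)) = (Nat.card N : ℂ) * ∑ y, F y := by
    rw [← Finset.sum_fiberwise (Finset.univ : Finset (G × H))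
      (fun p : G × H => (p.1 : Γ) * (p.2 : Γ)) (fun p => F ((p.1 : Γ) * (p.2 : Γ))),
      Finset.mul_sum]
    apply Finset.sum_congr rfl
    intro y _
    have h3 : ∀ p ∈ Finset.univ.filter (fun p : G × H => (p.1 : Γ) * (p.2 : Γ) = y),
        F ((p.1 : Γ) * (p.2 : Γ)) = F y := by
      intro p hp
      rw [(Finset.mem_filter.mp hp).2]
    rw [Finset.sum_congr rfl h3, Finset.sum_const, nsmul_eq_mul]
    congr 2
    rw [← Fintype.card_subtype, ← Nat.card_eq_fintype_card]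
    obtain ⟨g₀, hg₀, k₀, hk₀, rfl⟩ := hsup y
    apply Nat.card_congr
    refine
      { toFun := fun p => ⟨g₀⁻¹ * (p.1.1 : Γ), ?_⟩
        invFun := fun n => ⟨(⟨g₀ * (n : Γ), G.mul_mem hg₀ (hNG n.2)⟩,
          ⟨(n : Γ)⁻¹ * k₀, H.mul_mem (H.inv_mem (hNH n.2)) hk₀⟩), ?_⟩
        left_inv := ?_
        right_inv := ?_ }
    · have hp : (p.1.1 : Γ) * (p.1.2 : Γ) = g₀ * k₀ := p.2
      refine hinf _ (G.mul_mem (G.inv_mem hg₀) p.1.1.2) ?_
      have h5 := eq_mul_inv_of_mul_eq hp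
      have h4 : g₀⁻¹ * (p.1.1 : Γ) = k₀ * (p.1.2 : Γ)⁻¹ := by
        rw [h5]
        group
      rw [h4]
      exact H.mul_mem hk₀ (H.inv_mem p.1.2.2)
    · show g₀ * (n : Γ) * ((n : Γ)⁻¹ * k₀) = g₀ * k₀
      group
    · intro p
      have hp : (p.1.1 : Γ) * (p.1.2 : Γ) = g₀ * k₀ := p.2
      apply Subtype.ext
      refine Prod.ext (Subtype.ext ?_) (Subtype.ext ?_)
      · show g₀ * (g₀⁻¹ * (p.1.1 : Γ)) = p.1.1
        group
      · show (g₀⁻¹ * (p.1.1 : Γ))⁻¹ * k₀ = p.1.2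
        rw [eq_inv_mul_of_mul_eq hp]
        group
    · intro n
      apply Subtype.ext
      show g₀⁻¹ * (g₀ * (n : Γ)) = n
      group
  rw [← h2, h1]

theorem fr_setup [Finite Γ] (G N : Subgroup Γ) [hG : G.Normal] [hN : N.Normal] (hNG : N ≤ G)
    (hGlt : G ≠ ⊤) (hcyc : IsCyclic (Γ ⧸ G))
    (hfrob : ∀ x : Γ, x ∉ G → ∀ g : Γ, g ∈ G → x * g * x⁻¹ * g⁻¹ ∈ N → g ∈ N) :
    ∃ H : Subgroup Γ, N ≤ H ∧ (∀ y, y ∈ G → y ∈ H → y ∈ N) ∧
      (∀ y : Γ, ∃ g ∈ G, ∃ k ∈ H, y = g * k) ∧ IsCyclic (H ⧸ N.subgroupOf H) ∧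
      Nat.card H = G.index * Nat.card N := by
  obtain ⟨q, hq⟩ := hcyc.exists_generator
  obtain ⟨x, rfl⟩ := QuotientGroup.mk_surjective q
  have hord : orderOf (x : Γ ⧸ G) = G.index := by
    rw [orderOf_eq_card_of_forall_mem_zpowers hq, Subgroup.index_eq_card]
  have hmemG : ∀ i : ℤ, x ^ i ∈ G ↔ (G.index : ℤ) ∣ i := by
    intro i
    rw [← QuotientGroup.eq_one_iff, QuotientGroup.mk_zpow, ← hord, orderOf_dvd_iff_zpow_eq_one]
  have hxG : x ∉ G := by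
    intro hx
    have h1 : (G.index : ℤ) ∣ 1 := (hmemG 1).mp (by simpa using hx)
    have h2 : G.index = 1 := by
      have := Int.natCast_dvd_natCast.mp (by simpa using h1 : ((G.index : ℕ) : ℤ) ∣ ((1 : ℕ) : ℤ))
      exact Nat.dvd_one.mp this
    exact hGlt (Subgroup.index_eq_one.mp h2)
  have hxa : x ^ G.index ∈ N := by
    have h1 : x ^ G.index ∈ G := by
      have := (hmemG (G.index : ℤ)).mpr dvd_rfl
      rwa [zpow_natCast] at this
    refine hfrob x hxG _ h1 ?_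
    have h2 : x * x ^ G.index * x⁻¹ * (x ^ G.index)⁻¹ = 1 := by
      rw [((Commute.refl x).pow_right G.index).eq]
      group
    rw [h2]
    exact N.one_mem
  have hmemH : ∀ h : Γ, h ∈ N ⊔ Subgroup.zpowers x ↔ ∃ n ∈ N, ∃ i : ℤ, h = n * x ^ i := by
    intro h
    rw [← SetLike.mem_coe, Subgroup.normal_mul, Set.mem_mul]
    constructor
    · rintro ⟨n, hn, z, hz, rfl⟩
      obtain ⟨i, rfl⟩ := Subgroup.mem_zpowers_iff.mp hz
      exact ⟨n, hn, i, rfl⟩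
    · rintro ⟨n, hn, i, rfl⟩
      exact ⟨n, hn, x ^ i, Subgroup.mem_zpowers_iff.mpr ⟨i, rfl⟩, rfl⟩
  have hNH : N ≤ N ⊔ Subgroup.zpowers x := le_sup_left
  have hinf : ∀ y, y ∈ G → y ∈ N ⊔ Subgroup.zpowers x → y ∈ N := by
    intro y hyG hyH
    obtain ⟨n, hn, i, rfl⟩ := (hmemH y).mp hyH
    have h1 : x ^ i ∈ G := by
      have := G.mul_mem (G.inv_mem (hNG hn)) hyG
      rwa [inv_mul_cancel_left] at this
    obtain ⟨j, rfl⟩ := (hmemG i).mp h1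
    refine N.mul_mem hn ?_
    rw [zpow_mul, zpow_natCast]
    exact N.zpow_mem hxa j
  have hsup : ∀ y : Γ, ∃ g ∈ G, ∃ k ∈ N ⊔ Subgroup.zpowers x, y = g * k := by
    intro y
    obtain ⟨i, hi⟩ := Subgroup.mem_zpowers_iff.mp (hq (y : Γ ⧸ G))
    refine ⟨y * (x ^ i)⁻¹, ?_, x ^ i, (hmemH _).mpr ⟨1, N.one_mem, i, by rw [one_mul]⟩, by group⟩
    rw [← QuotientGroup.eq_one_iff, QuotientGroup.mk_mul, QuotientGroup.mk_inv,
      QuotientGroup.mk_zpow, hi, mul_inv_cancel]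
  refine ⟨N ⊔ Subgroup.zpowers x, hNH, hinf, hsup, ?_, ?_⟩
  · have hxH : x ∈ N ⊔ Subgroup.zpowers x :=
      (hmemH x).mpr ⟨1, N.one_mem, 1, by rw [one_mul, zpow_one]⟩
    refine ⟨⟨((⟨x, hxH⟩ : ↥(N ⊔ Subgroup.zpowers x)) :
      ↥(N ⊔ Subgroup.zpowers x) ⧸ N.subgroupOf (N ⊔ Subgroup.zpowers x)), fun q => ?_⟩⟩
    obtain ⟨h, rfl⟩ := QuotientGroup.mk_surjective q
    obtain ⟨n, hn, i, hi⟩ := (hmemH (h : Γ)).mp h.2
    refine ⟨i, ?_⟩
    show ((⟨x, hxH⟩ : ↥(N ⊔ Subgroup.zpowers x)) :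
      ↥(N ⊔ Subgroup.zpowers x) ⧸ N.subgroupOf (N ⊔ Subgroup.zpowers x)) ^ i = _
    rw [← QuotientGroup.mk_zpow, QuotientGroup.eq, Subgroup.mem_subgroupOf]
    show ((⟨x, hxH⟩ : ↥(N ⊔ Subgroup.zpowers x)) ^ i : ↥(N ⊔ Subgroup.zpowers x)).1⁻¹ * (h : Γ) ∈ N
    rw [Subgroup.coe_zpow, hi]
    show (x ^ i)⁻¹ * (n * x ^ i) ∈ N
    have := hN.conj_mem n hn (x ^ i)⁻¹
    rwa [inv_inv, mul_assoc] at this
  · have htop : (N ⊔ Subgroup.zpowers x) ⊔ G = ⊤ := by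
      rw [eq_top_iff]
      intro y _
      obtain ⟨g, hg, k, hk, rfl⟩ := hsup y
      exact (Subgroup.mul_mem _ (Subgroup.mem_sup_right hg) (Subgroup.mem_sup_left hk))
    have hinfeq : (N ⊔ Subgroup.zpowers x) ⊓ G = N := by
      apply le_antisymm
      · intro y hy
        exact hinf y hy.2 hy.1
      · exact le_inf hNH hNG
    have h1 : G.index = N.relIndex (N ⊔ Subgroup.zpowers x) := by
      rw [← Subgroup.relIndex_top_right, ← htop, Subgroup.relIndex_sup_right,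
        ← Subgroup.inf_relIndex_left, hinfeq]
    have h2 := Subgroup.card_mul_index (N.subgroupOf (N ⊔ Subgroup.zpowers x))
    have h3 : Nat.card (N.subgroupOf (N ⊔ Subgroup.zpowers x)) = Nat.card N :=
      Nat.card_congr (Subgroup.subgroupOfEquivOfLe hNH).toEquiv
    rw [h3] at h2
    rw [h1, ← h2, mul_comm]
    rfl

end FR1

end Cfsg.Agent.Helper74
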