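/-
Helper library of seat helper74: arithmetic of a character `ψ = ∑ a_l l` of a finite abelian
group `S` whose values off the identity are `0, ±1`.
* `fpf_var_eq`: integers `N_j` (`j` in a set of `n ≥ 2` elements) with
  `n ∑ N_j² - (∑ N_j)² = n - 1` are all equal but one, which differs by `±1`.
* `fpf_nonvanish`: if `ψ(y) ∈ {0, ±1}` off the identity and `ψ(y) ≠ 0`, then `ψ(y^m) ≠ 0`
  as long as `y^m ≠ 1`.
* `fpf_vanish`: if `ψ` vanishes off the identity then `ψ(1) = |S| a_l` for all `l`.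
* `fpf_arith`: if `ψ(x) = ±1` for all `x ≠ 1` then `ψ = m ρ_S + ε μ`.
-/
import Cfsg.Agent.Helper74.GlaubArith
import Cfsg.Agent.Helper76.CharInt
import Cfsg.Agent.Helper15.CharInner
import Cfsg.Agent.Helper79.Abelian
import Cfsg.Agent.Helper80.CharOrtho

set_option autoImplicit false

namespace Cfsg.Agent.Helper74

open Cfsg

open scoped ComplexConjugate

universe u

section FpfArith

variable {ι : Type*} [Fintype ι] [DecidableEq ι]

theorem fpf_unique_one (e : ι → ℤ) (h01 : ∀ j, e j = 0 ∨ e j = 1) (hsum : ∑ j, e j = 1) :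
    ∃ μ, e μ = 1 ∧ ∀ l, l ≠ μ → e l = 0 := by
  obtain ⟨μ, hμ⟩ : ∃ μ, e μ ≠ 0 := by
    by_contra hcon
    push Not at hcon
    simp [hcon] at hsum
  have hμ1 : e μ = 1 := (h01 μ).resolve_left hμ
  refine ⟨μ, hμ1, ?_⟩
  have hsplit := Finset.add_sum_erase Finset.univ e (Finset.mem_univ μ)
  rw [hsum, hμ1] at hsplit
  have hrest : ∑ j ∈ Finset.univ.erase μ, e j = 0 := by linarith
  have hnn : ∀ j ∈ Finset.univ.erase μ, 0 ≤ e j := by
    intro j _
    rcases h01 j with h | h <;> rw [h] <;> norm_num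
  intro l hl
  exact (Finset.sum_eq_zero_iff_of_nonneg hnn).mp hrest l
    (Finset.mem_erase.mpr ⟨hl, Finset.mem_univ l⟩)

theorem fpf_var_eq (N : ι → ℤ)
    (h : (Fintype.card ι : ℤ) * ∑ j, N j ^ 2 - (∑ j, N j) ^ 2 = (Fintype.card ι : ℤ) - 1)
    (hn : 2 ≤ Fintype.card ι) :
    ∃ (μ : ι) (m ε : ℤ), (ε = 1 ∨ ε = -1) ∧ (∀ l, l ≠ μ → N l = m) ∧ N μ = m + ε := by
  have hne : (Finset.univ : Finset ι).Nonempty := by
    rw [Finset.univ_nonempty_iff]
    exact Fintype.card_pos_iff.mp (by omega)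
  obtain ⟨i₀, -, hmin⟩ := Finset.exists_min_image Finset.univ N hne
  obtain ⟨n, hn_def⟩ : ∃ n : ℤ, n = (Fintype.card ι : ℤ) := ⟨_, rfl⟩
  rw [← hn_def] at h
  have hn2 : (2 : ℤ) ≤ n := by rw [hn_def]; exact_mod_cast hn
  obtain ⟨m, hm⟩ : ∃ m : ℤ, m = N i₀ := ⟨_, rfl⟩
  obtain ⟨d, hd⟩ : ∃ d : ι → ℤ, d = fun j => N j - m := ⟨_, rfl⟩
  have hdj : ∀ j, d j = N j - m := fun j => by rw [hd]
  have hd0 : ∀ j, 0 ≤ d j := fun j => by
    rw [hdj, hm]
    exact sub_nonneg.mpr (hmin j (Finset.mem_univ j))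
  have hdi : d i₀ = 0 := by rw [hdj, hm, sub_self]
  obtain ⟨e, he⟩ : ∃ e : ι → ℤ, e = fun j => if d j = 0 then 0 else 1 := ⟨_, rfl⟩
  have hej0 : ∀ j, d j = 0 → e j = 0 := fun j hj => by rw [he]; simp [hj]
  have hej1 : ∀ j, d j ≠ 0 → e j = 1 := fun j hj => by rw [he]; simp [hj]
  have he01 : ∀ j, e j = 0 ∨ e j = 1 := by
    intro j
    by_cases hj : d j = 0
    · exact Or.inl (hej0 j hj)
    · exact Or.inr (hej1 j hj)
  obtain ⟨D, hD⟩ : ∃ D : ℤ, D = ∑ j, d j := ⟨_, rfl⟩
  obtain ⟨Q, hQ⟩ : ∃ Q : ℤ, Q = ∑ j, d j ^ 2 := ⟨_, rfl⟩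
  obtain ⟨b, hb⟩ : ∃ b : ℤ, b = ∑ j, e j := ⟨_, rfl⟩
  have hvar : n * Q - D ^ 2 = n - 1 := by
    have h1 : D = ∑ j, N j - n * m := by
      rw [hD, hn_def]
      simp only [hdj, Finset.sum_sub_distrib, Finset.sum_const, Finset.card_univ, nsmul_eq_mul]
    have h2 : Q = ∑ j, N j ^ 2 - 2 * m * ∑ j, N j + n * m ^ 2 := by
      rw [hQ, hn_def]
      simp only [hdj, sub_sq, Finset.sum_add_distrib, Finset.sum_sub_distrib, Finset.sum_const,
        Finset.card_univ, nsmul_eq_mul, ← Finset.sum_mul, ← Finset.mul_sum]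
      ring
    rw [h1, h2, ← h]
    ring
  have hCS : D ^ 2 ≤ Q * b := by
    have := Finset.sum_mul_sq_le_sq_mul_sq Finset.univ d e
    have h1 : ∑ j, d j * e j = D := by
      rw [hD]
      apply Finset.sum_congr rfl
      intro j _
      by_cases hj : d j = 0
      · rw [hj, zero_mul]
      · rw [hej1 j hj, mul_one]
    have h2 : ∑ j, e j ^ 2 = b := by
      rw [hb]
      apply Finset.sum_congr rfl
      intro j _
      rcases he01 j with hj | hj <;> rw [hj] <;> norm_num
    rw [h1, h2, ← hQ] at this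
    exact this
  have hQb : b ≤ Q := by
    rw [hb, hQ]
    apply Finset.sum_le_sum
    intro j _
    by_cases hj : d j = 0
    · rw [hej0 j hj, hj]
      norm_num
    · rw [hej1 j hj]
      exact one_le_sq_of_ne _ hj
  have hb_le : b ≤ n - 1 := by
    have h1 : ∑ j, (1 - e j) = n - b := by
      rw [Finset.sum_sub_distrib, ← hb, hn_def]
      simp
    have h2 : (1 - e i₀) ≤ ∑ j, (1 - e j) :=
      Finset.single_le_sum (f := fun j => 1 - e j)
        (fun j _ => by rcases he01 j with hj | hj <;> rw [hj] <;> norm_num) (Finset.mem_univ i₀)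
    rw [hej0 i₀ hdi, h1] at h2
    linarith
  have hb0 : 0 ≤ b := by
    rw [hb]
    exact Finset.sum_nonneg (fun j _ => by rcases he01 j with hj | hj <;> rw [hj] <;> norm_num)
  have hQ0 : 0 ≤ Q := by
    rw [hQ]
    exact Finset.sum_nonneg (fun j _ => sq_nonneg _)
  have hb1 : 1 ≤ b := by
    by_contra hcon
    have hb00 : b = 0 := by omega
    have hD2 : D ^ 2 ≤ 0 := by
      rw [hb00, mul_zero] at hCS
      exact hCS
    have hD0 : D = 0 := by nlinarith [sq_nonneg D]
    rw [hD0] at hvar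
    rcases hQ0.eq_or_lt with hq | hq
    · rw [← hq] at hvar
      linarith
    · have hq1 : 1 ≤ Q := hq
      nlinarith
  have hkey1 : (n - b) * Q ≤ n - 1 := by nlinarith
  have hQeq : Q = b := by
    by_contra hne'
    have hlt : b + 1 ≤ Q := by omega
    nlinarith
  have hprod : (b - 1) * (n - b - 1) = 0 := by
    rw [hQeq] at hkey1
    have h1 : 0 ≤ (b - 1) * (n - b - 1) := mul_nonneg (by linarith) (by linarith)
    nlinarith
  have hde : ∀ j, d j = e j := by
    have hsum0 : ∑ j, (d j ^ 2 - e j) = 0 := by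
      rw [Finset.sum_sub_distrib, ← hQ, ← hb, hQeq, sub_self]
    have hnn : ∀ j ∈ Finset.univ, 0 ≤ d j ^ 2 - e j := by
      intro j _
      by_cases hj : d j = 0
      · rw [hej0 j hj, hj]
        norm_num
      · rw [hej1 j hj]
        linarith [one_le_sq_of_ne _ hj]
    intro j
    have hj2 := (Finset.sum_eq_zero_iff_of_nonneg hnn).mp hsum0 j (Finset.mem_univ j)
    by_cases hj : d j = 0
    · rw [hej0 j hj, hj]
    · rw [hej1 j hj] at hj2 ⊢
      have h0 := hd0 j
      nlinarith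
  rcases mul_eq_zero.mp hprod with hb1' | hb2
  · obtain ⟨μ, hμ1, hμ0⟩ := fpf_unique_one e he01 (by rw [← hb]; linarith)
    refine ⟨μ, m, 1, Or.inl rfl, ?_, ?_⟩
    · intro l hl
      have := hde l
      rw [hμ0 l hl, hdj] at this
      linarith
    · have := hde μ
      rw [hμ1, hdj] at this
      linarith
  · have h01' : ∀ j, (1 - e j) = 0 ∨ (1 - e j) = 1 := by
      intro j
      rcases he01 j with hj | hj <;> rw [hj] <;> norm_num
    have hsum' : ∑ j, (1 - e j) = 1 := by
      rw [Finset.sum_sub_distrib, ← hb]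
      simp only [Finset.sum_const, Finset.card_univ, nsmul_eq_mul, mul_one]
      rw [← hn_def]
      linarith
    obtain ⟨μ, hμ1, hμ0⟩ := fpf_unique_one (fun j => 1 - e j) h01' hsum'
    refine ⟨μ, m + 1, -1, Or.inr rfl, ?_, ?_⟩
    · intro l hl
      have := hde l
      have h2 := hμ0 l hl
      rw [hdj] at this
      linarith
    · have := hde μ
      rw [hdj] at this
      linarith

end FpfArith

section FpfChar

/-- If a character `ψ` takes only the values `0, ±1` off the identity and `ψ y ≠ 0`, then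
`ψ (y ^ m) ≠ 0` whenever `y ^ m ≠ 1`. -/
theorem fpf_nonvanish {S : Type*} [Group S] [Finite S] {ψ : S → ℂ} (hψ : IsCharacter S ψ)
    (h01 : ∀ y : S, y ≠ 1 → ψ y = 0 ∨ ψ y * ψ y = 1) :
    ∀ m : ℕ, ∀ y : S, ψ y ≠ 0 → y ^ m ≠ 1 → ψ (y ^ m) ≠ 0 := by
  obtain ⟨d, ρ, rfl⟩ := hψ
  intro m
  induction m using Nat.strong_induction_on with
  | _ m ih =>
    intro y hy hym
    rcases Nat.lt_or_ge m 2 with hm | hm
    · interval_cases m
      · exact absurd (pow_zero y) hym
      · rwa [pow_one]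
    · have hp : (m.minFac).Prime := Nat.minFac_prime (by omega)
      obtain ⟨p, hpdef⟩ : ∃ p : ℕ, p = m.minFac := ⟨_, rfl⟩
      rw [← hpdef] at hp
      obtain ⟨m', hm'⟩ : p ∣ m := hpdef ▸ Nat.minFac_dvd m
      have hyp : y ^ p ≠ 1 := by
        intro h
        apply hym
        rw [hm', pow_mul, h, one_pow]
      have hy1 : y ≠ 1 := by
        rintro rfl
        exact hyp (one_pow _)
      have hstep : ρ.character (y ^ p) ≠ 0 := by
        intro h0
        obtain ⟨w, hw, hwe⟩ := Helper76.char_pow_prime_pow ρ p hp 1 y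
        rw [pow_one, h0, zero_add] at hwe
        have hsq : ρ.character y * ρ.character y = 1 := (h01 y hy1).resolve_left hy
        have h1 : (1 : ℂ) = (p : ℂ) * (w * ((p : ℂ) * w)) := by
          calc (1 : ℂ) = (ρ.character y * ρ.character y) ^ p := by rw [hsq, one_pow]
            _ = ρ.character y ^ p * ρ.character y ^ p := mul_pow _ _ _
            _ = _ := by rw [hwe]; ring
        have hdvd := Helper76.dvd_of_natCast_eq_mul_isIntegral 1 p hp.ne_zero _
          (hw.mul ((isIntegral_natCast p).mul hw)) (by simpa using h1)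
        exact hp.one_lt.ne' (Nat.dvd_one.mp hdvd)
      have hm'lt : m' < m := by
        rcases Nat.eq_zero_or_pos m' with h | h
        · rw [h, mul_zero] at hm'
          omega
        · rw [hm']
          exact lt_mul_of_one_lt_left h hp.one_lt
      have := ih m' hm'lt (y ^ p) hstep (by rw [← pow_mul, ← hm']; exact hym)
      rwa [← pow_mul, ← hm'] at this

variable {S : Type u} [Group S] [Fintype S]

/-- Coefficient extraction: `[∑ a_l l, l'] = a_{l'}`. -/
theorem fpf_coeff [Fintype (IrrCharacter S)] (a : IrrCharacter S → ℂ) (l' : IrrCharacter S) :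
    classInner (fun y : S => ∑ l : IrrCharacter S, a l * (l : S → ℂ) y) (l' : S → ℂ) = a l' := by
  classical
  have h : (fun y : S => ∑ l : IrrCharacter S, a l * (l : S → ℂ) y) =
      ∑ l : IrrCharacter S, a l • (l : S → ℂ) := by
    funext y
    rw [Finset.sum_apply]
    rfl
  rw [h, Helper15.classInner_sum_left]
  simp only [Helper15.classInner_smul_left, Helper15.irr_inner]
  simp

theorem fpf_irr_one (hSc : ∀ a b : S, a * b = b * a) (l : IrrCharacter S) :
    (l : S → ℂ) 1 = 1 := by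
  rw [Helper80.irr_one_eq l, Helper79.irr_charDegree_eq_one_of_comm hSc l, Nat.cast_one]

theorem fpf_card_irr (hSc : ∀ a b : S, a * b = b * a) [Fintype (IrrCharacter S)] :
    Fintype.card (IrrCharacter S) = Fintype.card S := by
  have h := Helper80.irr_sum_degree_sq (G := S)
  simp only [fpf_irr_one hSc, mul_one, Finset.sum_const, Finset.card_univ, nsmul_eq_mul] at h
  exact_mod_cast h

/-- If `ψ = ∑ a_l l` vanishes off the identity then `ψ(1) = |S| a_l` for every `l`. -/
theorem fpf_vanish (hSc : ∀ a b : S, a * b = b * a) [Fintype (IrrCharacter S)]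
    (a : IrrCharacter S → ℂ)
    (h0 : ∀ x : S, x ≠ 1 → ∑ l : IrrCharacter S, a l * (l : S → ℂ) x = 0)
    (l' : IrrCharacter S) :
    ∑ l : IrrCharacter S, a l * (l : S → ℂ) 1 = (Fintype.card S : ℂ) * a l' := by
  have h1 := fpf_coeff a l'
  unfold classInner at h1
  rw [Finset.sum_eq_single 1] at h1
  · rw [fpf_irr_one hSc l', map_one, mul_one, Nat.card_eq_fintype_card] at h1
    have hS0 : (Fintype.card S : ℂ) ≠ 0 := by exact_mod_cast Fintype.card_ne_zero
    rw [← h1]
    field_simp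
  · intro y _ hy
    change (∑ l : IrrCharacter S, a l * (l : S → ℂ) y) * _ = 0
    rw [h0 y hy, zero_mul]
  · intro h
    exact absurd (Finset.mem_univ _) h

/-- If `ψ = ∑ a_l l` (`a_l ∈ ℕ`) takes the values `±1` off the identity of the abelian group `S`
of order `≥ 2`, then `ψ = m ρ_S + ε μ` for a sign `ε` and some `μ ∈ Irr(S)`. -/
theorem fpf_arith (hSc : ∀ a b : S, a * b = b * a) [Fintype (IrrCharacter S)]
    (a : IrrCharacter S → ℕ)
    (h1 : ∀ x : S, x ≠ 1 → (∑ l : IrrCharacter S, (a l : ℂ) * (l : S → ℂ) x = 1 ∨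
      ∑ l : IrrCharacter S, (a l : ℂ) * (l : S → ℂ) x = -1))
    (hn : 2 ≤ Fintype.card S) :
    ∃ (μ : IrrCharacter S) (ε : ℤ), (ε = 1 ∨ ε = -1) ∧
      (∀ x : S, x ≠ 1 →
        ∑ l : IrrCharacter S, (a l : ℂ) * (l : S → ℂ) x = (ε : ℂ) * (μ : S → ℂ) x) ∧
      ∃ l₁ : IrrCharacter S, l₁ ≠ μ ∧ ∑ l : IrrCharacter S, (a l : ℂ) * (l : S → ℂ) 1 =
        (Fintype.card S : ℂ) * (a l₁ : ℂ) + (ε : ℂ) := by
  classical
  obtain ⟨ψ, hψ⟩ : ∃ ψ : S → ℂ, ψ = fun y => ∑ l : IrrCharacter S, (a l : ℂ) * (l : S → ℂ) y :=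
    ⟨_, rfl⟩
  have hψy : ∀ y, ψ y = ∑ l : IrrCharacter S, (a l : ℂ) * (l : S → ℂ) y := fun y => by rw [hψ]
  have hone := fpf_irr_one hSc
  have hcard := fpf_card_irr hSc
  have hS0 : (Fintype.card S : ℂ) ≠ 0 := by exact_mod_cast Fintype.card_ne_zero
  have hψ1 : ψ 1 = ((∑ l, a l : ℕ) : ℂ) := by
    rw [hψy]
    simp only [hone, mul_one]
    push_cast
    rfl
  have hn1 : classInner ψ ψ = ((∑ l, a l ^ 2 : ℕ) : ℂ) := by
    have h : ψ = ∑ l : IrrCharacter S, (a l : ℂ) • (l : S → ℂ) := by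
      rw [hψ]
      funext y
      rw [Finset.sum_apply]
      rfl
    have hc : ∀ l' : IrrCharacter S, classInner ψ (l' : S → ℂ) = (a l' : ℂ) := by
      intro l'
      rw [hψ]
      exact fpf_coeff (fun l => (a l : ℂ)) l'
    conv_lhs => rw [h]
    rw [← h]
    conv_lhs => rw [h]
    rw [← h, h, Helper15.classInner_sum_right, ← h]
    simp only [Helper15.classInner_smul_right, hc, Complex.conj_natCast]
    push_cast
    apply Finset.sum_congr rfl
    intro l _
    ring
  have hn2 : classInner ψ ψ = (Fintype.card S : ℂ)⁻¹ *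
      (((∑ l, a l : ℕ) : ℂ) ^ 2 + ((Fintype.card S : ℂ) - 1)) := by
    unfold classInner
    rw [Nat.card_eq_fintype_card]
    congr 1
    rw [← Finset.add_sum_erase Finset.univ _ (Finset.mem_univ (1 : S))]
    congr 1
    · rw [hψ1, Complex.conj_natCast]
      ring
    · rw [Finset.sum_congr rfl (g := fun _ => (1 : ℂ))]
      · rw [Finset.sum_const, Finset.card_erase_of_mem (Finset.mem_univ _), Finset.card_univ,
          nsmul_eq_mul, mul_one, Nat.cast_sub Fintype.card_pos, Nat.cast_one]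
      · intro y hy
        have hy1 := Finset.ne_of_mem_erase hy
        rcases h1 y hy1 with h | h
        · rw [hψy, h]
          simp
        · rw [hψy, h]
          simp
  have hvar : (Fintype.card (IrrCharacter S) : ℤ) * ∑ l, (a l : ℤ) ^ 2 - (∑ l, (a l : ℤ)) ^ 2 =
      (Fintype.card (IrrCharacter S) : ℤ) - 1 := by
    rw [hcard]
    have h3 : (Fintype.card S : ℂ) * ((∑ l, a l ^ 2 : ℕ) : ℂ) =
        ((∑ l, a l : ℕ) : ℂ) ^ 2 + ((Fintype.card S : ℂ) - 1) := by
      rw [← hn1, hn2]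
      field_simp
    have h4 : (((Fintype.card S : ℤ) * ∑ l, (a l : ℤ) ^ 2 - (∑ l, (a l : ℤ)) ^ 2 : ℤ) : ℂ) =
        (((Fintype.card S : ℤ) - 1 : ℤ) : ℂ) := by
      push_cast
      push_cast at h3
      linear_combination h3
    exact_mod_cast h4
  obtain ⟨μ, m, ε, hε, hm, hμ⟩ := fpf_var_eq (fun l => (a l : ℤ)) hvar (by rw [hcard]; exact hn)
  have ha : ∀ l, (a l : ℂ) = (m : ℂ) + if l = μ then (ε : ℂ) else 0 := by
    intro l
    by_cases h : l = μ
    · rw [if_pos h, h]
      exact_mod_cast hμ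
    · rw [if_neg h, add_zero]
      exact_mod_cast hm l h
  refine ⟨μ, ε, hε, ?_, ?_⟩
  · intro x hx
    have hreg := Helper80.irr_sum_degree_mul_of_ne_one hx
    simp only [hone, one_mul] at hreg
    calc ∑ l : IrrCharacter S, (a l : ℂ) * (l : S → ℂ) x
        = ∑ l : IrrCharacter S, ((m : ℂ) * (l : S → ℂ) x +
            (if l = μ then (ε : ℂ) else 0) * (l : S → ℂ) x) := by
          apply Finset.sum_congr rfl
          intro l _
          rw [ha l]
          ring
      _ = (m : ℂ) * ∑ l : IrrCharacter S, (l : S → ℂ) x +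
            ∑ l : IrrCharacter S, (if l = μ then (ε : ℂ) else 0) * (l : S → ℂ) x := by
          rw [Finset.sum_add_distrib, Finset.mul_sum]
      _ = (ε : ℂ) * (μ : S → ℂ) x := by
          rw [hreg, mul_zero, zero_add]
          simp [ite_mul]
  · obtain ⟨l₁, hl₁⟩ := Fintype.exists_ne_of_one_lt_card (by rw [hcard]; omega) μ
    refine ⟨l₁, hl₁, ?_⟩
    simp only [hone, mul_one]
    rw [Finset.sum_congr rfl (fun l _ => ha l), Finset.sum_add_distrib, Finset.sum_const,
      Finset.card_univ, hcard, ha l₁, if_neg hl₁]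
    simp

end FpfChar

end Cfsg.Agent.Helper74
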