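/-
Helper library of seat helper74 (for S4454): the character-theoretic core.  `Γ = G H`,
`G ∩ H = N`, `Γ / G` abelian of order `a` acting without fixed points on `G / N`;
`θ̂ ∈ Irr(H)` extends the invariant `θ ∈ Irr(N)`, `χ̃ ∈ Irr(Γ)` extends `χ ∈ Irr(G)` and
`θ^G = e χ`.  Then `a ∣ e - 1` or `a ∣ e + 1` (`fr_core`).
-/
import Mathlib
import Cfsg.Agent.Helper74.FR1
import Cfsg.Agent.Helper74.Fpf2
import Cfsg.Agent.Helper74.RelGl2
import Cfsg.Agent.Helper75.InnerLin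
import Cfsg.Agent.Helper79.Quotient

set_option autoImplicit false

namespace Cfsg.Agent.Helper74

open Cfsg

open scoped ComplexConjugate

universe u

section FR2

variable {Γ : Type u} [Group Γ] [Fintype Γ]

theorem fr_sum_ite (G N : Subgroup Γ) [Fintype G] [Fintype N] (hNG : N ≤ G) (c : ℂ)
    [DecidablePred (· ∈ N)] :
    ∑ g : G, (if (g : Γ) ∈ N then c else 0) = (Nat.card N : ℂ) * c := by
  have h1 := Helper75.sum_eq_sum_subgroup G (fun y : Γ => if y ∈ N then c else 0)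
    (fun x hx => if_neg (fun h => hx (hNG h)))
  have h2 := Helper75.sum_eq_sum_subgroup N (fun y : Γ => if y ∈ N then c else 0)
    (fun x hx => if_neg hx)
  rw [← h1, h2, Finset.sum_congr rfl (fun n _ => if_pos n.2), Finset.sum_const,
    Finset.card_univ, nsmul_eq_mul, Nat.card_eq_fintype_card]

theorem fr_ebz_conj (H : Subgroup Γ) (θh : H → ℂ) (hcl : IsClassFunction H θh) (w k : Γ)
    (hk : k ∈ H) : extendByZero H θh (k⁻¹ * w * k) = extendByZero H θh w := by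
  by_cases hw : w ∈ H
  · have hw' : k⁻¹ * w * k ∈ H := H.mul_mem (H.mul_mem (H.inv_mem hk) hw) hk
    rw [Helper3.extendByZero_of_mem H θh hw', Helper3.extendByZero_of_mem H θh hw]
    have h1 := hcl ⟨w, hw⟩ ⟨k⁻¹, H.inv_mem hk⟩
    rw [← h1]
    congr 1
    apply Subtype.ext
    simp
  · have hw' : k⁻¹ * w * k ∉ H := by
      intro h
      apply hw
      have h1 := H.mul_mem (H.mul_mem hk h) (H.inv_mem hk)
      have e : k * (k⁻¹ * w * k) * k⁻¹ = w := by group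
      rwa [e] at h1
    rw [Helper3.extendByZero_of_not_mem H θh hw', Helper3.extendByZero_of_not_mem H θh hw]

theorem fr_ind_eval (G H N : Subgroup Γ) [Fintype G] [Fintype H] [Fintype N]
    (hinf : ∀ y, y ∈ G → y ∈ H → y ∈ N)
    (hNG : N ≤ G) (hNH : N ≤ H) (hsup : ∀ y : Γ, ∃ g ∈ G, ∃ k ∈ H, y = g * k)
    (θh : H → ℂ) (hcl : IsClassFunction H θh) (z : Γ) :
    indFun H θh z = (Nat.card N : ℂ)⁻¹ * ∑ g : G, extendByZero H θh ((g : Γ)⁻¹ * z * g) := by
  have hN0 : (Nat.card N : ℂ) ≠ 0 := by exact_mod_cast Nat.card_pos.ne'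
  have hH0 : (Nat.card H : ℂ) ≠ 0 := by exact_mod_cast Nat.card_pos.ne'
  have hs := fr_sum G H N hinf hNG hNH hsup (fun y => extendByZero H θh (y⁻¹ * z * y)) (by
    intro y k hk
    show extendByZero H θh ((y * k)⁻¹ * z * (y * k)) = extendByZero H θh (y⁻¹ * z * y)
    have e : (y * k)⁻¹ * z * (y * k) = k⁻¹ * (y⁻¹ * z * y) * k := by group
    rw [e, fr_ebz_conj H θh hcl _ k hk])
  have h1 : ∑ y : Γ, extendByZero H θh (y⁻¹ * z * y) =
      (Nat.card N : ℂ)⁻¹ * ((Nat.card H : ℂ) * ∑ g : G, extendByZero H θh ((g : Γ)⁻¹ * z * g)) := by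
    rw [← hs, inv_mul_cancel_left₀ hN0]
  unfold indFun
  rw [h1]
  field_simp

theorem fr_core (G N H : Subgroup Γ) [hG : G.Normal]
    [hN : N.Normal] [Fintype G] [Fintype N] [Fintype H]
    (hNG : N ≤ G) (hNH : N ≤ H) (hinf : ∀ y, y ∈ G → y ∈ H → y ∈ N)
    (hsup : ∀ y : Γ, ∃ g ∈ G, ∃ k ∈ H, y = g * k)
    (hab : ∀ a b : Γ ⧸ G, a * b = b * a)
    (hfrob : ∀ x : Γ, x ∉ G → ∀ g : Γ, g ∈ G → x * g * x⁻¹ * g⁻¹ ∈ N → g ∈ N)
    (a : ℕ) (ha : G.index = a) (ha2 : 2 ≤ a) (hcardH : Nat.card H = a * Nat.card N)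
    (θh : H → ℂ) (hθh : IsIrrCharacter H θh)
    (hθN : IsIrrCharacter N (fun n : N => θh ⟨n, hNH n.2⟩))
    (hθinv : ∀ (x : Γ) (n : N),
      θh ⟨x * n * x⁻¹, hNH (hN.conj_mem n n.2 x)⟩ = θh ⟨n, hNH n.2⟩)
    (χt : Γ → ℂ) (hχt : IsIrrCharacter Γ χt) (hχG : IsIrrCharacter G (fun g : G => χt g))
    (e r : ℕ) (her : e ^ 2 = r) (hr : Nat.card G = r * Nat.card N)
    (hram1 : ∀ n : N, (e : ℂ) * χt n = (r : ℂ) * θh ⟨n, hNH n.2⟩)
    (hram2 : ∀ g ∈ G, g ∉ N → χt g = 0) :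
    (a : ℤ) ∣ (e : ℤ) - 1 ∨ (a : ℤ) ∣ (e : ℤ) + 1 := by
  classical
  letI : Fintype (IrrCharacter Γ) := Fintype.ofFinite _
  letI : Fintype (Γ ⧸ G) := Fintype.ofFinite _
  letI : Fintype (IrrCharacter (Γ ⧸ G)) := Fintype.ofFinite _
  have hN0 : (Nat.card N : ℂ) ≠ 0 := by exact_mod_cast Nat.card_pos.ne'
  have hH0 : (Nat.card H : ℂ) ≠ 0 := by exact_mod_cast Nat.card_pos.ne'
  have hG0 : (Nat.card G : ℂ) ≠ 0 := by exact_mod_cast Nat.card_pos.ne'
  have ha0 : (a : ℂ) ≠ 0 := by exact_mod_cast (by omega : a ≠ 0)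
  have hθhc := Helper79.isCharacter_of_irr hθh
  have hθhcl : IsClassFunction H θh := Helper75.isCharacter_isClassFunction' hθhc
  obtain ⟨Θ, hΘdef⟩ : ∃ Θ : Γ → ℂ, Θ = indFun H θh := ⟨_, rfl⟩
  have hΘchar : IsCharacter Γ Θ := by
    rw [hΘdef]; exact Helper3.isCharacter_indFun H θh hθhc
  have hΘcl : IsClassFunction Γ Θ := by
    rw [hΘdef]; exact Helper3.indFun_isClassFunction H θh
  have hev : ∀ z, Θ z =
      (Nat.card N : ℂ)⁻¹ * ∑ g : G, extendByZero H θh ((g : Γ)⁻¹ * z * g) := by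
    intro z
    rw [hΘdef]
    exact fr_ind_eval G H N hinf hNG hNH hsup θh hθhcl z
  -- values on `N`
  have hΘN : ∀ n : N, Θ n = (r : ℂ) * θh ⟨n, hNH n.2⟩ := by
    intro n
    rw [hev]
    have h1 : ∀ g : G, extendByZero H θh ((g : Γ)⁻¹ * n * g) = θh ⟨n, hNH n.2⟩ := by
      intro g
      have h2 := hθinv (g : Γ)⁻¹ n
      have hmem : (g : Γ)⁻¹ * n * g ∈ H := by
        have := hNH (hN.conj_mem n n.2 (g : Γ)⁻¹)
        rwa [inv_inv] at this
      rw [Helper3.extendByZero_of_mem H θh hmem, ← h2]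
      congr 1
      apply Subtype.ext
      simp
    rw [Finset.sum_congr rfl (fun g _ => h1 g), Finset.sum_const, Finset.card_univ, nsmul_eq_mul,
      ← Nat.card_eq_fintype_card, hr]
    push_cast
    field_simp
  have hΘG : ∀ g₀ ∈ G, Θ g₀ = (e : ℂ) * χt g₀ := by
    intro g₀ hg₀
    by_cases hg₀N : g₀ ∈ N
    · exact (hΘN ⟨g₀, hg₀N⟩).trans (hram1 ⟨g₀, hg₀N⟩).symm
    · rw [hram2 g₀ hg₀ hg₀N, mul_zero, hev]
      have h1 : ∀ g : G, extendByZero H θh ((g : Γ)⁻¹ * g₀ * g) = 0 := by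
        intro g
        apply Helper3.extendByZero_of_not_mem
        intro hmem
        apply hg₀N
        have hG' : (g : Γ)⁻¹ * g₀ * g ∈ G := G.mul_mem (G.mul_mem (G.inv_mem g.2) hg₀) g.2
        have hN' := hinf _ hG' hmem
        have h2 := hN.conj_mem _ hN' (g : Γ)
        have e : (g : Γ) * ((g : Γ)⁻¹ * g₀ * g) * (g : Γ)⁻¹ = g₀ := by group
        rwa [e] at h2
      rw [Finset.sum_congr rfl (fun g _ => h1 g), Finset.sum_const_zero, mul_zero]
  have hΘH : ∀ h ∈ H, h ∉ N → Θ h = extendByZero H θh h := by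
    intro h hh hhN
    rw [hev]
    have hhG : h ∉ G := fun hG' => hhN (hinf h hG' hh)
    have h1 : ∀ g : G, extendByZero H θh ((g : Γ)⁻¹ * h * g) =
        if (g : Γ) ∈ N then extendByZero H θh h else 0 := by
      intro g
      by_cases hgN : (g : Γ) ∈ N
      · rw [if_pos hgN]
        exact fr_ebz_conj H θh hθhcl h g (hNH hgN)
      · rw [if_neg hgN]
        apply Helper3.extendByZero_of_not_mem
        intro hmem
        apply hgN
        refine hfrob h hhG g g.2 ?_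
        have h2 : (g : Γ)⁻¹ * h * g * h⁻¹ ∈ N := by
          refine hinf _ ?_ (H.mul_mem hmem (H.inv_mem hh))
          have h3 : h * (g : Γ) * h⁻¹ ∈ G := hG.conj_mem _ g.2 h
          have h4 := G.mul_mem (G.inv_mem g.2) h3
          have e : (g : Γ)⁻¹ * (h * g * h⁻¹) = (g : Γ)⁻¹ * h * g * h⁻¹ := by group
          rwa [e] at h4
        have h5 := hN.conj_mem _ h2 (g : Γ)
        have e : (g : Γ) * ((g : Γ)⁻¹ * h * g * h⁻¹) * (g : Γ)⁻¹ = h * g * h⁻¹ * (g : Γ)⁻¹ := by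
          group
        rwa [e] at h5
    rw [Finset.sum_congr rfl (fun g _ => h1 g), fr_sum_ite G N hNG, ← mul_assoc,
      inv_mul_cancel₀ hN0, one_mul]
  -- the norm of `Θ`
  have hfr : classInner Θ Θ = classInner θh (fun h : H => Θ h) := by
    have h1 := Helper3.frobenius_reciprocity H θh Θ hΘcl
    rw [← hΘdef] at h1
    exact h1
  have hval : ∀ h : H, Θ h = θh h + ((r : ℂ) - 1) * (if (h : Γ) ∈ N then θh h else 0) := by
    intro h
    by_cases hhN : (h : Γ) ∈ N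
    · rw [if_pos hhN]
      have h1 : Θ (h : Γ) = (r : ℂ) * θh h := hΘN ⟨h, hhN⟩
      rw [h1]
      ring
    · rw [if_neg hhN, mul_zero, add_zero, hΘH h h.2 hhN, Helper3.extendByZero_coe]
  have hHnorm : ∑ h : H, θh h * conj (θh h) = (Nat.card H : ℂ) := by
    have h1 := Helper15.irr_inner_self hθh
    unfold classInner at h1
    rw [inv_mul_eq_iff_eq_mul₀ hH0, mul_one] at h1
    exact h1
  have hNnorm : ∑ n : N, θh ⟨n, hNH n.2⟩ * conj (θh ⟨n, hNH n.2⟩) = (Nat.card N : ℂ) := by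
    have h1 := Helper15.irr_inner_self hθN
    unfold classInner at h1
    rw [inv_mul_eq_iff_eq_mul₀ hN0, mul_one] at h1
    exact h1
  have hGnorm : ∑ g : G, χt g * conj (χt g) = (Nat.card G : ℂ) := by
    have h1 := Helper15.irr_inner_self hχG
    unfold classInner at h1
    rw [inv_mul_eq_iff_eq_mul₀ hG0, mul_one] at h1
    exact h1
  have hmix : ∑ h : H, (if (h : Γ) ∈ N then θh h * conj (θh h) else 0) = (Nat.card N : ℂ) := by
    have h1 := Helper75.sum_eq_sum_subgroup H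
      (fun y : Γ => if y ∈ N then extendByZero H θh y * conj (extendByZero H θh y) else 0)
      (fun x hx => if_neg (fun h => hx (hNH h)))
    have h2 := Helper75.sum_eq_sum_subgroup N
      (fun y : Γ => if y ∈ N then extendByZero H θh y * conj (extendByZero H θh y) else 0)
      (fun x hx => if_neg hx)
    have h3 : ∑ h : H, (if (h : Γ) ∈ N then θh h * conj (θh h) else 0) =
        ∑ h : H, (fun y : Γ => if y ∈ N then
          extendByZero H θh y * conj (extendByZero H θh y) else 0) h := by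
      apply Finset.sum_congr rfl
      intro h _
      show _ = if (h : Γ) ∈ N then
          extendByZero H θh (h : Γ) * conj (extendByZero H θh (h : Γ)) else 0
      rw [Helper3.extendByZero_coe]
    rw [h3, ← h1, h2, ← hNnorm]
    apply Finset.sum_congr rfl
    intro n _
    show (if (n : Γ) ∈ N then
          extendByZero H θh (n : Γ) * conj (extendByZero H θh (n : Γ)) else 0) = _
    rw [if_pos n.2, Helper3.extendByZero_of_mem H θh (hNH n.2)]
  have hnorm : (a : ℂ) * classInner Θ Θ = (a : ℂ) + (r : ℂ) - 1 := by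
    rw [hfr]
    unfold classInner
    have h1 : ∀ h : H, θh h * conj (Θ h) = θh h * conj (θh h) +
        ((r : ℂ) - 1) * (if (h : Γ) ∈ N then θh h * conj (θh h) else 0) := by
      intro h
      rw [hval h, map_add, map_mul, map_sub, Complex.conj_natCast, map_one]
      by_cases hhN : (h : Γ) ∈ N
      · rw [if_pos hhN, if_pos hhN]; ring
      · rw [if_neg hhN, if_neg hhN, map_zero]; ring
    rw [Finset.sum_congr rfl (fun h _ => h1 h), Finset.sum_add_distrib, ← Finset.mul_sum, hHnorm,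
      hmix, hcardH]
    push_cast
    field_simp
    ring
  -- the characters of `Γ / G`
  have hβ1 : ∀ β : IrrCharacter (Γ ⧸ G), (β : Γ ⧸ G → ℂ) 1 = 1 := fun β => fpf_irr_one hab β
  obtain ⟨βt, hβt⟩ : ∃ βt : IrrCharacter (Γ ⧸ G) → Γ → ℂ,
      βt = fun (β : IrrCharacter (Γ ⧸ G)) (γ : Γ) => (β : Γ ⧸ G → ℂ) (γ : Γ ⧸ G) :=
    ⟨_, rfl⟩
  have hβtirr : ∀ β, IsIrrCharacter Γ (βt β) := by
    intro β
    rw [hβt]
    exact Helper79.isIrrCharacter_comp (QuotientGroup.mk' G) (QuotientGroup.mk'_surjective G) β.2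
  have hβtG : ∀ β, ∀ y ∈ G, βt β y = βt β 1 := by
    intro β y hy
    rw [hβt]
    show (β : Γ ⧸ G → ℂ) (y : Γ ⧸ G) = (β : Γ ⧸ G → ℂ) ((1 : Γ) : Γ ⧸ G)
    rw [(QuotientGroup.eq_one_iff y).mpr hy, QuotientGroup.mk_one]
  have hcardQ : (Fintype.card (Γ ⧸ G) : ℂ) = a := by
    rw [← ha, Subgroup.index_eq_card, Nat.card_eq_fintype_card]
  have hβtsum : ∀ γ : Γ, ∑ β : IrrCharacter (Γ ⧸ G), βt β γ = if γ ∈ G then (a : ℂ) else 0 := by
    intro γ
    have h1 := Helper80.irr_sum_degree_mul (γ : Γ ⧸ G)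
    simp only [hβ1, one_mul] at h1
    rw [hβt]
    show ∑ β : IrrCharacter (Γ ⧸ G), (β : Γ ⧸ G → ℂ) (γ : Γ ⧸ G) = _
    rw [h1]
    by_cases hγ : γ ∈ G
    · rw [if_pos hγ, if_pos ((QuotientGroup.eq_one_iff γ).mpr hγ), hcardQ]
    · rw [if_neg hγ, if_neg (fun h => hγ ((QuotientGroup.eq_one_iff γ).mp h))]
  have hΨirr : ∀ β, IsIrrCharacter Γ (βt β * χt) := fun β =>
    rg_gallagher_irr G hχt hχG (hβtirr β) (hβtG β)
  obtain ⟨Ψ, hΨ⟩ : ∃ Ψ : IrrCharacter (Γ ⧸ G) → IrrCharacter Γ,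
      ∀ β, (Ψ β : Γ → ℂ) = βt β * χt := ⟨fun β => ⟨_, hΨirr β⟩, fun β => rfl⟩
  have hΨinj : Function.Injective Ψ := by
    intro β γ h
    have h1 : βt β * χt = βt γ * χt := by rw [← hΨ β, ← hΨ γ, h]
    have h2 := rg_gallagher_inj G hχt hχG (hβtirr β) (hβtG β) (hβtirr γ) (hβtG γ) h1
    apply Subtype.ext
    funext q
    obtain ⟨y, rfl⟩ := QuotientGroup.mk_surjective q
    have h3 := congrFun h2 y
    rw [hβt] at h3
    exact h3
  have hΨsum : ∀ γ : Γ, ∑ β, (Ψ β : Γ → ℂ) γ = (if γ ∈ G then (a : ℂ) else 0) * χt γ := by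
    intro γ
    rw [← hβtsum γ, Finset.sum_mul]
    apply Finset.sum_congr rfl
    intro β _
    rw [hΨ β]
    rfl
  obtain ⟨m, hm⟩ := Helper75.exists_nat_mult hΘchar
  have hΓ : (Nat.card Γ : ℂ) = (a : ℂ) * (Nat.card G : ℂ) := by
    have h1 := Subgroup.card_mul_index G
    rw [ha] at h1
    rw [← h1]
    push_cast
    ring
  have hsum1 : ∑ β, (m (Ψ β) : ℂ) = (e : ℂ) := by
    have h1 : ∑ β, (m (Ψ β) : ℂ) = classInner Θ (∑ β, (Ψ β : Γ → ℂ)) := by
      rw [Helper15.classInner_sum_right]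
      exact Finset.sum_congr rfl (fun β _ => (hm (Ψ β)).symm)
    rw [h1]
    unfold classInner
    have h2 : ∀ γ : Γ, Θ γ * conj ((∑ β, (Ψ β : Γ → ℂ)) γ) =
        if γ ∈ G then (a : ℂ) * ((e : ℂ) * (χt γ * conj (χt γ))) else 0 := by
      intro γ
      rw [Finset.sum_apply, hΨsum γ]
      by_cases hγ : γ ∈ G
      · rw [if_pos hγ, if_pos hγ, hΘG γ hγ, map_mul, Complex.conj_natCast]; ring
      · rw [if_neg hγ, if_neg hγ, zero_mul, map_zero, mul_zero]
    rw [Finset.sum_congr rfl (fun γ _ => h2 γ),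
      Helper75.sum_eq_sum_subgroup G _ (fun x hx => if_neg hx)]
    have h3 : ∀ g : G, (if (g : Γ) ∈ G then (a : ℂ) * ((e : ℂ) * (χt g * conj (χt g))) else 0) =
        (a : ℂ) * (e : ℂ) * (χt g * conj (χt g)) := by
      intro g
      rw [if_pos g.2]
      ring
    rw [Finset.sum_congr rfl (fun g _ => h3 g), ← Finset.mul_sum, hGnorm, hΓ]
    field_simp
  have hvan : ∀ ψ : IrrCharacter Γ, (∀ β, Ψ β ≠ ψ) → m ψ = 0 := by
    intro ψ hψ
    have hψc := Helper79.isCharacter_of_irr ψ.2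
    have hk : ∀ β : IrrCharacter (Γ ⧸ G), ∃ k : ℕ,
        classInner (Θ * βt β) (ψ : Γ → ℂ) = (k : ℂ) := fun β =>
      Helper3.classInner_isCharacter_nat
        (Helper79.isCharacter_mul hΘchar (Helper79.isCharacter_of_irr (hβtirr β))) hψc
    choose k hk using hk
    have h1 : ∑ β, (k β : ℂ) = 0 := by
      have h2 : ∑ β, (k β : ℂ) = classInner (∑ β, Θ * βt β) (ψ : Γ → ℂ) := by
        rw [Helper15.classInner_sum_left]
        exact Finset.sum_congr rfl (fun β _ => (hk β).symm)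
      have h3 : (∑ β, Θ * βt β) = (e : ℂ) • ∑ β, (Ψ β : Γ → ℂ) := by
        funext γ
        rw [Finset.sum_apply, Pi.smul_apply, Finset.sum_apply, hΨsum γ, smul_eq_mul]
        simp only [Pi.mul_apply]
        rw [← Finset.mul_sum, hβtsum γ]
        by_cases hγ : γ ∈ G
        · rw [if_pos hγ, hΘG γ hγ]; ring
        · rw [if_neg hγ]; ring
      rw [h2, h3, Helper15.classInner_smul_left, Helper15.classInner_sum_left]
      have h4 : ∀ β, classInner (Ψ β : Γ → ℂ) (ψ : Γ → ℂ) = 0 := by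
        intro β
        rw [Helper15.irr_inner, if_neg (hψ β)]
      rw [Finset.sum_congr rfl (fun β _ => h4 β), Finset.sum_const_zero, mul_zero]
    have h5 : ∑ β, k β = 0 := by exact_mod_cast h1
    have h6 := Finset.sum_eq_zero_iff.mp h5
    obtain ⟨β₁, hβ₁⟩ : ∃ β₁ : IrrCharacter (Γ ⧸ G), (β₁ : Γ ⧸ G → ℂ) = fun _ => 1 :=
      ⟨⟨_, Helper79.isIrrCharacter_one⟩, rfl⟩
    have h7 : Θ * βt β₁ = Θ := by
      funext γ
      rw [Pi.mul_apply, hβt]
      show Θ γ * (β₁ : Γ ⧸ G → ℂ) (γ : Γ ⧸ G) = Θ γ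
      rw [hβ₁, mul_one]
    have h8 := hk β₁
    rw [h7, hm ψ, h6 β₁ (Finset.mem_univ _)] at h8
    exact_mod_cast h8
  have hsum2 : ∑ β, ((m (Ψ β) : ℂ)) ^ 2 = classInner Θ Θ := by
    rw [Helper15.classInner_eq_sum (θ := Θ) (θ' := Θ) hΘcl]
    have h1 : ∀ ψ : IrrCharacter Γ, classInner Θ (ψ : Γ → ℂ) * conj (classInner Θ (ψ : Γ → ℂ)) =
        ((m ψ : ℂ)) ^ 2 := by
      intro ψ
      rw [hm ψ, Complex.conj_natCast, sq]
    rw [Finset.sum_congr rfl (fun ψ _ => h1 ψ),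
      ← Finset.sum_image (s := Finset.univ) (g := Ψ) (f := fun ψ => ((m ψ : ℂ)) ^ 2)
        (fun x _ y _ h => hΨinj h)]
    apply Finset.sum_subset (Finset.subset_univ _)
    intro ψ _ hψ
    have h2 : m ψ = 0 :=
      hvan ψ (fun β hβ => hψ (Finset.mem_image.mpr ⟨β, Finset.mem_univ _, hβ⟩))
    rw [h2]
    simp
  -- arithmetic
  have hcardι : Fintype.card (IrrCharacter (Γ ⧸ G)) = a := by
    rw [fpf_card_irr hab, ← ha, Subgroup.index_eq_card, Nat.card_eq_fintype_card]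
  have hZ1 : ∑ β, (m (Ψ β) : ℤ) = (e : ℤ) := by exact_mod_cast hsum1
  have hZ2 : (a : ℤ) * ∑ β, (m (Ψ β) : ℤ) ^ 2 = (a : ℤ) + (r : ℤ) - 1 := by
    have h1 : (a : ℂ) * ∑ β, ((m (Ψ β) : ℂ)) ^ 2 = (a : ℂ) + (r : ℂ) - 1 := by rw [hsum2, hnorm]
    exact_mod_cast h1
  obtain ⟨μ, m₀, ε, hε, hall, hμ⟩ := fpf_var_eq (fun β => (m (Ψ β) : ℤ)) (by
    rw [hcardι, hZ2, hZ1, ← her]
    push_cast
    ring) (by rw [hcardι]; exact ha2)
  have hsumε : ∑ β, (m (Ψ β) : ℤ) = (a : ℤ) * m₀ + ε := by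
    have h1 : ∀ β, (m (Ψ β) : ℤ) = m₀ + if β = μ then ε else 0 := by
      intro β
      by_cases hβ : β = μ
      · rw [if_pos hβ, hβ]
        exact hμ
      · rw [if_neg hβ, add_zero]
        exact hall β hβ
    rw [Finset.sum_congr rfl (fun β _ => h1 β), Finset.sum_add_distrib, Finset.sum_const,
      Finset.card_univ, hcardι, Finset.sum_ite_eq' Finset.univ μ (fun _ => ε)]
    simp
  rw [hZ1] at hsumε
  rcases hε with rfl | rfl
  · left
    exact ⟨m₀, by rw [hsumε]; ring⟩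
  · right
    exact ⟨m₀, by rw [hsumε]; ring⟩

end FR2

end Cfsg.Agent.Helper74
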