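/-
Helper library of seat helper74: coprime cyclic action whose nonidentity elements all have the
same centraliser `C` in `G` (fixed-point-free modulo `C`).  For every `x ∈ S`, `x ≠ 1`, the
function `c ↦ χ̂ (c x)` on `C` (`χ̂` the canonical extension of an invariant irreducible
character) is, up to a sign, an irreducible character of `C`.
-/
import Cfsg.Agent.Helper74.CycMain

set_option autoImplicit false

namespace Cfsg.Agent.Helper74

open Cfsg

open scoped ComplexConjugate

universe u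

section Fpf1

/-- A class function of norm one all of whose multiplicities are integers is, up to a sign, an
irreducible character. -/
theorem fpf_signed_irr {C : Type u} [Group C] [Fintype C] (φ : C → ℂ)
    (hφcl : IsClassFunction C φ) (hnorm1 : classInner φ φ = 1)
    (hint : ∀ β : IrrCharacter C, ∃ m : ℤ, classInner φ (β : C → ℂ) = (m : ℂ)) :
    ∃ (β₀ : IrrCharacter C) (ε : ℤ), (ε = 1 ∨ ε = -1) ∧
      ∀ c : C, φ c = (ε : ℂ) * (β₀ : C → ℂ) c := by
  classical
  letI : Fintype (IrrCharacter C) := Fintype.ofFinite _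
  choose m hm using hint
  have hpars := Cfsg.Agent.Helper15.classInner_eq_sum (θ := φ) (θ' := φ) hφcl
  rw [hnorm1] at hpars
  have hsumZ : ∑ β : IrrCharacter C, m β * m β = 1 := by
    have : ((∑ β : IrrCharacter C, m β * m β : ℤ) : ℂ) = 1 := by
      rw [hpars]
      push_cast
      apply Finset.sum_congr rfl
      intro β _
      rw [hm β]
      simp
    exact_mod_cast this
  obtain ⟨β₀, hβ₀⟩ : ∃ β₀, m β₀ ≠ 0 := by
    by_contra hcon
    push Not at hcon
    simp [hcon] at hsumZ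
  have hsplit := Finset.add_sum_erase Finset.univ (fun β => m β * m β) (Finset.mem_univ β₀)
  rw [hsumZ] at hsplit
  have hge : 1 ≤ m β₀ * m β₀ := by
    rcases lt_or_gt_of_ne hβ₀ with h | h
    · nlinarith
    · nlinarith
  have hrest_nonneg : 0 ≤ ∑ β ∈ Finset.univ.erase β₀, m β * m β :=
    Finset.sum_nonneg (fun β _ => mul_self_nonneg _)
  have h1 : m β₀ * m β₀ = 1 := by linarith
  have hrest : ∑ β ∈ Finset.univ.erase β₀, m β * m β = 0 := by linarith
  have hzero : ∀ β, β ≠ β₀ → m β = 0 := by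
    intro β hβ
    have := (Finset.sum_eq_zero_iff_of_nonneg (fun β _ => mul_self_nonneg (m β))).mp hrest β
      (Finset.mem_erase.mpr ⟨hβ, Finset.mem_univ β⟩)
    exact mul_self_eq_zero.mp this
  have hε : m β₀ = 1 ∨ m β₀ = -1 := by
    have : (m β₀ - 1) * (m β₀ + 1) = 0 := by
      have : (m β₀ - 1) * (m β₀ + 1) = m β₀ * m β₀ - 1 := by ring
      rw [this, h1]
      rfl
    rcases mul_eq_zero.mp this with h | h
    · left; linarith
    · right; linarith
  refine ⟨β₀, m β₀, hε, ?_⟩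
  intro c
  have := congrFun (Cfsg.Agent.Helper15.classFun_eq_sum hφcl) c
  rw [this, Finset.sum_apply, Finset.sum_eq_single β₀]
  · rw [Pi.smul_apply, smul_eq_mul, hm]
  · intro β _ hβ
    rw [Pi.smul_apply, hm, hzero β hβ]
    simp
  · intro h
    exact absurd (Finset.mem_univ _) h

variable {Γ : Type u} [Group Γ] [Fintype Γ]

/-- The canonical extension takes the same values on `c x` and `c x^k`, `k` prime to `|S|`, for
every `x ∈ S` commuting with `c ∈ G`. -/
theorem fpf_canonical_coset_pow (G S : Subgroup Γ)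
    (hnorm : ∀ s ∈ S, ∀ g ∈ G, s * g * s⁻¹ ∈ G)
    (hcop : (Nat.card G).Coprime (Nat.card S)) (htop : G ⊔ S = ⊤) {x : Γ}
    (hx : x ∈ S) {χh : Γ → ℂ} (hχh : IsIrrCharacter Γ χh)
    (hres : IsIrrCharacter G (fun g : G => χh g)) (hdet : (detOrder χh).Coprime (Nat.card S))
    {c : Γ} (hc : c ∈ G) (hcs : Commute c x) (k : ℕ) (hk : k.Coprime (Nat.card S)) :
    χh (c * x ^ k) = χh (c * x) := by
  haveI hG : G.Normal := normal_of_sup_eq_top G S hnorm htop
  have hbot : G ⊓ S = ⊥ := disjoint_iff.mp (Subgroup.disjoint_of_coprime_natCard hcop)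
  have hcompl : G.IsComplement' S := Cfsg.Agent.Helper35.isComplement'_of_normal hbot htop
  have hidx : G.index = Nat.card S := hcompl.symm.index_eq_card
  have hcard : Nat.card G * Nat.card S = Nat.card Γ := hcompl.card_mul_card
  have hord : orderOf x ∣ Nat.card S := Subgroup.orderOf_dvd_natCard S hx
  obtain ⟨m, hm1, hmk⟩ := Nat.chineseRemainder hcop 1 k
  have hmG : (m : ℕ).Coprime (Nat.card G) := by
    have := hm1.gcd_eq
    unfold Nat.Coprime
    rw [this]
    exact Nat.gcd_one_left _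
  have hmS : (m : ℕ).Coprime (Nat.card S) := by
    have := hmk.gcd_eq
    unfold Nat.Coprime
    rw [this]
    exact hk
  have hmΓ : (m : ℕ).Coprime (Nat.card Γ) := by
    rw [← hcard]
    exact Nat.Coprime.mul_right hmG hmS
  have h1 := canonical_pow_eq G (by rw [hidx]; exact hcop) χh hχh hres
    (by rw [hidx]; exact hdet) m hmΓ hm1 (c * x)
  have hcm : c ^ (m : ℕ) = c := by
    have h3 : orderOf c ∣ Nat.card G := Subgroup.orderOf_dvd_natCard G hc
    have : c ^ (m : ℕ) = c ^ 1 := pow_eq_pow_iff_modEq.mpr (hm1.of_dvd h3)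
    rw [this, pow_one]
  have hsm : x ^ (m : ℕ) = x ^ k := pow_eq_pow_iff_modEq.mpr (hmk.of_dvd hord)
  rw [hcs.mul_pow, hcm, hsm] at h1
  exact h1

/-- For `x ∈ S`, `x ≠ 1`, whose centraliser in `G` is `C`: `c ↦ χ̂ (c x)` is `±` an irreducible
character of `C`. -/
theorem fpf_coset_signed (G S C : Subgroup Γ) [Fintype G] [Fintype C]
    (hnorm : ∀ s ∈ S, ∀ g ∈ G, s * g * s⁻¹ ∈ G) (hcop : (Nat.card G).Coprime (Nat.card S))
    (htop : G ⊔ S = ⊤) (hSc : ∀ a b : S, a * b = b * a)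
    (hC : C = G ⊓ Subgroup.centralizer (S : Set Γ)) (hCG : C ≤ G)
    {χh : Γ → ℂ} (hχh : IsIrrCharacter Γ χh) (hres : IsIrrCharacter G (fun g : G => χh g))
    (hdet : (detOrder χh).Coprime (Nat.card S)) (x : S)
    (hx : G ⊓ Subgroup.centralizer ({(x : Γ)} : Set Γ) = C) :
    ∃ (β₀ : IrrCharacter C) (ε : ℤ), (ε = 1 ∨ ε = -1) ∧
      ∀ c : C, χh ((c : Γ) * (x : Γ)) = (ε : ℂ) * (β₀ : C → ℂ) c := by
  classical
  letI : Fintype S := Fintype.ofFinite S
  have hχc : IsCharacter Γ χh := Helper79.isCharacter_of_irr hχh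
  have hCS : ∀ c ∈ C, ∀ y ∈ S, c * y = y * c := by
    intro c hc y hy
    have : c ∈ G ⊓ Subgroup.centralizer (S : Set Γ) := hC ▸ hc
    exact ((Subgroup.mem_centralizer_iff.mp this.2) y hy).symm
  have hgen : ∀ k : ℕ, k.Coprime (Nat.card S) → ∀ c : C,
      χh ((c : Γ) * ((x ^ k : S) : Γ)) = χh ((c : Γ) * (x : Γ)) := by
    intro k hk c
    have hcG : (c : Γ) ∈ G := hCG c.2
    have hcs : Commute (c : Γ) (x : Γ) := hCS c c.2 x x.2
    rw [Subgroup.coe_pow]
    exact fpf_canonical_coset_pow G S hnorm hcop htop x.2 hχh hres hdet hcG hcs k hk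
  have hint : ∀ β : IrrCharacter C, ∃ m : ℤ,
      classInner (fun c : C => χh ((c : Γ) * (x : Γ))) (β : C → ℂ) = (m : ℂ) :=
    fun β => coset_inner_int C S hCS hSc hχc β x hgen
  set φ : C → ℂ := fun c : C => χh ((c : Γ) * (x : Γ)) with hφ
  have hφcl : IsClassFunction C φ := by
    intro c u
    change χh (((u * c * u⁻¹ : C) : Γ) * (x : Γ)) = χh ((c : Γ) * (x : Γ))
    have hus := hCS u u.2 x x.2
    have e : ((u * c * u⁻¹ : C) : Γ) * (x : Γ) =
        (u : Γ) * ((c : Γ) * (x : Γ)) * (u : Γ)⁻¹ := by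
      have h' : (u : Γ)⁻¹ * (x : Γ) = (x : Γ) * (u : Γ)⁻¹ := by
        calc (u : Γ)⁻¹ * (x : Γ) = (u : Γ)⁻¹ * ((x : Γ) * (u : Γ)) * (u : Γ)⁻¹ := by group
          _ = (u : Γ)⁻¹ * ((u : Γ) * (x : Γ)) * (u : Γ)⁻¹ := by rw [hus]
          _ = (x : Γ) * (u : Γ)⁻¹ := by group
      change (u : Γ) * (c : Γ) * (u : Γ)⁻¹ * (x : Γ) = _
      rw [mul_assoc ((u : Γ) * (c : Γ)), h']
      group
    rw [e]
    exact Helper79.isCharacter_isClassFunction hχc _ _
  have hle : Subgroup.zpowers (x : Γ) ≤ S := by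
    rw [Subgroup.zpowers_le]
    exact x.2
  have hnorm' : ∀ s ∈ Subgroup.zpowers (x : Γ), ∀ g ∈ G, s * g * s⁻¹ ∈ G :=
    fun s hs => hnorm s (hle hs)
  have hcop' : (Nat.card G).Coprime (Nat.card (Subgroup.zpowers (x : Γ))) :=
    Nat.Coprime.coprime_dvd_right (Subgroup.card_dvd_of_le hle) hcop
  have hC' : C = G ⊓ Subgroup.centralizer ((Subgroup.zpowers (x : Γ) : Subgroup Γ) : Set Γ) := by
    rw [← hx]
    ext g
    rw [Subgroup.mem_inf, Subgroup.mem_inf, mem_centralizer_zpowers_iff rfl,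
      Subgroup.mem_centralizer_iff]
    constructor
    · rintro ⟨h1, h2⟩
      exact ⟨h1, h2 _ rfl⟩
    · rintro ⟨h1, h2⟩
      refine ⟨h1, ?_⟩
      intro y hy
      rw [Set.mem_singleton_iff] at hy
      rw [hy]
      exact h2
  have hnorm1 : classInner φ φ = 1 :=
    classInner_coset_self G (Subgroup.zpowers (x : Γ)) C hnorm' hcop' hC' hCG rfl hχc hres
  exact fpf_signed_irr φ hφcl hnorm1 hint

end Fpf1

end Cfsg.Agent.Helper74
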