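/-
Helper library of seat helper74: coprime cyclic action `Γ = G S` all of whose nonidentity
elements `x ∈ S` have the same centraliser `C` in `G`.  If `χ̂ ∈ Irr(Γ)` is the canonical extension
of an `S`-invariant `χ ∈ Irr(G)` and `χ̂ (c s) = ε₀ β (c)` on the generators `s` of `S`, then
`χ̂ (c x) = ε β (c) μ (x)` for all `x ≠ 1` in `S` (`ε = ±1`, `μ ∈ Irr(S)`, `μ² = 1`) and
`χ̂|_C = |S| ϑ + ε β` with `ϑ` a character of `C` or zero.
-/
import Cfsg.Agent.Helper74.Fpf1
import Cfsg.Agent.Helper74.Fpf2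

set_option autoImplicit false

namespace Cfsg.Agent.Helper74

open Cfsg

open scoped ComplexConjugate

universe u

section Fpf3

variable {Γ : Type u} [Group Γ] [Fintype Γ]

theorem fpf_main (G S : Subgroup Γ) [Fintype G]
    (hnorm : ∀ s ∈ S, ∀ g ∈ G, s * g * s⁻¹ ∈ G) (hcop : (Nat.card G).Coprime (Nat.card S))
    (htop : G ⊔ S = ⊤) (hcyc : IsCyclic S) (C : Subgroup Γ) [Fintype C]
    (hC : C = G ⊓ Subgroup.centralizer (S : Set Γ)) (hCG : C ≤ G)
    (hfpf : ∀ x ∈ S, x ≠ 1 → G ⊓ Subgroup.centralizer ({x} : Set Γ) = C)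
    {χh : Γ → ℂ} (hχh : IsIrrCharacter Γ χh) (hres : IsIrrCharacter G (fun g : G => χh g))
    (hdet : (detOrder χh).Coprime (Nat.card S)) (β : IrrCharacter C) (ε₀ : ℤ)
    (hε₀ : ε₀ = 1 ∨ ε₀ = -1)
    (hβ : ∀ c : C, ∀ s : Γ, Subgroup.zpowers s = S →
      χh ((c : Γ) * s) = (ε₀ : ℂ) * (β : C → ℂ) c) :
    ∃ ε : ℤ, (ε = 1 ∨ ε = -1) ∧
      (∃ μ : S → ℂ, IsCharacter S μ ∧ μ 1 = 1 ∧ (∀ x : S, μ x * μ x = 1) ∧
        ∀ c : C, ∀ x : S, x ≠ 1 → χh ((c : Γ) * x) = (ε : ℂ) * (β : C → ℂ) c * μ x) ∧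
      (∃ ϑ : C → ℂ, IsCharacter C ϑ ∧
        ∀ c : C, χh (c : Γ) = (Nat.card S : ℂ) * ϑ c + (ε : ℂ) * (β : C → ℂ) c) := by
  classical
  letI : Fintype S := Fintype.ofFinite S
  letI : Fintype (IrrCharacter C) := Fintype.ofFinite _
  letI : Fintype (IrrCharacter S) := Fintype.ofFinite _
  have hχc : IsCharacter Γ χh := Helper79.isCharacter_of_irr hχh
  obtain ⟨s₀, hs₀⟩ := hcyc.exists_generator
  have hs : Subgroup.zpowers (s₀ : Γ) = S := zpowers_coe_eq S s₀ hs₀
  have hCS : ∀ c ∈ C, ∀ x ∈ S, c * x = x * c := by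
    intro c hc x hx
    have : c ∈ G ⊓ Subgroup.centralizer (S : Set Γ) := hC ▸ hc
    exact ((Subgroup.mem_centralizer_iff.mp this.2) x hx).symm
  have hSc : ∀ a b : S, a * b = b * a := by
    intro a b
    obtain ⟨i, hi⟩ := Subgroup.mem_zpowers_iff.mp (hs₀ a)
    obtain ⟨j, hj⟩ := Subgroup.mem_zpowers_iff.mp (hs₀ b)
    rw [← hi, ← hj]
    exact zpow_mul_comm s₀ i j
  by_cases hn : Nat.card S = 1
  · have hsub : ∀ x : S, x = 1 := by
      haveI : Subsingleton S := (Nat.card_eq_one_iff_unique.mp hn).1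
      intro x
      exact Subsingleton.elim _ _
    refine ⟨ε₀, hε₀, ⟨fun _ => 1,
      Helper79.isCharacter_of_irr Helper80.trivial_isIrrCharacter, rfl, fun _ => mul_one 1,
      fun c x hx => absurd (hsub x) hx⟩, ⟨0, Helper79.isCharacter_zero, ?_⟩⟩
    intro c
    have := hβ c (s₀ : Γ) hs
    rw [hsub s₀, Subgroup.coe_one, mul_one] at this
    rw [this]
    simp
  · have hn2 : 2 ≤ Fintype.card S := by
      have : 0 < Nat.card S := Nat.card_pos
      rw [Nat.card_eq_fintype_card] at hn this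
      omega
    have hF : ∀ β' : IrrCharacter C, ∃ a : IrrCharacter S → ℕ, ∀ y : S,
        classInner (fun c : C => χh ((c : Γ) * (y : Γ))) (β' : C → ℂ) =
          ∑ l : IrrCharacter S, (a l : ℂ) * (l : S → ℂ) y :=
      fun β' => exists_fourier C S hCS hSc hχc β'
    choose a ha using hF
    have hsg : ∀ x : S, x ≠ 1 → ∃ (β₀ : IrrCharacter C) (ε : ℤ), (ε = 1 ∨ ε = -1) ∧
        ∀ c : C, χh ((c : Γ) * (x : Γ)) = (ε : ℂ) * (β₀ : C → ℂ) c := by
      intro x hx
      exact fpf_coset_signed G S C hnorm hcop htop hSc hC hCG hχh hres hdet x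
        (hfpf x x.2 (by
          intro h
          apply hx
          exact Subtype.ext h))
    have hval : ∀ (x : S) (β₀ : IrrCharacter C) (ε : ℤ),
        (∀ c : C, χh ((c : Γ) * (x : Γ)) = (ε : ℂ) * (β₀ : C → ℂ) c) →
        ∀ β' : IrrCharacter C, ∑ l : IrrCharacter S, (a β' l : ℂ) * (l : S → ℂ) x =
          if β₀ = β' then (ε : ℂ) else 0 := by
      intro x β₀ ε h β'
      rw [← ha β' x]
      have : (fun c : C => χh ((c : Γ) * (x : Γ))) = (ε : ℂ) • (β₀ : C → ℂ) := by
        funext c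
        rw [h c]
        rfl
      rw [this, Helper15.classInner_smul_left, Helper15.irr_inner]
      split_ifs <;> simp
    have hψchar : IsCharacter S
        (fun y : S => ∑ l : IrrCharacter S, (a β l : ℂ) * (l : S → ℂ) y) := by
      have : (fun y : S => ∑ l : IrrCharacter S, (a β l : ℂ) * (l : S → ℂ) y) =
          ∑ l : IrrCharacter S, (a β l) • (l : S → ℂ) := by
        funext y
        rw [Finset.sum_apply]
        apply Finset.sum_congr rfl
        intro l _
        simp [nsmul_eq_mul]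
      rw [this]
      exact Helper79.isCharacter_sum _ _
        (fun l _ => Helper79.isCharacter_nsmul (Helper79.irr_isCharacter l) _)
    have h01 : ∀ y : S, y ≠ 1 →
        ((fun y : S => ∑ l : IrrCharacter S, (a β l : ℂ) * (l : S → ℂ) y) y = 0 ∨
          (fun y : S => ∑ l : IrrCharacter S, (a β l : ℂ) * (l : S → ℂ) y) y *
            (fun y : S => ∑ l : IrrCharacter S, (a β l : ℂ) * (l : S → ℂ) y) y = 1) := by
      intro y hy
      obtain ⟨β₀, ε, hε, h⟩ := hsg y hy
      change (∑ l : IrrCharacter S, (a β l : ℂ) * (l : S → ℂ) y = 0 ∨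
        (∑ l : IrrCharacter S, (a β l : ℂ) * (l : S → ℂ) y) *
          (∑ l : IrrCharacter S, (a β l : ℂ) * (l : S → ℂ) y) = 1)
      rw [hval y β₀ ε h β]
      by_cases hb : β₀ = β
      · right
        rw [if_pos hb]
        rcases hε with rfl | rfl <;> simp
      · left
        rw [if_neg hb]
    have hgen0 : (fun y : S => ∑ l : IrrCharacter S, (a β l : ℂ) * (l : S → ℂ) y) s₀ ≠ 0 := by
      change ∑ l : IrrCharacter S, (a β l : ℂ) * (l : S → ℂ) s₀ ≠ 0
      rw [hval s₀ β ε₀ (fun c => hβ c s₀ hs) β, if_pos rfl]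
      rcases hε₀ with rfl | rfl <;> simp
    have hnv : ∀ x : S, x ≠ 1 → ∑ l : IrrCharacter S, (a β l : ℂ) * (l : S → ℂ) x ≠ 0 := by
      intro x hx
      have hxm : x ∈ Submonoid.powers s₀ :=
        (isOfFinOrder_of_finite s₀).mem_powers_iff_mem_zpowers.mpr (hs₀ x)
      obtain ⟨m, rfl⟩ := (Submonoid.mem_powers_iff _ _).mp hxm
      exact fpf_nonvanish hψchar h01 m s₀ hgen0 hx
    have hsg' : ∀ x : S, x ≠ 1 → ∃ ε : ℤ, (ε = 1 ∨ ε = -1) ∧
        ∀ c : C, χh ((c : Γ) * (x : Γ)) = (ε : ℂ) * (β : C → ℂ) c := by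
      intro x hx
      obtain ⟨β₀, ε, hε, h⟩ := hsg x hx
      have h2 := hnv x hx
      rw [hval x β₀ ε h β] at h2
      have hb : β₀ = β := by
        by_contra hb
        rw [if_neg hb] at h2
        exact h2 rfl
      rw [hb] at h
      exact ⟨ε, hε, h⟩
    have hpm : ∀ x : S, x ≠ 1 → (∑ l : IrrCharacter S, (a β l : ℂ) * (l : S → ℂ) x = 1 ∨
        ∑ l : IrrCharacter S, (a β l : ℂ) * (l : S → ℂ) x = -1) := by
      intro x hx
      obtain ⟨ε, hε, h⟩ := hsg' x hx
      rw [hval x β ε h β, if_pos rfl]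
      rcases hε with rfl | rfl
      · left
        simp
      · right
        simp
    obtain ⟨μ, ε, hε, hμ, l₁, hl₁, hdeg⟩ := fpf_arith hSc (a β) hpm hn2
    have hεsq : (ε : ℂ) * (ε : ℂ) = 1 := by rcases hε with rfl | rfl <;> simp
    refine ⟨ε, hε, ⟨(μ : S → ℂ), Helper79.irr_isCharacter μ, fpf_irr_one hSc μ, ?_, ?_⟩, ?_⟩
    · intro x
      by_cases hx : x = 1
      · rw [hx, fpf_irr_one hSc μ, mul_one]
      · have h1 := hμ x hx
        have hμx : (μ : S → ℂ) x = (ε : ℂ) * ((ε : ℂ) * (μ : S → ℂ) x) := by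
          rw [← mul_assoc, hεsq, one_mul]
        rcases hpm x hx with h | h
        · rw [h] at h1
          rw [hμx, ← h1, mul_one, hεsq]
        · rw [h] at h1
          rw [hμx, ← h1]
          linear_combination hεsq
    · intro c x hx
      obtain ⟨ε', hε', h⟩ := hsg' x hx
      rw [h c]
      have h1 := hval x β ε' h β
      rw [if_pos rfl, hμ x hx] at h1
      rw [← h1]
      ring
    · refine ⟨∑ β' : IrrCharacter C, (a β' l₁) • (β' : C → ℂ),
        Helper79.isCharacter_sum _ _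
          (fun β' _ => Helper79.isCharacter_nsmul (Helper79.irr_isCharacter β') _), ?_⟩
      have hcl : IsClassFunction C (fun c : C => χh (c : Γ)) :=
        Helper79.isCharacter_isClassFunction (Helper79.isCharacter_restrict hχc C)
      have hexp := Helper15.classFun_eq_sum hcl
      have hco : ∀ β' : IrrCharacter C, classInner (fun c : C => χh (c : Γ)) (β' : C → ℂ) =
          (Fintype.card S : ℂ) * (a β' l₁ : ℂ) + if β' = β then (ε : ℂ) else 0 := by
        intro β'
        have h1 := ha β' 1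
        have h1' : classInner (fun c : C => χh (c : Γ)) (β' : C → ℂ) =
            ∑ l : IrrCharacter S, (a β' l : ℂ) * (l : S → ℂ) 1 := by
          rw [← h1]
          congr 1
          funext c
          rw [Subgroup.coe_one, mul_one]
        rw [h1']
        by_cases hb : β' = β
        · rw [if_pos hb, hb]
          exact hdeg
        · rw [if_neg hb, add_zero]
          apply fpf_vanish hSc (fun l => (a β' l : ℂ))
          intro x hx
          obtain ⟨ε', hε', h⟩ := hsg' x hx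
          rw [hval x β ε' h β', if_neg (Ne.symm hb)]
      intro c
      have h2 := congrFun hexp c
      rw [h2, Finset.sum_apply, Finset.sum_apply, Nat.card_eq_fintype_card]
      simp only [Pi.smul_apply, smul_eq_mul, hco, nsmul_eq_mul, Finset.mul_sum, add_mul,
        Finset.sum_add_distrib, ite_mul, zero_mul, Finset.sum_ite_eq', Finset.mem_univ, if_true]
      congr 1
      apply Finset.sum_congr rfl
      intro β' _
      ring

end Fpf3

end Cfsg.Agent.Helper74
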