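import Mathlib
import Cfsg.Agent.Helper74.BG2
import Cfsg.Agent.Helper22.Fitting
import Cfsg.Agent.Helper22.SolvableCore
import Cfsg.Agent.Helper22.Basic
import Cfsg.Agent.Helper80.LinChar

/-!
# Garrison's theorem (Isaacs 12.21): the nilpotent length of a solvable group is at most the number
of its irreducible character degrees
-/

set_option autoImplicit false

namespace Cfsg.Agent.Helper74

open Cfsg

universe u

/-- The set of irreducible character degrees. -/
def garDeg (G : Type u) [Group G] : Set ℕ :=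
  {d | ∃ χ : IrrCharacter G, charDegree (χ : G → ℂ) = d}

theorem gar_deg_finite (G : Type u) [Group G] [Finite G] : (garDeg G).Finite :=
  Set.finite_range (fun χ : IrrCharacter G => charDegree (χ : G → ℂ))

theorem gar_deg_nonempty (G : Type u) [Group G] : (garDeg G).Nonempty :=
  ⟨_, ⟨Helper80.homIrr 1, rfl⟩⟩

/-- Broline–Garrison applied to the inflation of a character of `G / F(G)`. -/
theorem gar_exists_larger {G : Type u} [Group G] [Finite G] [Group.IsSolvable G]
    [hFn : (fittingSubgroup G).Normal] (hF : fittingSubgroup G ≠ ⊤)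
    (ψ₀ : IrrCharacter (G ⧸ fittingSubgroup G)) :
    ∃ ψ : IrrCharacter G,
      charDegree (ψ₀ : G ⧸ fittingSubgroup G → ℂ) < charDegree (ψ : G → ℂ) := by
  have hirr := Helper79.isIrrCharacter_comp (QuotientGroup.mk' (fittingSubgroup G))
    (QuotientGroup.mk'_surjective _) ψ₀.2
  obtain ⟨χ, hχdef⟩ : ∃ χ : IrrCharacter G, χ = ⟨_, hirr⟩ := ⟨_, rfl⟩
  have hχval : ∀ g : G, (χ : G → ℂ) g =
      (ψ₀ : G ⧸ fittingSubgroup G → ℂ) (g : G ⧸ fittingSubgroup G) := by
    intro g; rw [hχdef]; rfl
  have hχc := Helper80.isCharacter_of_irr χ.2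
  obtain ⟨K, hKdef⟩ : ∃ K : Subgroup G, K = Helper79.charKer hχc := ⟨_, rfl⟩
  have hK : ∀ g : G, g ∈ K ↔ (χ : G → ℂ) g = (χ : G → ℂ) 1 := by
    intro g; rw [hKdef]; exact Helper79.mem_charKer hχc g
  haveI hKn : K.Normal := by rw [hKdef]; exact Helper79.charKer_normal hχc
  have hFK : fittingSubgroup G ≤ K := by
    intro g hg
    rw [hK, hχval, hχval, (QuotientGroup.eq_one_iff g).mpr hg]
    rfl
  have hdeg : charDegree (χ : G → ℂ) = charDegree (ψ₀ : G ⧸ fittingSubgroup G → ℂ) := by
    unfold charDegree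
    rw [hχval]
    rfl
  rw [← hdeg]
  by_cases hKF : K = fittingSubgroup G
  · obtain ⟨ψ, hψ, -⟩ := bg_case_b χ K hK hKF inferInstance (by rw [hKF]; exact hF)
    exact ⟨ψ, hψ⟩
  · obtain ⟨ψ, hψ, -⟩ := bg_case_a χ K hK (fun hle => hKF (le_antisymm hle hFK))
    exact ⟨ψ, hψ⟩

/-- `G / F(G)` has fewer character degrees than the solvable group `G ≠ F(G)`. -/
theorem gar_card_lt {G : Type u} [Group G] [Finite G] [Group.IsSolvable G]
    [hFn : (fittingSubgroup G).Normal] (hF : fittingSubgroup G ≠ ⊤) :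
    (garDeg (G ⧸ fittingSubgroup G)).ncard < (garDeg G).ncard := by
  apply Set.ncard_lt_ncard _ (gar_deg_finite G)
  have hsub : garDeg (G ⧸ fittingSubgroup G) ⊆ garDeg G := by
    rintro d ⟨ψ₀, rfl⟩
    have hirr := Helper79.isIrrCharacter_comp (QuotientGroup.mk' (fittingSubgroup G))
      (QuotientGroup.mk'_surjective _) ψ₀.2
    exact ⟨⟨_, hirr⟩, rfl⟩
  refine ⟨hsub, fun hsup => ?_⟩
  obtain ⟨d₀, ⟨ψ₀, hψ₀⟩, hmax⟩ := Set.exists_max_image (garDeg (G ⧸ fittingSubgroup G)) id
    (gar_deg_finite _) (gar_deg_nonempty _)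
  obtain ⟨ψ, hψ⟩ := gar_exists_larger hF ψ₀
  have hmem : charDegree (ψ : G → ℂ) ∈ garDeg (G ⧸ fittingSubgroup G) := hsup ⟨ψ, rfl⟩
  have h1 := hmax _ hmem
  simp only [id] at h1
  rw [← hψ₀] at h1
  omega

/-- Pull back a series along a homomorphism, adding `⊥` at the bottom. -/
def garStep {G : Type u} [Group G] {Q : Type u} [Group Q] (π : G →* Q)
    (N' : ℕ → Subgroup Q) : ℕ → Subgroup G
  | 0 => ⊥
  | j + 1 => (N' j).comap π

/-- Lifting a nilpotent series of `G / F(G)` to `G`. -/
theorem gar_lift {G : Type u} [Group G] [Finite G] [hFn : (fittingSubgroup G).Normal]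
    (m' : ℕ) (N' : ℕ → Subgroup (G ⧸ fittingSubgroup G)) (h0 : N' 0 = ⊥)
    (htop : ∀ j, m' ≤ j → N' j = ⊤) (hmono : Monotone N') (hnorm : ∀ j, (N' j).Normal)
    (hquot : ∀ j, ∀ h : ((N' j).subgroupOf (N' (j + 1))).Normal,
      Group.IsNilpotent (↥(N' (j + 1)) ⧸ (N' j).subgroupOf (N' (j + 1)))) :
    garStep (QuotientGroup.mk' (fittingSubgroup G)) N' 0 = ⊥ ∧
    (∀ j, m' + 1 ≤ j → garStep (QuotientGroup.mk' (fittingSubgroup G)) N' j = ⊤) ∧
    Monotone (garStep (QuotientGroup.mk' (fittingSubgroup G)) N') ∧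
    (∀ j, (garStep (QuotientGroup.mk' (fittingSubgroup G)) N' j).Normal) ∧
    ∀ j, ∀ h : ((garStep (QuotientGroup.mk' (fittingSubgroup G)) N' j).subgroupOf
        (garStep (QuotientGroup.mk' (fittingSubgroup G)) N' (j + 1))).Normal,
      Group.IsNilpotent (↥(garStep (QuotientGroup.mk' (fittingSubgroup G)) N' (j + 1)) ⧸
        (garStep (QuotientGroup.mk' (fittingSubgroup G)) N' j).subgroupOf
          (garStep (QuotientGroup.mk' (fittingSubgroup G)) N' (j + 1))) := by
  refine ⟨rfl, ?_, ?_, ?_, ?_⟩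
  · intro j hj
    obtain ⟨i, rfl⟩ : ∃ i, j = i + 1 := ⟨j - 1, by omega⟩
    show (N' i).comap (QuotientGroup.mk' (fittingSubgroup G)) = ⊤
    rw [htop i (by omega), Subgroup.comap_top]
  · apply monotone_nat_of_le_succ
    intro j
    cases j with
    | zero => exact bot_le
    | succ i => exact Subgroup.comap_mono (hmono (Nat.le_succ i))
  · intro j
    cases j with
    | zero => exact Subgroup.normal_bot
    | succ i => exact (hnorm i).comap _
  · intro j h
    cases j with
    | zero =>
      have hnil : Group.IsNilpotent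
          ↥(garStep (QuotientGroup.mk' (fittingSubgroup G)) N' (0 + 1)) := by
        show Group.IsNilpotent ↥((N' 0).comap (QuotientGroup.mk' (fittingSubgroup G)))
        rw [h0, MonoidHom.comap_bot, QuotientGroup.ker_mk']
        exact Helper22.fittingSubgroup_isNilpotent G
      haveI := h
      exact Group.nilpotent_quotient_of_nilpotent _
    | succ i =>
      haveI hn' : ((N' i).subgroupOf (N' (i + 1))).Normal := by
        haveI := hnorm i
        infer_instance
      haveI hnil' := hquot i hn'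
      let φ : ↥((N' (i + 1)).comap (QuotientGroup.mk' (fittingSubgroup G))) →*
          ↥(N' (i + 1)) ⧸ (N' i).subgroupOf (N' (i + 1)) :=
        (QuotientGroup.mk' ((N' i).subgroupOf (N' (i + 1)))).comp
          ((QuotientGroup.mk' (fittingSubgroup G)).subgroupComap (N' (i + 1)))
      have hφsurj : Function.Surjective φ :=
        (QuotientGroup.mk'_surjective _).comp
          (MonoidHom.subgroupComap_surjective_of_surjective _ _
            (QuotientGroup.mk'_surjective _))
      have hker : ((N' i).comap (QuotientGroup.mk' (fittingSubgroup G))).subgroupOf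
          ((N' (i + 1)).comap (QuotientGroup.mk' (fittingSubgroup G))) = φ.ker := by
        ext x
        rw [Subgroup.mem_subgroupOf, Subgroup.mem_comap, MonoidHom.mem_ker]
        have h1 : φ x = ((((QuotientGroup.mk' (fittingSubgroup G)).subgroupComap (N' (i + 1))) x :
            ↥(N' (i + 1))) : ↥(N' (i + 1)) ⧸ (N' i).subgroupOf (N' (i + 1))) := rfl
        rw [h1, QuotientGroup.eq_one_iff, Subgroup.mem_subgroupOf]
        rfl
      haveI hh : (((N' i).comap (QuotientGroup.mk' (fittingSubgroup G))).subgroupOf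
          ((N' (i + 1)).comap (QuotientGroup.mk' (fittingSubgroup G)))).Normal := h
      let e1 := QuotientGroup.quotientKerEquivOfSurjective φ hφsurj
      let e2 := QuotientGroup.quotientMulEquivOfEq hker
      exact Group.nilpotent_of_mulEquiv (e2.trans e1).symm

/-- Garrison's theorem, as a series indexed by `ℕ`. -/
theorem gar_series : ∀ (k : ℕ) (G : Type u) [Group G] [Finite G] [Group.IsSolvable G],
    Nat.card G = k →
    ∃ (m : ℕ) (N : ℕ → Subgroup G), m ≤ (garDeg G).ncard ∧ N 0 = ⊥ ∧
      (∀ j, m ≤ j → N j = ⊤) ∧ Monotone N ∧ (∀ j, (N j).Normal) ∧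
      ∀ j, ∀ h : ((N j).subgroupOf (N (j + 1))).Normal,
        Group.IsNilpotent (↥(N (j + 1)) ⧸ (N j).subgroupOf (N (j + 1))) := by
  intro k
  induction k using Nat.strong_induction_on with
  | _ k ih =>
  intro G _ _ _ hk
  haveI hFn : (fittingSubgroup G).Normal := Helper22.fittingSubgroup_normal G
  by_cases hF : fittingSubgroup G = ⊤
  · haveI hsub : Subsingleton (G ⧸ fittingSubgroup G) := by
      constructor
      intro a b
      obtain ⟨x, rfl⟩ := QuotientGroup.mk_surjective a
      obtain ⟨y, rfl⟩ := QuotientGroup.mk_surjective b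
      rw [QuotientGroup.eq, hF]
      exact Subgroup.mem_top _
    obtain ⟨h1, h2, h3, h4, h5⟩ := gar_lift (G := G) 0 (fun _ => ⊥) rfl
      (fun j _ => Subsingleton.elim _ _) (fun a b _ => le_rfl) (fun j => Subgroup.normal_bot)
      (fun j h => inferInstance)
    refine ⟨1, _, ?_, h1, h2, h3, h4, h5⟩
    exact Nat.one_le_iff_ne_zero.mpr
      (Set.ncard_ne_zero_of_mem (gar_deg_nonempty G).some_mem (gar_deg_finite G))
  · have hFbot : fittingSubgroup G ≠ ⊥ := by
      intro hbot
      have h1 := Helper22.centralizer_fittingSubgroup_le_of_isSolvable (G := G)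
      rw [hbot] at h1
      have h2 : Subgroup.centralizer (((⊥ : Subgroup G) : Set G)) = ⊤ := by
        rw [Subgroup.centralizer_eq_top_iff_subset]
        intro x hx
        have hx1 : x = 1 := Subgroup.mem_bot.mp hx
        rw [hx1]
        exact Subgroup.one_mem _
      rw [h2, top_le_iff] at h1
      rw [hbot] at hF
      exact hF h1
    have hlt : Nat.card (G ⧸ fittingSubgroup G) < k := by
      have h1 := Subgroup.card_eq_card_quotient_mul_card_subgroup (fittingSubgroup G)
      rw [hk] at h1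
      have h2 : 0 < Nat.card (G ⧸ fittingSubgroup G) := Nat.card_pos
      have h3 : 1 < Nat.card ↥(fittingSubgroup G) := by
        rw [Subgroup.one_lt_card_iff_ne_bot]
        exact hFbot
      rw [h1]
      nlinarith
    obtain ⟨m', N', hm', h0, htop, hmono, hnorm, hquot⟩ :=
      ih _ hlt (G ⧸ fittingSubgroup G) rfl
    obtain ⟨h1, h2, h3, h4, h5⟩ := gar_lift (G := G) m' N' h0 htop hmono hnorm hquot
    refine ⟨m' + 1, _, ?_, h1, h2, h3, h4, h5⟩
    have := gar_card_lt (G := G) hF
    omega

end Cfsg.Agent.Helper74
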