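import Mathlib
import Cfsg.Prelude.Def_GeometricClasses
import Cfsg.Agent.Helper90.IMDefs
import Cfsg.Agent.Helper83.IMTRANS

/-!
# CALL S5958 piece CARD (helper74): the number of ordered decompositions divides `|GL_n(F)|`
-/

set_option autoImplicit false

namespace Cfsg.Agent.Helper74

open Module Polynomial Cfsg.Agent.Helper90.IM

section
variable {F : Type*} [Field F] [Fintype F]

/-! ## PIECE CARD -/

theorem mdec_card_dvd {n t a : ℕ}
    (hne : Nonempty {D : Fin t → Submodule F (Fin n → F) // Cfsg.Geo.IsMDecomposition a D}) :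
    Nat.card {D : Fin t → Submodule F (Fin n → F) // Cfsg.Geo.IsMDecomposition a D} ∣
      Nat.card (GL (Fin n) F) := by
  classical
  obtain ⟨D₀⟩ := hne
  have hleft : ∀ (g : GL (Fin n) F) (v : Fin n → F),
      Matrix.toLin' ((g⁻¹ : GL (Fin n) F) : Matrix (Fin n) (Fin n) F)
        (Matrix.toLin' (g : Matrix (Fin n) (Fin n) F) v) = v := by
    intro g v
    rw [← LinearMap.comp_apply, ← Matrix.toLin'_mul, ← Units.val_mul, inv_mul_cancel,
      Units.val_one, Matrix.toLin'_one, LinearMap.id_apply]
  have hbij : ∀ g : GL (Fin n) F,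
      Function.Bijective (Matrix.toLin' (g : Matrix (Fin n) (Fin n) F)) := by
    intro g
    refine ⟨Function.LeftInverse.injective (hleft g), ?_⟩
    have h2 := hleft g⁻¹
    rw [inv_inv] at h2
    exact Function.RightInverse.surjective h2
  have hpres : ∀ (g : GL (Fin n) F) (D : Fin t → Submodule F (Fin n → F)),
      Cfsg.Geo.IsMDecomposition a D → Cfsg.Geo.IsMDecomposition a
        (fun j => (D j).map (Matrix.toLin' (g : Matrix (Fin n) (Fin n) F))) := by
    intro g D hD
    refine ⟨hD.two_le, hD.pos, ?_, ?_, ?_⟩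
    · intro i
      rw [← hD.finrank_eq i]
      have h1 := LinearEquiv.finrank_map_eq (LinearEquiv.ofBijective _ (hbij g)) (D i)
      rw [← h1]
      rfl
    · exact hD.indep.map_orderIso (Submodule.orderIsoMapComapOfBijective _ (hbij g))
    · rw [← Submodule.map_iSup, hD.iSup_eq_top, Submodule.map_top, LinearMap.range_eq_top]
      exact (hbij g).2
  letI inst : MulAction (GL (Fin n) F)
      {D : Fin t → Submodule F (Fin n → F) // Cfsg.Geo.IsMDecomposition a D} :=
    { smul := fun g D => ⟨fun j => (D.1 j).map (Matrix.toLin' (g : Matrix (Fin n) (Fin n) F)),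
        hpres g D.1 D.2⟩
      one_smul := by
        intro D
        apply Subtype.ext
        funext j
        show (D.1 j).map (Matrix.toLin' ((1 : GL (Fin n) F) : Matrix (Fin n) (Fin n) F)) = D.1 j
        rw [Units.val_one, Matrix.toLin'_one, Submodule.map_id]
      mul_smul := by
        intro g h D
        apply Subtype.ext
        funext j
        show (D.1 j).map (Matrix.toLin' ((g * h : GL (Fin n) F) : Matrix (Fin n) (Fin n) F))
          = ((D.1 j).map (Matrix.toLin' (h : Matrix (Fin n) (Fin n) F))).map
              (Matrix.toLin' (g : Matrix (Fin n) (Fin n) F))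
        rw [Units.val_mul, Matrix.toLin'_mul, Submodule.map_comp] }
  haveI : MulAction.IsPretransitive (GL (Fin n) F)
      {D : Fin t → Submodule F (Fin n → F) // Cfsg.Geo.IsMDecomposition a D} := by
    refine ⟨fun D D' => ?_⟩
    obtain ⟨g, hg⟩ := Cfsg.Agent.Helper83.mdec_trans D.1 D'.1 D.2 D'.2
    exact ⟨g, Subtype.ext (funext hg)⟩
  rw [← MulAction.index_stabilizer_of_transitive (G := GL (Fin n) F) (x := D₀)]
  exact Subgroup.index_dvd_card _

end

end Cfsg.Agent.Helper74
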