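import Mathlib
import Cfsg.Prelude.Def_GeometricClasses
import Cfsg.Agent.Helper94.Tens
import Cfsg.Agent.Helper97.OForm

/-!
# Piece T2I of helper97's CALL S5871 (helper74)

A tensor decomposition `2 ⊗ n₂` (symmetric ⊗ symmetric, odd characteristic) whose first factor
is a hyperbolic plane: the isometries in the tensor product subgroup permute the two totally
singular subspaces `s_i ⊗ F^{n₂}` attached to the two isotropic lines of the plane.
-/

set_option autoImplicit false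
set_option linter.unusedSectionVars false
set_option linter.unusedVariables false

namespace Cfsg.Agent.Helper74

open Matrix Cfsg Cfsg.Geo Cfsg.Agent.Helper94
open scoped Kronecker

variable {ι : Type} [Fintype ι] [DecidableEq ι] {F : Type*} [Field F]

/-- The isotropic vectors of a hyperbolic plane lie on two lines. -/
theorem t2i_isotropic (h2 : (2 : F) ≠ 0) (f₁ : (Fin 2 → F) → (Fin 2 → F) → F)
    (hf₁ : IsSymmetricForm f₁) (s₀ s₁ : Fin 2 → F) (h00 : f₁ s₀ s₀ = 0) (h11 : f₁ s₁ s₁ = 0)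
    (h01 : f₁ s₀ s₁ ≠ 0) (v : Fin 2 → F) (hv : f₁ v v = 0) :
    (∃ k : F, v = k • s₀) ∨ (∃ k : F, v = k • s₁) := by
  classical
  have hb := hf₁.bilinear
  have h10 : f₁ s₁ s₀ = f₁ s₀ s₁ := hf₁.symm s₁ s₀
  obtain ⟨T, hT⟩ : ∃ T : (Fin 2 → F) →ₗ[F] (Fin 2 → F), ∀ w, T w = ![f₁ w s₀, f₁ w s₁] :=
    ⟨{ toFun := fun w => ![f₁ w s₀, f₁ w s₁]
       map_add' := fun x y => by
         funext i
         fin_cases i <;> simp [hb.add_left]
       map_smul' := fun c x => by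
         funext i
         fin_cases i <;> simp [hb.smul_left] }, fun w => rfl⟩
  have hTsurj : Function.Surjective T := by
    intro u
    refine ⟨(u 0 / f₁ s₀ s₁) • s₁ + (u 1 / f₁ s₀ s₁) • s₀, ?_⟩
    rw [hT]
    funext i
    fin_cases i
    · show f₁ ((u 0 / f₁ s₀ s₁) • s₁ + (u 1 / f₁ s₀ s₁) • s₀) s₀ = u 0
      rw [hb.add_left, hb.smul_left, hb.smul_left, h10, h00]
      field_simp
      ring
    · show f₁ ((u 0 / f₁ s₀ s₁) • s₁ + (u 1 / f₁ s₀ s₁) • s₀) s₁ = u 1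
      rw [hb.add_left, hb.smul_left, hb.smul_left, h11]
      field_simp
      ring
  have hTinj : Function.Injective T := LinearMap.injective_iff_surjective.mpr hTsurj
  obtain ⟨α, hα⟩ : ∃ α : F, α = f₁ v s₁ / f₁ s₀ s₁ := ⟨_, rfl⟩
  obtain ⟨β, hβ⟩ : ∃ β : F, β = f₁ v s₀ / f₁ s₀ s₁ := ⟨_, rfl⟩
  have hvdec : v = α • s₀ + β • s₁ := by
    apply hTinj
    rw [hT, hT]
    have e0 : f₁ v s₀ = f₁ (α • s₀ + β • s₁) s₀ := by
      rw [hb.add_left, hb.smul_left, hb.smul_left, h00, h10, hβ]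
      field_simp
      ring
    have e1 : f₁ v s₁ = f₁ (α • s₀ + β • s₁) s₁ := by
      rw [hb.add_left, hb.smul_left, hb.smul_left, h11, hα]
      field_simp
      ring
    rw [← e0, ← e1]
  have hq : f₁ (α • s₀ + β • s₁) (α • s₀ + β • s₁) = 2 * α * β * f₁ s₀ s₁ := by
    simp only [hb.add_left, hb.add_right, hb.smul_left, hb.smul_right, h00, h11, h10]
    ring
  rw [hvdec, hq] at hv
  have hαβ : α = 0 ∨ β = 0 := by
    rcases mul_eq_zero.mp hv with h | h
    · rcases mul_eq_zero.mp h with h | h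
      · rcases mul_eq_zero.mp h with h | h
        · exact absurd h h2
        · exact Or.inl h
      · exact Or.inr h
    · exact absurd h h01
  rcases hαβ with h | h
  · right
    exact ⟨β, by rw [hvdec, h, zero_smul, zero_add]⟩
  · left
    exact ⟨α, by rw [hvdec, h, zero_smul, add_zero]⟩

/-- **Piece T2I of the S5871 call.** -/
theorem o12p_tensor_two_iso (h2 : (2 : F) ≠ 0) (Q : (ι → F) → F)
    (hQ : IsNondegenerateQuadraticForm Q)
    {n₂ : ℕ} (hn₂ : 0 < n₂) (e : ι ≃ Fin 2 × Fin n₂) (P : GL ι F)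
    (f₁ : (Fin 2 → F) → (Fin 2 → F) → F) (f₂ : (Fin n₂ → F) → (Fin n₂ → F) → F)
    (hf₁ : IsSymmetricForm f₁) (hf₂ : IsSymmetricForm f₂)
    (hT : IsTensorFormStructure id (QuadraticMap.polar Q) f₁ f₂ e P)
    (s₀ : Fin 2 → F) (hs₀ : s₀ ≠ 0) (hiso : f₁ s₀ s₀ = 0) :
    ∃ D : Fin 2 → Submodule F (ι → F), IsMDecomposition n₂ D ∧
      (∀ i, IsTotallySingularQuad Q (D i)) ∧
      isometryGroup F Q ⊓ tensorProductSubgroup 2 n₂ e P ≤ decompositionStabilizer D := by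
  classical
  have hf := hQ.polar_bilinear
  have hb₁ := hf₁.bilinear
  have hcard : Fintype.card ι = 2 * n₂ := by
    have h1 := Fintype.card_congr e
    simpa only [Fintype.card_prod, Fintype.card_fin] using h1
  obtain ⟨c, hc, hval⟩ := tens_val id (fun r s => rfl) (QuadraticMap.polar Q) f₁ f₂
    (formOfGram_gram id f₁ hf₁.bilinear.add_left hf₁.bilinear.smul_left hf₁.bilinear.add_right
      hf₁.bilinear.smul_right)
    (formOfGram_gram id f₂ hf₂.bilinear.add_left hf₂.bilinear.smul_left hf₂.bilinear.add_right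
      hf₂.bilinear.smul_right) e P hT
  -- the second isotropic vector
  obtain ⟨t, ht⟩ : ∃ t, f₁ s₀ t ≠ 0 := (hf₁.nondegenerate s₀ hs₀).2
  obtain ⟨s₁, hs₁⟩ : ∃ s₁ : Fin 2 → F, s₁ = t + (-(f₁ t t / (2 * f₁ s₀ t))) • s₀ := ⟨_, rfl⟩
  have h01 : f₁ s₀ s₁ = f₁ s₀ t := by
    rw [hs₁, hb₁.add_right, hb₁.smul_right, hiso, mul_zero, add_zero]
  have h11 : f₁ s₁ s₁ = 0 := by
    have hts : f₁ t s₀ = f₁ s₀ t := hf₁.symm t s₀
    rw [hs₁]
    simp only [hb₁.add_left, hb₁.add_right, hb₁.smul_left, hb₁.smul_right, hiso, hts]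
    field_simp
    ring
  have h01' : f₁ s₀ s₁ ≠ 0 := by rw [h01]; exact ht
  have h10 : f₁ s₁ s₀ = f₁ s₀ s₁ := hf₁.symm s₁ s₀
  have hs₁0 : s₁ ≠ 0 := by
    intro h0
    apply h01'
    rw [h0]
    have := hb₁.smul_right 0 s₀ 0
    rwa [zero_smul, zero_mul] at this
  -- the frame
  obtain ⟨bv, hbv0, hbv1⟩ : ∃ bv : Fin 2 → (Fin 2 → F), bv 0 = s₀ ∧ bv 1 = s₁ :=
    ⟨![s₀, s₁], rfl, rfl⟩
  have hbne : ∀ i, bv i ≠ 0 :=
    Fin.forall_fin_two.mpr ⟨by rw [hbv0]; exact hs₀, by rw [hbv1]; exact hs₁0⟩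
  have hbb : ∀ i, f₁ (bv i) (bv i) = 0 :=
    Fin.forall_fin_two.mpr ⟨by rw [hbv0]; exact hiso, by rw [hbv1]; exact h11⟩
  have hbo : ∀ i j, i ≠ j → f₁ (bv i) (bv j) ≠ 0 :=
    Fin.forall_fin_two.mpr
      ⟨Fin.forall_fin_two.mpr ⟨fun h => absurd rfl h, fun _ => by rw [hbv0, hbv1]; exact h01'⟩,
       Fin.forall_fin_two.mpr ⟨fun _ => by rw [hbv0, hbv1, h10]; exact h01', fun h => absurd rfl h⟩⟩
  have hother : ∀ i j j₀ : Fin 2, j ≠ i → j₀ ≠ i → j = j₀ := by decide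
  obtain ⟨J, hJ⟩ : ∃ J : Fin 2 → (Fin n₂ → F) →ₗ[F] (ι → F),
      ∀ i y, J i y = tPhi e P (tpv (bv i) y) :=
    ⟨fun i => tPhi e P ∘ₗ tpvR (bv i), fun i y => rfl⟩
  have hJinj : ∀ i, Function.Injective (J i) := by
    intro i y y' hyy
    rw [hJ, hJ] at hyy
    have h2' : tpvR (bv i) (y - y') = 0 := by
      rw [map_sub, tpvR_apply, tpvR_apply, tPhi_injective e P hyy, sub_self]
    rw [tpvR_apply] at h2'
    exact sub_eq_zero.mp (tpv_eq_zero_right (hbne i) h2')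
  have hfin : ∀ i, Module.finrank F (LinearMap.range (J i)) = n₂ := by
    intro i
    rw [LinearMap.finrank_range_of_inj (hJinj i), Module.finrank_fintype_fun_eq_card,
      Fintype.card_fin]
  have hpol : ∀ i j y y', QuadraticMap.polar Q (J i y) (J j y')
      = c * (f₁ (bv i) (bv j) * f₂ y y') := by
    intro i j y y'
    rw [hJ, hJ, hval]
  -- independence
  have hind : iSupIndep (fun i => LinearMap.range (J i)) := by
    intro i
    rw [Submodule.disjoint_def]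
    intro x hx hx'
    obtain ⟨y, rfl⟩ := hx
    obtain ⟨j₀, hj₀⟩ : ∃ j₀ : Fin 2, j₀ ≠ i := by
      by_cases hi : i = 0
      · exact ⟨1, by rw [hi]; decide⟩
      · exact ⟨0, fun h => hi h.symm⟩
    by_contra h0
    have hy0 : y ≠ 0 := by
      rintro rfl
      exact h0 (map_zero _)
    obtain ⟨⟨y'', hy''⟩, -⟩ := hf₂.nondegenerate y hy0
    obtain ⟨L, hL⟩ : ∃ L : (ι → F) →ₗ[F] F, ∀ v, L v = QuadraticMap.polar Q (J j₀ y'') v :=
      ⟨IsLinearMap.mk' (fun v => QuadraticMap.polar Q (J j₀ y'') v)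
        ⟨hf.add_right (J j₀ y''), fun c v => hf.smul_right c (J j₀ y'') v⟩, fun v => rfl⟩
    have hle : (⨆ j, ⨆ (_ : j ≠ i), LinearMap.range (J j)) ≤ LinearMap.ker L := by
      refine iSup₂_le (fun j hj => ?_)
      rintro v ⟨y', rfl⟩
      rw [LinearMap.mem_ker, hL, hpol, hother i j j₀ hj hj₀, hbb, zero_mul, mul_zero]
    have h1 := hle hx'
    rw [LinearMap.mem_ker, hL, hpol] at h1
    rcases mul_eq_zero.mp h1 with h | h
    · exact hc h
    · rcases mul_eq_zero.mp h with h | h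
      · exact hbo j₀ i hj₀ h
      · exact hy'' h
  have htop : iSup (fun i => LinearMap.range (J i)) = ⊤ := by
    have hinj := hind.dfinsupp_lsum_injective
    have h1 := LinearMap.finrank_range_of_inj hinj
    rw [← Submodule.iSup_eq_range_dfinsupp_lsum] at h1
    have h2' : Module.finrank F (Π₀ i, LinearMap.range (J i))
        = ∑ i, Module.finrank F (LinearMap.range (J i)) :=
      Module.finrank_directSum (R := F) (fun i => LinearMap.range (J i))
    apply Submodule.eq_top_of_finrank_eq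
    rw [h1, h2', Module.finrank_fintype_fun_eq_card, hcard]
    simp only [hfin, Finset.sum_const, Finset.card_univ, Fintype.card_fin, smul_eq_mul]
  refine ⟨fun i => LinearMap.range (J i), ⟨le_refl 2, hn₂, hfin, hind, htop⟩, ?_, ?_⟩
  · -- totally singular
    rintro i w ⟨y, rfl⟩
    have h1 : QuadraticMap.polar Q (J i y) (J i y) = 2 * Q (J i y) := by
      unfold QuadraticMap.polar
      have h3 : J i y + J i y = (2 : F) • J i y := (two_smul F _).symm
      rw [h3, hQ.smul]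
      ring
    rw [hpol, hbb, zero_mul, mul_zero] at h1
    rcases mul_eq_zero.mp h1.symm with h | h
    · exact absurd h h2
    · exact h
  · -- stabiliser
    intro g hg
    obtain ⟨hgQ, hgT⟩ := Subgroup.mem_inf.mp hg
    obtain ⟨a, b, hab⟩ := tens_mem_act e P g hgT
    have hpres : ∀ x x' y y', f₁ ((a : Matrix (Fin 2) (Fin 2) F) *ᵥ x)
        ((a : Matrix (Fin 2) (Fin 2) F) *ᵥ x') *
        f₂ ((b : Matrix (Fin n₂) (Fin n₂) F) *ᵥ y) ((b : Matrix (Fin n₂) (Fin n₂) F) *ᵥ y') =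
        f₁ x x' * f₂ y y' := by
      intro x x' y y'
      have h1 := Cfsg.Agent.Helper97.Gen.polar_isometry hgQ (tPhi e P (tpv x y))
        (tPhi e P (tpv x' y'))
      rw [hab, hab, tpv_kron, tpv_kron, hval, hval] at h1
      exact mul_left_cancel₀ hc h1
    obtain ⟨y₀, hy₀⟩ : ∃ y₀ : Fin n₂ → F, y₀ ≠ 0 := ⟨Pi.single ⟨0, hn₂⟩ 1, by
      intro h0
      have := congrFun h0 ⟨0, hn₂⟩
      simp at this⟩
    obtain ⟨μ, hμ, hsim⟩ := tens_simil_left f₁ f₂
      (fun x => (a : Matrix (Fin 2) (Fin 2) F) *ᵥ x)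
      (fun y => (b : Matrix (Fin n₂) (Fin n₂) F) *ᵥ y) hpres
      ⟨s₀, s₁, h01'⟩
      (by
        obtain ⟨⟨y, hy⟩, -⟩ := hf₂.nondegenerate y₀ hy₀
        exact ⟨y, y₀, hy⟩)
    have hsim' : ∀ x x', f₁ ((a : Matrix (Fin 2) (Fin 2) F) *ᵥ x)
        ((a : Matrix (Fin 2) (Fin 2) F) *ᵥ x') = μ * f₁ x x' := hsim
    have himg : ∀ i, (∃ k : F, (a : Matrix (Fin 2) (Fin 2) F) *ᵥ bv i = k • s₀) ∨
        (∃ k : F, (a : Matrix (Fin 2) (Fin 2) F) *ᵥ bv i = k • s₁) := by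
      intro i
      apply t2i_isotropic h2 f₁ hf₁ s₀ s₁ hiso h11 h01'
      rw [hsim', hbb, mul_zero]
    have hcross : f₁ ((a : Matrix (Fin 2) (Fin 2) F) *ᵥ bv 0)
        ((a : Matrix (Fin 2) (Fin 2) F) *ᵥ bv 1) ≠ 0 := by
      rw [hsim', hbv0, hbv1]
      exact mul_ne_zero hμ h01'
    obtain ⟨σ, l, hσl⟩ : ∃ (σ : Equiv.Perm (Fin 2)) (l : Fin 2 → F),
        ∀ i, (a : Matrix (Fin 2) (Fin 2) F) *ᵥ bv i = l i • bv (σ i) := by
      rcases himg 0 with ⟨k₀, hk₀⟩ | ⟨k₀, hk₀⟩ <;> rcases himg 1 with ⟨k₁, hk₁⟩ | ⟨k₁, hk₁⟩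
      · exfalso
        apply hcross
        rw [hk₀, hk₁, hb₁.smul_left, hb₁.smul_right, hiso, mul_zero, mul_zero]
      · refine ⟨1, ![k₀, k₁], Fin.forall_fin_two.mpr ⟨?_, ?_⟩⟩
        · rw [hk₀, Equiv.Perm.one_apply, hbv0]
          rfl
        · rw [hk₁, Equiv.Perm.one_apply, hbv1]
          rfl
      · refine ⟨Equiv.swap 0 1, ![k₀, k₁], Fin.forall_fin_two.mpr ⟨?_, ?_⟩⟩
        · rw [hk₀, Equiv.swap_apply_left, hbv1]
          rfl
        · rw [hk₁, Equiv.swap_apply_right, hbv0]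
          rfl
      · exfalso
        apply hcross
        rw [hk₀, hk₁, hb₁.smul_left, hb₁.smul_right, h11, mul_zero, mul_zero]
    refine ⟨σ, fun i => ?_⟩
    show Submodule.map (Matrix.toLin' (g : Matrix ι ι F)) (LinearMap.range (J i))
      = LinearMap.range (J (σ i))
    apply Submodule.eq_of_le_of_finrank_eq
    · rintro _ ⟨x, ⟨y, rfl⟩, rfl⟩
      rw [Matrix.toLin'_apply, hJ, hab, tpv_kron, hσl, tpv_smul_left, ← tpv_smul_right, ← hJ]
      exact ⟨_, rfl⟩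
    · have hinj : Function.Injective (Matrix.toLin' (g : Matrix ι ι F)) := by
        intro x y hxy
        rw [Matrix.toLin'_apply, Matrix.toLin'_apply] at hxy
        have h1 := congrArg (fun z => ((g⁻¹ : GL ι F) : Matrix ι ι F) *ᵥ z) hxy
        simpa only [Matrix.mulVec_mulVec, ← Units.val_mul, inv_mul_cancel, Units.val_one,
          Matrix.one_mulVec] using h1
      rw [← (Submodule.equivMapOfInjective _ hinj (LinearMap.range (J i))).finrank_eq, hfin,
        hfin]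

end Cfsg.Agent.Helper74
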