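/-
Helper library of seat helper74: Isaacs 13.31 for a solvable group of operators, subgroup form
(statement S4449): `S` solvable normalising `G` and its normal subgroup `N`, `(|G|, |S|) = 1`,
`θ ∈ Irr(N)` `S`-invariant: some `S`-invariant `χ ∈ Irr(G)` lies over `θ`.
-/
import Cfsg.Agent.Helper74.Over3

set_option autoImplicit false

namespace Cfsg.Agent.Helper74

open Cfsg

section OverSub

variable {Γ : Type*} [Group Γ]

theorem over_solv_subgroup (G S N : Subgroup Γ) [Fintype G] [Fintype N]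
    (hnorm : ∀ s ∈ S, ∀ g ∈ G, s * g * s⁻¹ ∈ G) (hNG : N ≤ G)
    (hNnormal : ∀ g ∈ G, ∀ n ∈ N, g * n * g⁻¹ ∈ N) (hNS : ∀ s ∈ S, ∀ n ∈ N, s * n * s⁻¹ ∈ N)
    (hcop : (Nat.card G).Coprime (Nat.card S)) (hsolv : Group.IsSolvable S)
    (θ : IrrCharacter N)
    (hinv : ∀ s ∈ S, ∀ g g' : N, (g' : Γ) = s * g * s⁻¹ → (θ : N → ℂ) g' = (θ : N → ℂ) g) :
    ∃ χ : IrrCharacter G,
      classInner (fun n : N => (χ : G → ℂ) ⟨n, hNG n.2⟩) (θ : N → ℂ) ≠ 0 ∧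
      (∀ s ∈ S, ∀ g g' : G, (g' : Γ) = s * g * s⁻¹ → (χ : G → ℂ) g' = (χ : G → ℂ) g) := by
  classical
  set φ : ↥S →* MulAut ↥G := conjHom G S hnorm with hφ
  haveI := hsolv
  have hsolv' : Group.IsSolvable ↥φ.range :=
    Group.isSolvable_of_surjective (f := φ.rangeRestrict) φ.rangeRestrict_surjective
  have hcop' : (Fintype.card ↥G).Coprime (Nat.card φ.range) := by
    rw [← Nat.card_eq_fintype_card]
    exact Nat.Coprime.coprime_dvd_right (Subgroup.card_range_dvd φ) hcop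
  set N₀ : Subgroup ↥G := N.subgroupOf G with hN₀
  haveI : N₀.Normal := by
    constructor
    intro n hn g
    rw [hN₀, Subgroup.mem_subgroupOf] at hn ⊢
    exact hNnormal g.1 g.2 n.1 hn
  letI : Fintype ↥N₀ := Fintype.ofFinite _
  have hN₀inv : ∀ a ∈ φ.range, ∀ x ∈ N₀, a x ∈ N₀ := by
    rintro _ ⟨s, rfl⟩ x hx
    rw [hN₀, Subgroup.mem_subgroupOf] at hx ⊢
    rw [hφ, conjHom_apply_coe]
    exact hNS s.1 s.2 _ hx
  set e := Subgroup.subgroupOfEquivOfLe hNG with he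
  set θ₀ : IrrCharacter ↥N₀ := ⟨fun x => (θ : N → ℂ) (e x),
    (Helper79.isIrrCharacter_mulEquiv e).mpr θ.2⟩ with hθ₀def
  have hθ₀ : ∀ a ∈ φ.range, ∀ x y : ↥N₀, (y : ↥G) = a (x : ↥G) →
      (θ₀ : ↥N₀ → ℂ) y = (θ₀ : ↥N₀ → ℂ) x := by
    rintro _ ⟨s, rfl⟩ x y hxy
    show (θ : N → ℂ) (e y) = (θ : N → ℂ) (e x)
    apply hinv s.1 s.2 (e x) (e y)
    exact congrArg (fun z : ↥G => (z : Γ)) hxy
  obtain ⟨χ, hχ, hχinv⟩ := over_solv_aux (Fintype.card ↥G) ↥G rfl φ.range hsolv' hcop' N₀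
    hN₀inv θ₀ hθ₀
  refine ⟨χ, ?_, ?_⟩
  · have h := Helper75.classInner_subgroupOf hNG (χ : G → ℂ) (θ : N → ℂ)
    rw [show (fun n : N => (χ : G → ℂ) ⟨n, hNG n.2⟩) = Helper75.resTo hNG (χ : G → ℂ) from rfl,
      ← h]
    exact hχ
  · intro s hs g g' hg'
    have h1 := hχinv (φ ⟨s, hs⟩) ⟨⟨s, hs⟩, rfl⟩ g
    have h2 : φ ⟨s, hs⟩ g = g' := Subtype.ext hg'.symm
    rw [h2] at h1
    exact h1

end OverSub

end Cfsg.Agent.Helper74
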