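import Cfsg.Agent.Helper85.PiDefs
import Cfsg.Agent.Helper85.PiGen
import Cfsg.Agent.Helper84.FusionSat2

/-!
Piece HFAC of CALL S5113 (helper85): the hyperfocal property of automizers, from the group-theoretic
hyperfocal subgroup theorem (HFAA) and the generator computation (HFAB), both as hypotheses.
-/

set_option autoImplicit false

namespace Cfsg.Agent.Helper74.PiHFAC

open Cfsg Cfsg.FusionSystem Cfsg.Agent.Helper85 Cfsg.Agent.Helper88

variable {Ω : Type*} [Group Ω] {S : Subgroup Ω}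

theorem pi_hfa [Finite S] {p : ℕ} [Fact p.Prime] (hS : IsPGroup p S) {F : FusionSystem S}
    (hF : F.IsSaturated p)
    (ha : ∀ (R : Subgroup Ω), F.IsFullyNormalized R → ∀ (P : Sylow p (F.autGroup R)),
      (P : Subgroup (F.autGroup R)) ⊓ pResidual p (F.autGroup R) ≤
        Subgroup.closure {z : F.autGroup R | ∃ (Y : Subgroup (F.autGroup R)) (y g : F.autGroup R) (k : ℕ),
          Y ≤ (P : Subgroup (F.autGroup R)) ∧ y ∈ Y ∧ g ∈ Subgroup.normalizer (Y : Set (F.autGroup R)) ∧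
          k.Coprime p ∧ (∀ y' ∈ Y, g ^ k * y' * (g ^ k)⁻¹ = y') ∧ z = y⁻¹ * (g * y * g⁻¹)})
    (hb : ∀ (R : Subgroup Ω), F.IsFullyNormalized R → ∀ (Y : Subgroup (F.autGroup R)),
      Y ≤ (autInducedBy S R).subgroupOf (F.autGroup R) → ∀ (y g : F.autGroup R) (k : ℕ), y ∈ Y →
      g ∈ Subgroup.normalizer (Y : Set (F.autGroup R)) → k.Coprime p →
      (∀ y' ∈ Y, g ^ k * y' * (g ^ k)⁻¹ = y') →
      ∃ h ∈ F.hyperfocalSubgroup p, h ∈ normalizerIn S R ∧
        ∀ x ∈ R, autFun ((y⁻¹ * (g * y * g⁻¹) : F.autGroup R) : MulAut R) x = h * x * h⁻¹) :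
    PiHfa F p := by
  intro R w β hR hw hβ hβw
  obtain ⟨⟨-, P₀, hP₀⟩, -⟩ := Helper84.saturated_fullyNormalized hS F hF hR
  obtain ⟨β', hβ', rfl⟩ := hβ
  have hwS : w ∈ S := (mem_normalizerIn_iff.mp hw).1
  have hβP : β' ∈ (P₀ : Subgroup (F.autGroup R)) := by
    rw [hP₀, Subgroup.mem_subgroupOf, Helper88.mem_autInducedBy_iff]
    refine ⟨w, hwS, fun x => ?_⟩
    have := hβw x x.2
    rw [autFun_apply] at this
    exact this
  have hcl := ha R hR P₀ ⟨hβP, hβ'⟩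
  have key : ∀ z ∈ Subgroup.closure {z : F.autGroup R |
      ∃ (Y : Subgroup (F.autGroup R)) (y g : F.autGroup R) (k : ℕ),
          Y ≤ (P₀ : Subgroup (F.autGroup R)) ∧ y ∈ Y ∧ g ∈ Subgroup.normalizer (Y : Set (F.autGroup R)) ∧
          k.Coprime p ∧ (∀ y' ∈ Y, g ^ k * y' * (g ^ k)⁻¹ = y') ∧ z = y⁻¹ * (g * y * g⁻¹)},
      ∃ h ∈ F.hyperfocalSubgroup p, h ∈ normalizerIn S R ∧
        ∀ x ∈ R, autFun (z : MulAut R) x = h * x * h⁻¹ := by
    intro z hz
    induction hz using Subgroup.closure_induction with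
    | mem z hz =>
      obtain ⟨Y, y, g, k, hY, hy, hg, hk, hgk, rfl⟩ := hz
      exact hb R hR Y (by rw [← hP₀]; exact hY) y g k hy hg hk hgk
    | one =>
      refine ⟨1, Subgroup.one_mem _, Subgroup.one_mem _, fun x hx => ?_⟩
      rw [Subgroup.coe_one, autFun_one hx]
      group
    | mul a b _ _ iha ihb =>
      obtain ⟨h1, h1h, h1n, h1e⟩ := iha
      obtain ⟨h2, h2h, h2n, h2e⟩ := ihb
      refine ⟨h1 * h2, Subgroup.mul_mem _ h1h h2h, Subgroup.mul_mem _ h1n h2n, fun x hx => ?_⟩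
      rw [Subgroup.coe_mul, autFun_mul _ _ hx, h1e _ (autFun_mem _ hx), h2e x hx]
      group
    | inv a _ iha =>
      obtain ⟨h1, h1h, h1n, h1e⟩ := iha
      refine ⟨h1⁻¹, Subgroup.inv_mem _ h1h, Subgroup.inv_mem _ h1n, fun x hx => ?_⟩
      rw [Subgroup.coe_inv]
      have hx' : autFun ((a : MulAut R))⁻¹ x ∈ R := autFun_mem _ hx
      have h2 := h1e _ hx'
      rw [autFun_apply_inv _ hx] at h2
      rw [inv_inv]
      calc autFun ((a : MulAut R))⁻¹ x
          = h1⁻¹ * (h1 * autFun ((a : MulAut R))⁻¹ x * h1⁻¹) * h1 := by group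
        _ = h1⁻¹ * x * h1 := by rw [← h2]
  obtain ⟨h, hh, hn, he⟩ := key β' hcl
  have hhS : h ∈ S := (mem_normalizerIn_iff.mp hn).1
  have hc : h⁻¹ * w ∈ centralizerIn S R := by
    rw [mem_centralizerIn_iff]
    refine ⟨S.mul_mem (S.inv_mem hhS) hwS, fun y hy => ?_⟩
    have h1 := he y hy
    rw [show ((F.autGroup R).subtype β' : MulAut R) = (β' : MulAut R) from rfl] at hβw
    rw [hβw y hy] at h1
    have h3 : w * y = h * y * h⁻¹ * w := by rw [← h1]; group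
    calc y * (h⁻¹ * w) = h⁻¹ * (h * y * h⁻¹ * w) := by group
      _ = h⁻¹ * (w * y) := by rw [h3]
      _ = h⁻¹ * w * y := by group
  have hw' : w = h * (h⁻¹ * w) := by group
  rw [hw']
  exact Subgroup.mul_mem_sup hh hc

end Cfsg.Agent.Helper74.PiHFAC
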