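import Mathlib
import Cfsg.Agent.Helper8.S4504Defs
import Cfsg.Agent.Helper80.CharIrr
import Cfsg.Agent.Helper81.CharBasic

/-!
# CALL S4504, piece MOMENT: the fourth moment of `χ` from `χ conj χ = 1 + ∑ X1 (+ ψ₁)`.
-/

set_option autoImplicit false
open Cfsg Cfsg.Agent.Helper8
open scoped ComplexConjugate

universe u

namespace Cfsg.Agent.Helper74

/-- orthogonality in the `conj` form -/
theorem s4504mom_orth {H : Type u} [Group H] [Fintype H] (ξ η : Cfsg.IrrCharacter H) :
    ∑ g : H, (ξ : H → ℂ) g * conj ((η : H → ℂ) g) = if ξ = η then (Nat.card H : ℂ) else 0 := by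
  classical
  have h1 := Helper81.irr_orthonormal ξ η
  have hη : Cfsg.IsCharacter H (η : H → ℂ) := by
    obtain ⟨n, ρ, -, h⟩ := η.2
    exact ⟨n, ρ, h⟩
  have h2 : ∀ g : H, (η : H → ℂ) g⁻¹ = conj ((η : H → ℂ) g) := fun g =>
    Helper80.isCharacter_inv hη g
  simp only [h2] at h1
  have hH : (Nat.card H : ℂ) ≠ 0 := by
    have : 0 < Nat.card H := Nat.card_pos
    exact_mod_cast this.ne'
  have h3 : ∑ g : H, (ξ : H → ℂ) g * conj ((η : H → ℂ) g)
      = (Nat.card H : ℂ) * (if ξ = η then 1 else 0) := by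
    rw [← h1, ← mul_assoc, mul_inv_cancel₀ hH, one_mul]
  rw [h3]
  split_ifs <;> simp

/-- the norm of a multiplicity-free sum of irreducible characters -/
theorem s4504mom_sum_sq {H : Type u} [Group H] [Fintype H] (S : Finset (Cfsg.IrrCharacter H)) :
    ∑ g : H, (∑ ξ ∈ S, (ξ : H → ℂ) g) * conj (∑ ξ ∈ S, (ξ : H → ℂ) g)
      = (Nat.card H : ℂ) * (S.card : ℂ) := by
  classical
  have h1 : ∀ g : H, (∑ ξ ∈ S, (ξ : H → ℂ) g) * conj (∑ ξ ∈ S, (ξ : H → ℂ) g)
      = ∑ ξ ∈ S, ∑ η ∈ S, (ξ : H → ℂ) g * conj ((η : H → ℂ) g) := by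
    intro g
    rw [map_sum, Finset.sum_mul_sum]
  simp only [h1]
  rw [Finset.sum_comm]
  have h2 : ∀ ξ ∈ S, ∑ g : H, ∑ η ∈ S, (ξ : H → ℂ) g * conj ((η : H → ℂ) g)
      = (Nat.card H : ℂ) := by
    intro ξ hξ
    rw [Finset.sum_comm]
    simp only [s4504mom_orth]
    rw [Finset.sum_ite_eq S ξ]
    simp [hξ]
  rw [Finset.sum_congr rfl h2]
  simp [mul_comm]

/-- MOMENT -/
theorem s4504_moment {H : Type u} [Group H] [Fintype H] (p : ℕ) [Fact p.Prime] (x : H)
    (χ : H → ℂ) (h : S4504Hyp p x χ) (d : ℕ) (hd : Cfsg.charDegree χ = d)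
    (T : S4504Tab p d x χ) :
    2 * ∑ g : H, ‖χ g‖ ^ 4 = (Nat.card H : ℝ) * ((d : ℝ) + 1 + (if Even d then 1 else 0)) := by
  classical
  have hp : p = 2 * d + 1 := by rw [← hd]; exact h.hdeg.symm
  have hpp : p.Prime := Fact.out
  -- the principal character
  let one : Cfsg.IrrCharacter H := Helper80.trivIrr H
  have hone : ∀ g : H, (one : H → ℂ) g = 1 := fun g => rfl
  have hdeg1 : Cfsg.charDegree (one : H → ℂ) = 1 := by
    simp [Cfsg.charDegree, hone]
  have h1X : one ∉ T.X1 := by
    intro hmem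
    have := T.hX1deg one hmem
    rw [hdeg1] at this
    have := hpp.pos
    omega
  -- the set of constituents
  let E : Finset (Cfsg.IrrCharacter H) := if Even d then {T.ψ₁} else ∅
  have hEX : Disjoint T.X1 E := by
    rw [Finset.disjoint_left]
    intro ξ hξ hξE
    by_cases hev : Even d
    · simp only [E, if_pos hev, Finset.mem_singleton] at hξE
      have h1 := T.hX1deg ξ hξ
      rw [hξE, T.hψdeg, if_pos hev] at h1
      omega
    · simp only [E, if_neg hev] at hξE
      exact absurd hξE (Finset.notMem_empty _)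
  have h1E : one ∉ E := by
    intro hmem
    by_cases hev : Even d
    · simp only [E, if_pos hev, Finset.mem_singleton] at hmem
      have h1 := T.hψdeg
      rw [← hmem, hdeg1, if_pos hev] at h1
      have : d = 0 := by omega
      rw [this] at hp
      simp at hp
      rw [hp] at hpp
      exact Nat.not_prime_one hpp
    · simp only [E, if_neg hev] at hmem
      exact absurd hmem (Finset.notMem_empty _)
  let S : Finset (Cfsg.IrrCharacter H) := insert one (T.X1 ∪ E)
  have h1S : one ∉ T.X1 ∪ E := by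
    rw [Finset.mem_union]; rintro (h' | h')
    · exact h1X h'
    · exact h1E h'
  have hScard : S.card = 1 + T.X1.card + (if Even d then 1 else 0) := by
    rw [Finset.card_insert_of_notMem h1S, Finset.card_union_of_disjoint hEX]
    by_cases hev : Even d
    · simp only [E, if_pos hev, Finset.card_singleton]; omega
    · simp only [E, if_neg hev, Finset.card_empty]; omega
  have hSsum : ∀ g : H, ∑ ξ ∈ S, (ξ : H → ℂ) g = χ g * conj (χ g) := by
    intro g
    rw [T.hdec₁ g, Finset.sum_insert h1S, Finset.sum_union hEX, hone]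
    by_cases hev : Even d
    · simp only [E, if_pos hev, Finset.sum_singleton]; ring
    · simp only [E, if_neg hev, Finset.sum_empty]; ring
  have hkey := s4504mom_sum_sq S
  simp only [hSsum] at hkey
  have h4 : ∀ g : H, χ g * conj (χ g) * conj (χ g * conj (χ g)) = ((‖χ g‖ ^ 4 : ℝ) : ℂ) := by
    intro g
    rw [Complex.mul_conj, map_mul, Complex.normSq_conj, Complex.normSq_eq_norm_sq]
    push_cast
    ring
  simp only [h4] at hkey
  rw [← Complex.ofReal_sum] at hkey
  have hreal : ∑ g : H, ‖χ g‖ ^ 4 = (Nat.card H : ℝ) * (S.card : ℝ) := by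
    have : ((∑ g : H, ‖χ g‖ ^ 4 : ℝ) : ℂ) = (((Nat.card H : ℝ) * (S.card : ℝ) : ℝ) : ℂ) := by
      rw [hkey]; push_cast; ring
    exact_mod_cast this
  rw [hreal, hScard]
  have hX := T.hX1card
  by_cases hev : Even d
  · simp only [if_pos hev] at hX ⊢
    have hXr : (2 : ℝ) * (T.X1.card : ℝ) + 1 + 1 = (d : ℝ) := by exact_mod_cast hX
    push_cast
    linear_combination (Nat.card H : ℝ) * hXr
  · simp only [if_neg hev] at hX ⊢
    have hXr : (2 : ℝ) * (T.X1.card : ℝ) + 1 + 0 = (d : ℝ) := by exact_mod_cast hX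
    push_cast
    linear_combination (Nat.card H : ℝ) * hXr

end Cfsg.Agent.Helper74
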