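import Mathlib
import Cfsg.Agent.Helper8.S4504Defs
import Cfsg.Agent.Helper15.B42Defs
import Cfsg.Agent.Helper92.B42PSING
import Cfsg.Agent.Helper76.CentralChar
import Cfsg.Agent.Helper80.CharIrr

/-!
# Sub-CALL S4504S, piece ONLY: among the irreducible characters with the central character of
`χ`, only `χ, χ₂` are not constant on `⟨x⟩ \ 1`.
-/

universe u
set_option autoImplicit false
open Cfsg Cfsg.Agent.Helper77 Cfsg.Agent.Helper15 Cfsg.Agent.Helper8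
open scoped ComplexConjugate

namespace Cfsg.Agent.Helper74

variable {G : Type u} [Group G] [Finite G]

/-- ONLY: among the irreducible characters with the central character of `χ`, only `χ, χ₂` are
not constant on `⟨x⟩ \ 1`. -/
theorem s4504s_only (p : ℕ) [Fact p.Prime] [Fintype G] (x : G) (K : Subgroup G)
    (h : D1Hyp p x K) (hKc : ∀ k ∈ K, k ∈ Subgroup.center G) (v : (ZMod p)ˣ)
    (hcls : ∀ b : ℕ, ¬ p ∣ b → (∃ n : G, n * x * n⁻¹ = x ^ b) ∨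
        (∃ n : G, n * x ^ (v : ZMod p).val * n⁻¹ = x ^ b))
    (χ χ₂ : Cfsg.IrrCharacter G) (hne : χ ≠ χ₂)
    (hreg : ∀ g : G, ¬ p ∣ orderOf g → (χ₂ : G → ℂ) g = (χ : G → ℂ) g)
    (hsum : (χ : G → ℂ) x + (χ₂ : G → ℂ) x = -1)
    (hvx : (χ : G → ℂ) (x ^ (v : ZMod p).val) = (χ₂ : G → ℂ) x)
    (hvx₂ : (χ₂ : G → ℂ) (x ^ (v : ZMod p).val) = (χ : G → ℂ) x)
    (hxne : (χ : G → ℂ) x ≠ (χ₂ : G → ℂ) x)
    (ξ : Cfsg.IrrCharacter G)
    (hcc : ∀ z ∈ Subgroup.center G,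
      (ξ : G → ℂ) z * (χ : G → ℂ) 1 = (χ : G → ℂ) z * (ξ : G → ℂ) 1)
    (h1 : ξ ≠ χ) (h2 : ξ ≠ χ₂) :
    ∀ b : ℕ, ¬ p ∣ b → (ξ : G → ℂ) (x ^ b) = (ξ : G → ℂ) x := by
  classical
  have hp : p.Prime := Fact.out
  -- notation
  obtain ⟨a, ha⟩ : ∃ a : ℂ, (χ : G → ℂ) x = a := ⟨_, rfl⟩
  obtain ⟨a', ha'⟩ : ∃ a' : ℂ, (χ₂ : G → ℂ) x = a' := ⟨_, rfl⟩
  obtain ⟨u, hu⟩ : ∃ u : ℂ, (ξ : G → ℂ) x = u := ⟨_, rfl⟩
  obtain ⟨u', hu'⟩ : ∃ u' : ℂ, (ξ : G → ℂ) (x ^ (v : ZMod p).val) = u' := ⟨_, rfl⟩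
  rw [ha, ha'] at hsum hxne
  rw [ha'] at hvx
  rw [ha] at hvx₂
  -- the two classes
  have hcase : ∀ b : ℕ, ¬ p ∣ b →
      ((ξ : G → ℂ) (x ^ b) = u ∧ (χ : G → ℂ) (x ^ b) = a ∧ (χ₂ : G → ℂ) (x ^ b) = a') ∨
      ((ξ : G → ℂ) (x ^ b) = u' ∧ (χ : G → ℂ) (x ^ b) = a' ∧ (χ₂ : G → ℂ) (x ^ b) = a) := by
    intro b hb
    rcases hcls b hb with ⟨n, hn⟩ | ⟨n, hn⟩
    · left
      rw [← hn, Helper76.irr_conj, Helper76.irr_conj, Helper76.irr_conj]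
      exact ⟨hu, ha, ha'⟩
    · right
      rw [← hn, Helper76.irr_conj, Helper76.irr_conj, Helper76.irr_conj]
      exact ⟨hu', hvx, hvx₂⟩
  -- the coefficients
  have hdet : a ^ 2 - a' ^ 2 ≠ 0 := by
    have h3 : a ^ 2 - a' ^ 2 = (a - a') * (a + a') := by ring
    rw [h3, hsum]
    exact mul_ne_zero (sub_ne_zero.mpr hxne) (by norm_num)
  obtain ⟨A, hA⟩ : ∃ A : ℂ, A = (u * a - u' * a') / (a ^ 2 - a' ^ 2) := ⟨_, rfl⟩
  obtain ⟨B, hB⟩ : ∃ B : ℂ, B = (u' * a - u * a') / (a ^ 2 - a' ^ 2) := ⟨_, rfl⟩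
  have hAB1 : A * a + B * a' = u := by
    rw [hA, hB]; field_simp; ring
  have hAB2 : A * a' + B * a = u' := by
    rw [hA, hB]; field_simp; ring
  -- central scalars
  have hι : ∀ z : K, K.subtype z ∈ Subgroup.center G := fun z => hKc _ z.2
  obtain ⟨cξ, hcξ⟩ := Helper76.exists_central_scalar K.subtype hι ξ
  obtain ⟨cχ, hcχ⟩ := Helper76.exists_central_scalar K.subtype hι χ
  obtain ⟨cχ₂, hcχ₂⟩ := Helper76.exists_central_scalar K.subtype hι χ₂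
  have hξ1 := Helper76.irr_one_ne_zero ξ
  have hχ1 := Helper76.irr_one_ne_zero χ
  have hχ₂1 := Helper76.irr_one_ne_zero χ₂
  have hKreg : ∀ k : K, ¬ p ∣ orderOf (k : G) := by
    intro k hk
    apply h.hK
    have h3 : orderOf (k : G) = orderOf k := by
      rw [← Subgroup.orderOf_coe]
    rw [h3] at hk
    exact hk.trans (orderOf_dvd_natCard k)
  have h1reg : ¬ p ∣ orderOf (1 : G) := by
    rw [orderOf_one]
    exact hp.one_lt.ne' ∘ Nat.dvd_one.mp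
  have hχ₂one : (χ₂ : G → ℂ) 1 = (χ : G → ℂ) 1 := hreg 1 h1reg
  have hc1 : ∀ k : K, cξ k = cχ k := by
    intro k
    have e1 := hcξ k 1
    have e2 := hcχ k 1
    rw [one_mul] at e1 e2
    have e3 := hcc (k : G) (hKc _ k.2)
    change (ξ : G → ℂ) (K.subtype k) * _ = (χ : G → ℂ) (K.subtype k) * _ at e3
    rw [e1, e2] at e3
    have e4 : (cξ k - cχ k) * ((ξ : G → ℂ) 1 * (χ : G → ℂ) 1) = 0 := by
      linear_combination e3
    rcases mul_eq_zero.mp e4 with e5 | e5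
    · exact sub_eq_zero.mp e5
    · exact absurd e5 (mul_ne_zero hξ1 hχ1)
  have hc2 : ∀ k : K, cχ₂ k = cχ k := by
    intro k
    have e1 := hcχ₂ k 1
    have e2 := hcχ k 1
    rw [one_mul] at e1 e2
    have e3 := hreg (k : G) (hKreg k)
    change (χ₂ : G → ℂ) (K.subtype k) = (χ : G → ℂ) (K.subtype k) at e3
    rw [e1, e2, hχ₂one] at e3
    have e4 : (cχ₂ k - cχ k) * (χ : G → ℂ) 1 = 0 := by
      linear_combination e3
    rcases mul_eq_zero.mp e4 with e5 | e5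
    · exact sub_eq_zero.mp e5
    · exact absurd e5 hχ1
  -- agreement on the `p`-singular elements
  have hval : ∀ b : ℕ, ¬ p ∣ b → ∀ k ∈ K,
      (ξ : G → ℂ) (x ^ b * k) = A * (χ : G → ℂ) (x ^ b * k) + B * (χ₂ : G → ℂ) (x ^ b * k) := by
    intro b hb k hk
    have e1 := hcξ ⟨k, hk⟩ (x ^ b)
    have e2 := hcχ ⟨k, hk⟩ (x ^ b)
    have e3 := hcχ₂ ⟨k, hk⟩ (x ^ b)
    change (ξ : G → ℂ) (x ^ b * k) = _ at e1
    change (χ : G → ℂ) (x ^ b * k) = _ at e2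
    change (χ₂ : G → ℂ) (x ^ b * k) = _ at e3
    rw [e1, e2, e3, hc1, hc2]
    rcases hcase b hb with ⟨f1, f2, f3⟩ | ⟨f1, f2, f3⟩
    · rw [f1, f2, f3, ← hAB1]; ring
    · rw [f1, f2, f3, ← hAB2]; ring
  have hpt : ∀ g : G, ((ξ : G → ℂ) g - (A * (χ : G → ℂ) g + B * (χ₂ : G → ℂ) g))
      * conj ((χ : G → ℂ) g - (χ₂ : G → ℂ) g) = 0 := by
    intro g
    by_cases hg : p ∣ orderOf g
    · obtain ⟨y, b, k, hb, hk, hy⟩ := Helper92.b42_psing p x K h g hg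
      have e := hval b hb k hk
      rw [← hy, Helper76.irr_conj, Helper76.irr_conj, Helper76.irr_conj] at e
      rw [e, sub_self, zero_mul]
    · rw [hreg g hg, sub_self, map_zero, mul_zero]
  have hsum0 : ∑ g : G, ((ξ : G → ℂ) g - (A * (χ : G → ℂ) g + B * (χ₂ : G → ℂ) g))
      * conj ((χ : G → ℂ) g - (χ₂ : G → ℂ) g) = 0 :=
    Finset.sum_eq_zero (fun g _ => hpt g)
  have hexp : ∑ g : G, ((ξ : G → ℂ) g - (A * (χ : G → ℂ) g + B * (χ₂ : G → ℂ) g))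
      * conj ((χ : G → ℂ) g - (χ₂ : G → ℂ) g)
      = ∑ g : G, (ξ : G → ℂ) g * conj ((χ : G → ℂ) g)
        - ∑ g : G, (ξ : G → ℂ) g * conj ((χ₂ : G → ℂ) g)
        - A * ∑ g : G, (χ : G → ℂ) g * conj ((χ : G → ℂ) g)
        + A * ∑ g : G, (χ : G → ℂ) g * conj ((χ₂ : G → ℂ) g)
        - B * ∑ g : G, (χ₂ : G → ℂ) g * conj ((χ : G → ℂ) g)
        + B * ∑ g : G, (χ₂ : G → ℂ) g * conj ((χ₂ : G → ℂ) g) := by
    rw [Finset.mul_sum, Finset.mul_sum, Finset.mul_sum, Finset.mul_sum,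
      ← Finset.sum_sub_distrib, ← Finset.sum_sub_distrib, ← Finset.sum_add_distrib,
      ← Finset.sum_sub_distrib, ← Finset.sum_add_distrib]
    refine Finset.sum_congr rfl (fun g _ => ?_)
    rw [map_sub]
    ring
  rw [hexp, Helper80.irr_orthogonality_conj, Helper80.irr_orthogonality_conj,
    Helper80.irr_orthogonality_conj, Helper80.irr_orthogonality_conj,
    Helper80.irr_orthogonality_conj, Helper80.irr_orthogonality_conj,
    if_neg h1, if_neg h2, if_pos rfl, if_neg hne, if_neg (Ne.symm hne), if_pos rfl] at hsum0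
  have hcardne : (Fintype.card G : ℂ) ≠ 0 := by
    exact_mod_cast Fintype.card_ne_zero
  have hABeq : A = B := by
    have e4 : (B - A) * (Fintype.card G : ℂ) = 0 := by linear_combination hsum0
    rcases mul_eq_zero.mp e4 with e5 | e5
    · exact (sub_eq_zero.mp e5).symm
    · exact absurd e5 hcardne
  have huu : u = u' := by
    rw [← hAB1, ← hAB2, hABeq]; ring
  intro b hb
  rcases hcase b hb with ⟨f1, -, -⟩ | ⟨f1, -, -⟩
  · rw [f1, hu]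
  · rw [f1, hu, huu]

end Cfsg.Agent.Helper74
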