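import Mathlib
import Cfsg.Agent.Helper77.D1Defs2
import Cfsg.Agent.Helper15.B42Defs
import Cfsg.Agent.Helper80.CharIrr

/-!
# Sub-CALL S4705SH (helper45), piece MULT (helper74): if the multiplicity `dco K θ χ 1` of `θ`
in `χ|_K` is at least `deg χ`, then `‖χ k‖ = deg χ` on `K` (Cauchy–Schwarz).
-/

set_option autoImplicit false
open Cfsg Cfsg.Agent.Helper77 Cfsg.Agent.Helper15
open scoped ComplexConjugate

universe u

namespace Cfsg.Agent.Helper74.S4705SHMULT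

variable {H : Type u} [Group H] [Finite H]

theorem sh_mult (K : Subgroup H) (χ : H → ℂ) (hχ : Cfsg.IsCharacter H χ)
    (θ : Cfsg.IrrCharacter K) (N : ℕ) (hN : dco K (θ : K → ℂ) χ 1 = (N : ℂ))
    (hle : Cfsg.charDegree χ ≤ N) :
    ∀ k ∈ K, ‖χ k‖ = (Cfsg.charDegree χ : ℝ) := by
  classical
  haveI : Fintype K := Fintype.ofFinite K
  obtain ⟨d, hd⟩ : ∃ d : ℕ, Cfsg.charDegree χ = d := ⟨_, rfl⟩
  rw [hd] at hle ⊢
  have hb : ∀ k : K, ‖χ (k : H)‖ ≤ (d : ℝ) := fun k => by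
    rw [← hd]
    exact Cfsg.Agent.Helper80.isCharacter_norm_le hχ _
  have hKpos : (0 : ℝ) < Fintype.card K := by exact_mod_cast Fintype.card_pos
  have hsum : ∑ k : K, χ (k : H) * conj ((θ : K → ℂ) k) = (N : ℂ) * (Fintype.card K : ℂ) := by
    unfold dco at hN
    rw [finsum_eq_sum_of_fintype, Nat.card_eq_fintype_card] at hN
    simp only [one_mul] at hN
    have hK0 : (Fintype.card K : ℂ) ≠ 0 := by exact_mod_cast Fintype.card_ne_zero
    rw [← hN]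
    field_simp
  have hθ : ∑ k : K, ‖(θ : K → ℂ) k‖ ^ 2 = (Fintype.card K : ℝ) := by
    have h1 := Cfsg.Agent.Helper80.irr_orthogonality_conj θ θ
    rw [if_pos rfl] at h1
    have h2 : ∀ k : K, (θ : K → ℂ) k * conj ((θ : K → ℂ) k)
        = ((‖(θ : K → ℂ) k‖ ^ 2 : ℝ) : ℂ) := by
      intro k
      rw [Complex.mul_conj']
      push_cast
      rfl
    rw [Finset.sum_congr rfl (fun k _ => h2 k), ← Complex.ofReal_sum] at h1
    exact_mod_cast h1
  have hCS : ((N : ℝ) * Fintype.card K) ^ 2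
      ≤ (∑ k : K, ‖χ (k : H)‖ ^ 2) * (Fintype.card K : ℝ) := by
    have h1 : (N : ℝ) * Fintype.card K = ‖∑ k : K, χ (k : H) * conj ((θ : K → ℂ) k)‖ := by
      rw [hsum, norm_mul, Complex.norm_natCast, Complex.norm_natCast]
    have h2 : ‖∑ k : K, χ (k : H) * conj ((θ : K → ℂ) k)‖
        ≤ ∑ k : K, ‖χ (k : H)‖ * ‖(θ : K → ℂ) k‖ := by
      refine (norm_sum_le _ _).trans (le_of_eq ?_)
      refine Finset.sum_congr rfl (fun k _ => ?_)
      rw [norm_mul, RCLike.norm_conj]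
    have h3 := Finset.sum_mul_sq_le_sq_mul_sq Finset.univ (fun k : K => ‖χ (k : H)‖)
      (fun k : K => ‖(θ : K → ℂ) k‖)
    rw [hθ] at h3
    calc ((N : ℝ) * Fintype.card K) ^ 2
        ≤ (∑ k : K, ‖χ (k : H)‖ * ‖(θ : K → ℂ) k‖) ^ 2 := by
          rw [h1]
          exact pow_le_pow_left₀ (norm_nonneg _) h2 2
      _ ≤ _ := h3
  have h4 : (N : ℝ) ^ 2 * Fintype.card K ≤ ∑ k : K, ‖χ (k : H)‖ ^ 2 := by
    have e : ((N : ℝ) * Fintype.card K) ^ 2
        = ((N : ℝ) ^ 2 * Fintype.card K) * Fintype.card K := by ring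
    rw [e] at hCS
    exact le_of_mul_le_mul_right hCS hKpos
  have h5 : ∑ k : K, ((d : ℝ) ^ 2 - ‖χ (k : H)‖ ^ 2) ≤ 0 := by
    rw [Finset.sum_sub_distrib, Finset.sum_const, Finset.card_univ, nsmul_eq_mul]
    have hdN : (d : ℝ) ≤ N := by exact_mod_cast hle
    have h51 : (d : ℝ) ^ 2 ≤ (N : ℝ) ^ 2 := pow_le_pow_left₀ (Nat.cast_nonneg d) hdN 2
    nlinarith
  have h6 : ∀ k ∈ (Finset.univ : Finset K), (0 : ℝ) ≤ (d : ℝ) ^ 2 - ‖χ (k : H)‖ ^ 2 := by
    intro k _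
    have h61 := hb k
    have h0 := norm_nonneg (χ (k : H))
    nlinarith
  have h7 := (Finset.sum_eq_zero_iff_of_nonneg h6).mp (le_antisymm h5 (Finset.sum_nonneg h6))
  intro k hk
  have h8 := h7 ⟨k, hk⟩ (Finset.mem_univ _)
  have h9 := hb ⟨k, hk⟩
  have h0 := norm_nonneg (χ k)
  have h10 : ((d : ℝ) - ‖χ k‖) * ((d : ℝ) + ‖χ k‖) = 0 := by
    have : (d : ℝ) ^ 2 - ‖χ k‖ ^ 2 = 0 := h8
    linear_combination this
  have hd0 : (0 : ℝ) ≤ d := Nat.cast_nonneg d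
  rcases mul_eq_zero.mp h10 with h | h
  · linarith
  · have h91 : ‖χ k‖ ≤ (d : ℝ) := h9
    linarith

end Cfsg.Agent.Helper74.S4705SHMULT
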