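import Mathlib

/-!
# Groups with a self-centralizing element of prime order

Shared lemmas for S4495, S4496, S4497: `x` of prime order `p` with `C_G(x) = ⟨x⟩`.
-/

set_option autoImplicit false
set_option linter.unusedSectionVars false
set_option linter.unusedVariables false

namespace Cfsg.Agent.Helper74

open Subgroup
open scoped Pointwise

section General

/-- Subgroups of prime order `p` in a finite group whose order is not divisible by `p ^ 2`
are conjugate. -/
theorem conj_of_card_eq_prime {H : Type*} [Group H] [Finite H] {p : ℕ} (hp : p.Prime)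
    (hp2 : ¬ p ^ 2 ∣ Nat.card H) (A B : Subgroup H) (hA : Nat.card A = p) (hB : Nat.card B = p) :
    ∃ h : H, ∀ b : H, b ∈ B ↔ h⁻¹ * b * h ∈ A := by
  have : Fact p.Prime := ⟨hp⟩
  have hdiv : p ∣ Nat.card H := hA ▸ Subgroup.card_subgroup_dvd_card A
  have hfac : (Nat.card H).factorization p = 1 := by
    have h1 : 1 ≤ (Nat.card H).factorization p :=
      (hp.dvd_iff_one_le_factorization Nat.card_pos.ne').mp hdiv
    have h2 : ¬ 2 ≤ (Nat.card H).factorization p := fun h =>
      hp2 ((hp.pow_dvd_iff_le_factorization Nat.card_pos.ne').mpr h)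
    omega
  let PA : Sylow p H := Sylow.ofCard A (by rw [hA, hfac, pow_one])
  let PB : Sylow p H := Sylow.ofCard B (by rw [hB, hfac, pow_one])
  obtain ⟨h, hh⟩ := MulAction.exists_smul_eq H PA PB
  refine ⟨h, fun b => ?_⟩
  have h1 : (PB : Subgroup H) = MulAut.conj h • (PA : Subgroup H) := by
    rw [← hh, Sylow.coe_subgroup_smul]
  have h2 : (PB : Subgroup H) = B := Sylow.coe_ofCard B _
  have h3 : (PA : Subgroup H) = A := Sylow.coe_ofCard A _
  rw [← h2, h1, Subgroup.mem_pointwise_smul_iff_inv_smul_mem, h3]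
  simp [MulAut.smul_def]

end General

theorem orderOf_conj_eq {H : Type*} [Group H] (g x : H) :
    orderOf (g * x * g⁻¹) = orderOf x :=
  MulEquiv.orderOf_eq (MulAut.conj g) x

section SelfCent

variable {G : Type*} [Group G] [Finite G] {p : ℕ} {x : G}

theorem card_zpowers_eq (hx : orderOf x = p) : Nat.card (zpowers x) = p := by
  rw [Nat.card_zpowers, hx]

theorem ne_one_of_orderOf (hp : p.Prime) (hx : orderOf x = p) : x ≠ 1 := by
  intro h
  rw [h, orderOf_one] at hx
  exact hp.one_lt.ne hx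

/-- A nontrivial element of `zpowers x` generates it. -/
theorem zpowers_eq_of_mem (hp : p.Prime) (hx : orderOf x = p) {y : G} (hy : y ∈ zpowers x)
    (hy1 : y ≠ 1) : zpowers y = zpowers x := by
  have hle : zpowers y ≤ zpowers x := (zpowers_le).mpr hy
  apply Subgroup.eq_of_le_of_card_ge hle
  have h1 : Nat.card (zpowers y) ∣ Nat.card (zpowers x) := Subgroup.card_dvd_of_le hle
  rw [card_zpowers_eq hx] at h1 ⊢
  rcases (Nat.dvd_prime hp).mp h1 with h | h
  · exfalso
    rw [Nat.card_zpowers, orderOf_eq_one_iff] at h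
    exact hy1 h
  · exact h.ge

/-- An element commuting with a nontrivial `y ∈ zpowers x` commutes with `x`. -/
theorem commute_of_commute_mem (hp : p.Prime) (hx : orderOf x = p) {y c : G}
    (hy : y ∈ zpowers x) (hy1 : y ≠ 1) (hc : Commute c y) : Commute c x := by
  have h : x ∈ zpowers y := by
    rw [zpowers_eq_of_mem hp hx hy hy1]
    exact mem_zpowers x
  obtain ⟨k, hk⟩ := h
  rw [← hk]
  exact hc.zpow_right k

theorem mem_zpowers_iff_commute (hC : centralizer ({x} : Set G) = zpowers x) {c : G} :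
    c ∈ zpowers x ↔ Commute c x := by
  rw [← hC, mem_centralizer_singleton_iff]
  exact ⟨fun h => h, fun h => h⟩

theorem sylow_eq_zpowers (hp : p.Prime) (hx : orderOf x = p)
    (hC : centralizer ({x} : Set G) = zpowers x) [Fact p.Prime] (P : Sylow p G)
    (hP : x ∈ (P : Subgroup G)) : (P : Subgroup G) = zpowers x := by
  apply le_antisymm _ (zpowers_le.mpr hP)
  have hx1 : x ≠ 1 := ne_one_of_orderOf hp hx
  have : Nontrivial P := ⟨⟨⟨x, hP⟩, 1, by simpa [Subtype.ext_iff] using hx1⟩⟩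
  have := P.2.center_nontrivial
  obtain ⟨z, hz⟩ := exists_ne (1 : center P)
  have hzx : ((z : P) : G) ∈ zpowers x := by
    rw [mem_zpowers_iff_commute hC]
    have h := (mem_center_iff.mp z.2) ⟨x, hP⟩
    exact (congrArg Subtype.val h).symm
  have hz1 : ((z : P) : G) ≠ 1 := by
    intro h
    apply hz
    ext
    simpa using h
  intro y hy
  rw [mem_zpowers_iff_commute hC]
  have hcomm : Commute y ((z : P) : G) := by
    have h := (mem_center_iff.mp z.2) ⟨y, hy⟩
    exact (congrArg Subtype.val h)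
  exact commute_of_commute_mem hp hx hzx hz1 hcomm

theorem not_sq_dvd (hp : p.Prime) (hx : orderOf x = p)
    (hC : centralizer ({x} : Set G) = zpowers x) : ¬ p ^ 2 ∣ Nat.card G := by
  have : Fact p.Prime := ⟨hp⟩
  obtain ⟨P, hP⟩ := (IsPGroup.of_card (n := 1) (by rw [card_zpowers_eq hx, pow_one]) :
    IsPGroup p (zpowers x)).exists_le_sylow
  have h1 := sylow_eq_zpowers hp hx hC P (hP (mem_zpowers x))
  have h2 := P.card_eq_multiplicity
  rw [h1, card_zpowers_eq hx] at h2
  intro h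
  have h3 : 2 ≤ (Nat.card G).factorization p :=
    (hp.pow_dvd_iff_le_factorization Nat.card_pos.ne').mp h
  have h4 : p ^ 1 < p ^ (Nat.card G).factorization p := Nat.pow_lt_pow_right hp.one_lt h3
  rw [pow_one] at h4
  omega

theorem exists_conj_zpowers (hp : p.Prime) (hx : orderOf x = p)
    (hC : centralizer ({x} : Set G) = zpowers x) (A : Subgroup G) (hA : Nat.card A = p) :
    ∃ g : G, ∀ b : G, b ∈ A ↔ g⁻¹ * b * g ∈ zpowers x :=
  conj_of_card_eq_prime hp (not_sq_dvd hp hx hC) (zpowers x) A (card_zpowers_eq hx) hA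

/-- The hypothesis transfers to every element of order `p`. -/
theorem centralizer_eq_of_orderOf (hp : p.Prime) (hx : orderOf x = p)
    (hC : centralizer ({x} : Set G) = zpowers x) {y : G} (hy : orderOf y = p) :
    centralizer ({y} : Set G) = zpowers y := by
  obtain ⟨g, hg⟩ := exists_conj_zpowers hp hx hC (zpowers y) (card_zpowers_eq hy)
  have hy1 : y ≠ 1 := ne_one_of_orderOf hp hy
  have h1 : g⁻¹ * y * g ∈ zpowers x := (hg y).mp (mem_zpowers y)
  have h2 : g⁻¹ * y * g ≠ 1 := by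
    intro h
    apply hy1
    have : y = g * (g⁻¹ * y * g) * g⁻¹ := by group
    rw [this, h]; group
  ext c
  rw [mem_centralizer_singleton_iff]
  constructor
  · intro hc
    have h3 : Commute (g⁻¹ * c * g) (g⁻¹ * y * g) := by
      show (g⁻¹ * c * g) * (g⁻¹ * y * g) = (g⁻¹ * y * g) * (g⁻¹ * c * g)
      calc (g⁻¹ * c * g) * (g⁻¹ * y * g) = g⁻¹ * (c * y) * g := by group
        _ = g⁻¹ * (y * c) * g := by rw [hc]
        _ = (g⁻¹ * y * g) * (g⁻¹ * c * g) := by group
    have h4 := commute_of_commute_mem hp hx h1 h2 h3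
    exact (hg c).mpr ((mem_zpowers_iff_commute hC).mpr h4)
  · intro hc
    obtain ⟨k, rfl⟩ := hc
    exact ((Commute.refl y).zpow_left k).eq

theorem eq_one_of_mem_of_mem_zpowers (hp : p.Prime) (hx : orderOf x = p) {S : Subgroup G}
    (hS : ¬ p ∣ Nat.card S) {s : G} (hs : s ∈ S) (hsx : s ∈ zpowers x) : s = 1 := by
  by_contra h
  have h0 := zpowers_eq_of_mem hp hx hsx h
  have h1 : Nat.card (zpowers s) ∣ Nat.card S := Subgroup.card_dvd_of_le (zpowers_le.mpr hs)
  rw [h0, card_zpowers_eq hx] at h1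
  exact hS h1

/-- Every element of a normal `p'`-subgroup is a commutator with `x`. -/
theorem exists_comm_eq (hp : p.Prime) (hx : orderOf x = p)
    (hC : centralizer ({x} : Set G) = zpowers x) {S : Subgroup G} [hSn : S.Normal]
    (hS : ¬ p ∣ Nat.card S) {s : G} (hs : s ∈ S) : ∃ u ∈ S, u * x * u⁻¹ * x⁻¹ = s := by
  let f : S → S := fun u => ⟨u * x * (u : G)⁻¹ * x⁻¹, by
      have h1 : x * (u : G)⁻¹ * x⁻¹ ∈ S := hSn.conj_mem _ (S.inv_mem u.2) x
      have h2 := S.mul_mem u.2 h1
      have h3 : (u : G) * x * (u : G)⁻¹ * x⁻¹ = u * (x * (u : G)⁻¹ * x⁻¹) := by group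
      rw [h3]; exact h2⟩
  have hinj : Function.Injective f := by
    intro u v huv
    have h : (u : G) * x * (u : G)⁻¹ * x⁻¹ = v * x * (v : G)⁻¹ * x⁻¹ := congrArg Subtype.val huv
    have h1 : (u : G) * x * (u : G)⁻¹ = v * x * (v : G)⁻¹ := mul_right_cancel h
    have h2 : ((v : G)⁻¹ * u) * x = x * ((v : G)⁻¹ * u) := by
      calc ((v : G)⁻¹ * u) * x = (v : G)⁻¹ * (u * x * (u : G)⁻¹) * u := by group
        _ = (v : G)⁻¹ * (v * x * (v : G)⁻¹) * u := by rw [h1]
        _ = x * ((v : G)⁻¹ * u) := by group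
    have h3 : (v : G)⁻¹ * u ∈ zpowers x := (mem_zpowers_iff_commute hC).mpr h2
    have h4 := eq_one_of_mem_of_mem_zpowers hp hx hS (S.mul_mem (S.inv_mem v.2) u.2) h3
    rw [inv_mul_eq_one] at h4
    exact Subtype.ext h4.symm
  have hsurj := Finite.surjective_of_injective hinj
  obtain ⟨u, hu⟩ := hsurj ⟨s, hs⟩
  exact ⟨u, u.2, congrArg Subtype.val hu⟩

/-- A normal subgroup of order divisible by `p` contains `x`. -/
theorem mem_of_dvd_card (hp : p.Prime) (hx : orderOf x = p)
    (hC : centralizer ({x} : Set G) = zpowers x) {S : Subgroup G} [hSn : S.Normal]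
    (hS : p ∣ Nat.card S) : x ∈ S := by
  have : Fact p.Prime := ⟨hp⟩
  obtain ⟨y, hy⟩ := exists_prime_orderOf_dvd_card' p hS
  have hy' : orderOf (y : G) = p := by rw [Subgroup.orderOf_coe]; exact hy
  obtain ⟨g, hg⟩ := exists_conj_zpowers hp hx hC (zpowers (y : G)) (card_zpowers_eq hy')
  have h1 : g * x * g⁻¹ ∈ zpowers (y : G) := by
    rw [hg]
    have : g⁻¹ * (g * x * g⁻¹) * g = x := by group
    rw [this]; exact mem_zpowers x
  have h2 : g * x * g⁻¹ ∈ S := (zpowers_le.mpr y.2) h1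
  have h3 := hSn.conj_mem _ h2 g⁻¹
  have h4 : g⁻¹ * (g * x * g⁻¹) * g⁻¹⁻¹ = x := by group
  rwa [h4] at h3

theorem mem_normalizer_of_conj_mem (hp : p.Prime) (hx : orderOf x = p) {n : G}
    (h : n * x * n⁻¹ ∈ zpowers x) : n ∈ normalizer (zpowers x : Set G) := by
  rw [mem_normalizer_iff]
  intro c
  have hne : n * x * n⁻¹ ≠ 1 := by
    intro h1
    apply ne_one_of_orderOf hp hx
    have : x = n⁻¹ * (n * x * n⁻¹) * n := by group
    rw [this, h1]; group
  have hgen : zpowers (n * x * n⁻¹) = zpowers x := zpowers_eq_of_mem hp hx h hne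
  constructor
  · rintro ⟨k, rfl⟩
    show n * x ^ k * n⁻¹ ∈ zpowers x
    rw [← conj_zpow]
    exact zpow_mem h k
  · intro hc
    have hc' : n * c * n⁻¹ ∈ zpowers (n * x * n⁻¹) := by rw [hgen]; exact hc
    obtain ⟨k, hk⟩ := hc'
    refine ⟨k, ?_⟩
    have hk' : n * x ^ k * n⁻¹ = n * c * n⁻¹ := by rw [← conj_zpow]; exact hk
    exact mul_left_cancel (mul_right_cancel hk')

theorem conj_mem_of_mem_normalizer {n : G}
    (h : n ∈ normalizer (zpowers x : Set G)) : n * x * n⁻¹ ∈ zpowers x :=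
  (mem_normalizer_iff.mp h x).mp (mem_zpowers x)

/-- Frattini argument: if the normal subgroup `S` contains `x`, then `G = S * N_G(⟨x⟩)`. -/
theorem frattini (hp : p.Prime) (hx : orderOf x = p)
    (hC : centralizer ({x} : Set G) = zpowers x) {S : Subgroup G} [hSn : S.Normal]
    (hxS : x ∈ S) (g : G) : ∃ s ∈ S, s⁻¹ * g ∈ normalizer (zpowers x : Set G) := by
  have hp2 : ¬ p ^ 2 ∣ Nat.card S := fun h =>
    not_sq_dvd hp hx hC (h.trans (Subgroup.card_subgroup_dvd_card S))
  have hgx : g * x * g⁻¹ ∈ S := hSn.conj_mem _ hxS g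
  have ho : orderOf (g * x * g⁻¹) = p := by rw [orderOf_conj_eq]; exact hx
  let A : Subgroup S := zpowers (⟨x, hxS⟩ : S)
  let B : Subgroup S := zpowers (⟨g * x * g⁻¹, hgx⟩ : S)
  have hA : Nat.card A = p := by
    rw [Nat.card_zpowers, ← Subgroup.orderOf_coe]; exact hx
  have hB : Nat.card B = p := by
    rw [Nat.card_zpowers, ← Subgroup.orderOf_coe]; exact ho
  obtain ⟨h, hh⟩ := conj_of_card_eq_prime hp hp2 A B hA hB
  refine ⟨h, h.2, ?_⟩
  apply mem_normalizer_of_conj_mem hp hx
  have h1 := (hh ⟨g * x * g⁻¹, hgx⟩).mp (mem_zpowers _)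
  obtain ⟨k, hk⟩ := h1
  refine ⟨k, ?_⟩
  have h2 := congrArg Subtype.val hk
  simp only [Subgroup.coe_zpow, Subgroup.coe_mul, Subgroup.coe_inv] at h2
  show x ^ k = _
  rw [h2]; group

theorem comm_inv_aux (hC : centralizer ({x} : Set G) = zpowers x) {a b : G}
    (ha : a ∈ normalizer (zpowers x : Set G)) (hb : b ∈ normalizer (zpowers x : Set G)) :
    Commute (a⁻¹ * b⁻¹ * a * b) x := by
  obtain ⟨i, hi⟩ := conj_mem_of_mem_normalizer ha
  obtain ⟨j, hj⟩ := conj_mem_of_mem_normalizer hb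
  simp only at hi hj
  have h1 : a * b * x * b⁻¹ * a⁻¹ = x ^ (i * j) := by
    calc a * b * x * b⁻¹ * a⁻¹ = a * (b * x * b⁻¹) * a⁻¹ := by group
      _ = a * x ^ j * a⁻¹ := by rw [hj]
      _ = (a * x * a⁻¹) ^ j := by rw [conj_zpow]
      _ = (x ^ i) ^ j := by rw [hi]
      _ = x ^ (i * j) := by rw [zpow_mul]
  have h2 : b * a * x * a⁻¹ * b⁻¹ = x ^ (i * j) := by
    calc b * a * x * a⁻¹ * b⁻¹ = b * (a * x * a⁻¹) * b⁻¹ := by group
      _ = b * x ^ i * b⁻¹ := by rw [hi]
      _ = (b * x * b⁻¹) ^ i := by rw [conj_zpow]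
      _ = (x ^ j) ^ i := by rw [hj]
      _ = x ^ (i * j) := by rw [← zpow_mul, mul_comm]
  show (a⁻¹ * b⁻¹ * a * b) * x = x * (a⁻¹ * b⁻¹ * a * b)
  calc (a⁻¹ * b⁻¹ * a * b) * x = a⁻¹ * b⁻¹ * (a * b * x * b⁻¹ * a⁻¹) * (a * b) := by group
    _ = a⁻¹ * b⁻¹ * (b * a * x * a⁻¹ * b⁻¹) * (a * b) := by rw [h1, h2]
    _ = x * (a⁻¹ * b⁻¹ * a * b) := by group

theorem comm_mem_zpowers (hC : centralizer ({x} : Set G) = zpowers x) {a b : G}
    (ha : a ∈ normalizer (zpowers x : Set G)) (hb : b ∈ normalizer (zpowers x : Set G)) :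
    a * b * a⁻¹ * b⁻¹ ∈ zpowers x := by
  rw [mem_zpowers_iff_commute hC]
  have h := comm_inv_aux hC (inv_mem ha) (inv_mem hb)
  simpa using h

/-- **S4496 (a)**: a normal subgroup of order divisible by `p` contains the commutator
subgroup. -/
theorem commutator_le_of_dvd_card (hp : p.Prime) (hx : orderOf x = p)
    (hC : centralizer ({x} : Set G) = zpowers x) {S : Subgroup G} [hSn : S.Normal]
    (hS : p ∣ Nat.card S) : commutator G ≤ S := by
  have hxS := mem_of_dvd_card hp hx hC hS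
  rw [commutator_def, Subgroup.commutator_le]
  intro a _ b _
  obtain ⟨s₁, hs₁, hn₁⟩ := frattini hp hx hC hxS a
  obtain ⟨s₂, hs₂, hn₂⟩ := frattini hp hx hC hxS b
  have h := comm_mem_zpowers hC hn₁ hn₂
  have hZ : zpowers x ≤ S := zpowers_le.mpr hxS
  have h' := hZ h
  rw [← QuotientGroup.eq_one_iff] at h' ⊢
  have e1 : ((s₁ : G) : G ⧸ S) = 1 := (QuotientGroup.eq_one_iff s₁).mpr hs₁
  have e2 : ((s₂ : G) : G ⧸ S) = 1 := (QuotientGroup.eq_one_iff s₂).mpr hs₂
  rw [commutatorElement_def]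
  simp only [QuotientGroup.mk_mul, QuotientGroup.mk_inv, e1, e2, inv_one, one_mul] at h' ⊢
  exact h'

theorem eq_one_of_conj_mem (hp : p.Prime) (hx : orderOf x = p)
    (hC : centralizer ({x} : Set G) = zpowers x) {S : Subgroup G} [hSn : S.Normal]
    (hS : ¬ p ∣ Nat.card S) {s : G} (hs : s ∈ S) (hn : s * x * s⁻¹ ∈ zpowers x) : s = 1 := by
  have h1 : s * x * s⁻¹ * x⁻¹ ∈ zpowers x := mul_mem hn (inv_mem (mem_zpowers x))
  have h2 : s * x * s⁻¹ * x⁻¹ ∈ S := by
    have h := hSn.conj_mem _ (S.inv_mem hs) x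
    have h' := S.mul_mem hs h
    have e : s * x * s⁻¹ * x⁻¹ = s * (x * s⁻¹ * x⁻¹) := by group
    rw [e]; exact h'
  have h3 := eq_one_of_mem_of_mem_zpowers hp hx hS h2 h1
  have h4 : Commute s x := by
    have h5 : s * x * s⁻¹ = x := by rwa [mul_inv_eq_one] at h3
    show s * x = x * s
    calc s * x = s * x * s⁻¹ * s := by group
      _ = x * s := by rw [h5]
  exact eq_one_of_mem_of_mem_zpowers hp hx hS hs ((mem_zpowers_iff_commute hC).mpr h4)

theorem orderOf_mk_eq (hp : p.Prime) (hx : orderOf x = p) {S : Subgroup G} [S.Normal]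
    (hS : ¬ p ∣ Nat.card S) : orderOf (QuotientGroup.mk x : G ⧸ S) = p := by
  have : Fact p.Prime := ⟨hp⟩
  apply orderOf_eq_prime
  · rw [← QuotientGroup.mk_pow, ← hx, pow_orderOf_eq_one]; rfl
  · intro h
    rw [QuotientGroup.eq_one_iff] at h
    exact ne_one_of_orderOf hp hx (eq_one_of_mem_of_mem_zpowers hp hx hS h (mem_zpowers x))

theorem centralizer_mk_eq (hp : p.Prime) (hx : orderOf x = p)
    (hC : centralizer ({x} : Set G) = zpowers x) {S : Subgroup G} [hSn : S.Normal]
    (hS : ¬ p ∣ Nat.card S) :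
    centralizer ({(QuotientGroup.mk x : G ⧸ S)} : Set (G ⧸ S)) =
      zpowers (QuotientGroup.mk x : G ⧸ S) := by
  ext c
  rw [mem_centralizer_singleton_iff]
  constructor
  · intro hc
    obtain ⟨g, rfl⟩ := QuotientGroup.mk_surjective c
    have h1 : g * x * g⁻¹ * x⁻¹ ∈ S := by
      rw [← QuotientGroup.eq_one_iff]
      simp only [QuotientGroup.mk_mul, QuotientGroup.mk_inv]
      rw [hc]; group
    obtain ⟨u, hu, hu'⟩ := exists_comm_eq hp hx hC hS h1
    have h2 : u * x * u⁻¹ = g * x * g⁻¹ := mul_right_cancel hu'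
    have h3 : (u⁻¹ * g) * x = x * (u⁻¹ * g) := by
      calc (u⁻¹ * g) * x = u⁻¹ * (g * x * g⁻¹) * g := by group
        _ = u⁻¹ * (u * x * u⁻¹) * g := by rw [h2]
        _ = x * (u⁻¹ * g) := by group
    obtain ⟨k, hk⟩ := (mem_zpowers_iff_commute hC).mpr h3
    refine ⟨k, ?_⟩
    simp only at hk
    show (QuotientGroup.mk x : G ⧸ S) ^ k = QuotientGroup.mk g
    rw [← QuotientGroup.mk_zpow, hk, QuotientGroup.mk_mul, QuotientGroup.mk_inv,
      (QuotientGroup.eq_one_iff u).mpr hu]
    simp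
  · rintro ⟨k, rfl⟩
    exact ((Commute.refl _).zpow_left k).eq

theorem card_mod_eq_one (hp : p.Prime) (hx : orderOf x = p)
    (hC : centralizer ({x} : Set G) = zpowers x) {S : Subgroup G} [hSn : S.Normal]
    (hS : ¬ p ∣ Nat.card S) : Nat.card S % p = 1 := by
  have : Fact p.Prime := ⟨hp⟩
  let φ : zpowers x →* MulAut S := (MulAut.conjNormal (H := S)).comp (zpowers x).subtype
  let _ : MulAction (zpowers x) S := MulAction.compHom S φ
  have hpg : IsPGroup p (zpowers x) :=
    IsPGroup.of_card (n := 1) (by rw [card_zpowers_eq hx, pow_one])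
  have h := hpg.card_modEq_card_fixedPoints S
  have hfix : Nat.card (MulAction.fixedPoints (zpowers x) S) = 1 := by
    rw [Nat.card_eq_one_iff_unique]
    have key : ∀ a : S, a ∈ MulAction.fixedPoints (zpowers x) S → a = 1 := by
      intro a ha
      have h1 : (⟨x, mem_zpowers x⟩ : zpowers x) • a = a := ha ⟨x, mem_zpowers x⟩
      have h2 : x * (a : G) * x⁻¹ = a := congrArg Subtype.val h1
      have h3 : Commute (a : G) x := by
        show (a : G) * x = x * a
        calc (a : G) * x = (x * (a : G) * x⁻¹) * x := by rw [h2]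
          _ = x * a := by group
      exact Subtype.ext (eq_one_of_mem_of_mem_zpowers hp hx hS a.2
        ((mem_zpowers_iff_commute hC).mpr h3))
    refine ⟨⟨?_⟩, ⟨⟨1, ?_⟩⟩⟩
    · rintro ⟨a, ha⟩ ⟨b, hb⟩
      exact Subtype.ext ((key a ha).trans (key b hb).symm)
    · intro g
      exact map_one (φ g)
  rw [hfix] at h
  have h' : Nat.card S % p = 1 % p := h
  rwa [Nat.one_mod_eq_one.mpr hp.ne_one] at h'

theorem factorization_eq_one (hp : p.Prime) (hx : orderOf x = p)
    (hC : centralizer ({x} : Set G) = zpowers x) : (Nat.card G).factorization p = 1 := by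
  have hdiv : p ∣ Nat.card G := by
    rw [← card_zpowers_eq hx]; exact Subgroup.card_subgroup_dvd_card _
  have h1 : 1 ≤ (Nat.card G).factorization p :=
    (hp.dvd_iff_one_le_factorization Nat.card_pos.ne').mp hdiv
  have h2 : ¬ 2 ≤ (Nat.card G).factorization p := fun h =>
    not_sq_dvd hp hx hC ((hp.pow_dvd_iff_le_factorization Nat.card_pos.ne').mpr h)
  omega

/-- Every Sylow `p`-subgroup is generated by an element `y` of order `p`. -/
theorem sylow_eq_zpowers_conj (hp : p.Prime) (hx : orderOf x = p)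
    (hC : centralizer ({x} : Set G) = zpowers x) [Fact p.Prime] (P : Sylow p G) :
    ∃ y : G, orderOf y = p ∧ (P : Subgroup G) = zpowers y := by
  have hcard : Nat.card (P : Subgroup G) = p := by
    rw [P.card_eq_multiplicity, factorization_eq_one hp hx hC, pow_one]
  obtain ⟨g, hg⟩ := exists_conj_zpowers hp hx hC (P : Subgroup G) hcard
  have hy : orderOf (g * x * g⁻¹) = p := by rw [orderOf_conj_eq]; exact hx
  refine ⟨g * x * g⁻¹, hy, ?_⟩
  have hmem : g * x * g⁻¹ ∈ (P : Subgroup G) := by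
    rw [hg]
    have : g⁻¹ * (g * x * g⁻¹) * g = x := by group
    rw [this]; exact mem_zpowers x
  symm
  apply Subgroup.eq_of_le_of_card_ge (zpowers_le.mpr hmem)
  rw [hcard, card_zpowers_eq hy]

/-- The subgroups of order `p` are the Sylow `p`-subgroups. -/
noncomputable def subgroupsEquivSylow (hp : p.Prime) (hx : orderOf x = p)
    (hC : centralizer ({x} : Set G) = zpowers x) [Fact p.Prime] :
    {H : Subgroup G // Nat.card H = p} ≃ Sylow p G where
  toFun H := Sylow.ofCard H.1 (by rw [H.2, factorization_eq_one hp hx hC, pow_one])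
  invFun P := ⟨(P : Subgroup G), by
    rw [P.card_eq_multiplicity, factorization_eq_one hp hx hC, pow_one]⟩
  left_inv H := by
    apply Subtype.ext
    dsimp only
    exact Sylow.coe_ofCard (p := p) _ _
  right_inv P := by
    apply Sylow.ext
    dsimp only
    exact Sylow.coe_ofCard (p := p) _ _

theorem card_dvd_card_subgroups (hp : p.Prime) (hx : orderOf x = p)
    (hC : centralizer ({x} : Set G) = zpowers x) {S : Subgroup G} [hSn : S.Normal]
    (hS : ¬ p ∣ Nat.card S) : Nat.card S ∣ Nat.card {H : Subgroup G // Nat.card H = p} := by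
  have : Fact p.Prime := ⟨hp⟩
  rw [Nat.card_congr (subgroupsEquivSylow hp hx hC)]
  have hfree : ∀ P : Sylow p G, MulAction.stabilizer S P = ⊥ := by
    intro P
    rw [eq_bot_iff]
    intro s hs
    rw [MulAction.mem_stabilizer_iff] at hs
    have hs' : (s : G) ∈ normalizer ((P : Subgroup G) : Set G) :=
      Sylow.smul_eq_iff_mem_normalizer.mp hs
    obtain ⟨y, hy, hPy⟩ := sylow_eq_zpowers_conj hp hx hC P
    rw [hPy] at hs'
    have h1 := eq_one_of_conj_mem hp hy (centralizer_eq_of_orderOf hp hx hC hy) hS s.2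
      (conj_mem_of_mem_normalizer hs')
    rw [mem_bot]
    exact Subtype.ext h1
  have e2 := MulAction.selfEquivOrbitsQuotientProd hfree
  rw [Nat.card_congr e2, Nat.card_prod]
  exact dvd_mul_left _ _

end SelfCent

end Cfsg.Agent.Helper74
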