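import Cfsg.Agent.Helper74.SelfCent

/-!
# Counting classes of elements of order `p` (for S4495, S4497)
-/

set_option autoImplicit false
set_option linter.unusedSectionVars false
set_option linter.unusedVariables false

namespace Cfsg.Agent.Helper74

open Subgroup
open scoped Pointwise commutatorElement

section Counting

variable {G : Type*} [Group G] [Finite G] {p : ℕ} {x : G}

theorem orderOf_eq_of_mem_sylow (hp : p.Prime) (hx : orderOf x = p)
    (hC : centralizer ({x} : Set G) = zpowers x) [Fact p.Prime] (P : Sylow p G) {g : G}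
    (hg : g ∈ (P : Subgroup G)) (hg1 : g ≠ 1) : orderOf g = p := by
  obtain ⟨y, hy, hPy⟩ := sylow_eq_zpowers_conj hp hx hC P
  rw [hPy] at hg
  have h := zpowers_eq_of_mem hp hy hg hg1
  rw [← Nat.card_zpowers, h, card_zpowers_eq hy]

theorem sylow_eq_zpowers_of_mem (hp : p.Prime) (hx : orderOf x = p)
    (hC : centralizer ({x} : Set G) = zpowers x) [Fact p.Prime] (P : Sylow p G) {g : G}
    (hg : g ∈ (P : Subgroup G)) (hg1 : g ≠ 1) : (P : Subgroup G) = zpowers g := by
  obtain ⟨y, hy, hPy⟩ := sylow_eq_zpowers_conj hp hx hC P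
  rw [hPy] at hg ⊢
  exact (zpowers_eq_of_mem hp hy hg hg1).symm

/-- The number of elements of order `p`. -/
theorem card_orderOf_eq (hp : p.Prime) (hx : orderOf x = p)
    (hC : centralizer ({x} : Set G) = zpowers x) [Fact p.Prime] :
    Nat.card {g : G // orderOf g = p} = Nat.card (Sylow p G) * (p - 1) := by
  have e : {q : Sylow p G × G // q.2 ∈ (q.1 : Subgroup G) ∧ q.2 ≠ 1} ≃
      {g : G // orderOf g = p} := by
    refine Equiv.ofBijective
      (fun q => ⟨q.1.2, orderOf_eq_of_mem_sylow hp hx hC q.1.1 q.2.1 q.2.2⟩) ⟨?_, ?_⟩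
    · rintro ⟨⟨P, g⟩, hg, hg1⟩ ⟨⟨P', g'⟩, hg', hg1'⟩ h
      have hgg : g = g' := congrArg Subtype.val h
      subst hgg
      have hPP : P = P' := Sylow.ext ((sylow_eq_zpowers_of_mem hp hx hC P hg hg1).trans
        (sylow_eq_zpowers_of_mem hp hx hC P' hg' hg1').symm)
      subst hPP
      rfl
    · rintro ⟨g, hg⟩
      obtain ⟨P, hP⟩ := (IsPGroup.of_card (n := 1) (by rw [card_zpowers_eq hg, pow_one]) :
        IsPGroup p (zpowers g)).exists_le_sylow
      exact ⟨⟨(P, g), hP (mem_zpowers g), ne_one_of_orderOf hp hg⟩, rfl⟩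
  rw [← Nat.card_congr e, Nat.card_congr (Equiv.subtypeProdEquivSigmaSubtype
    (fun (P : Sylow p G) (g : G) => g ∈ (P : Subgroup G) ∧ g ≠ 1))]
  have : Fintype (Sylow p G) := Fintype.ofFinite _
  rw [Nat.card_sigma]
  have hfib : ∀ P : Sylow p G, Nat.card {g : G // g ∈ (P : Subgroup G) ∧ g ≠ 1} = p - 1 := by
    intro P
    have h1 : Nat.card {g : G // g ∈ (P : Subgroup G) ∧ g ≠ 1} =
        (((P : Subgroup G) : Set G) \ {1}).ncard := by
      rw [← Nat.card_coe_set_eq]; rfl
    rw [h1, Set.ncard_sdiff_singleton_of_mem (one_mem _)]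
    have h2 : ((P : Subgroup G) : Set G).ncard = p := by
      rw [← Nat.card_coe_set_eq]
      show Nat.card (P : Subgroup G) = p
      rw [P.card_eq_multiplicity, factorization_eq_one hp hx hC, pow_one]
    rw [h2]
  simp [hfib, Nat.card_eq_fintype_card]

theorem card_carrier_mul (hp : p.Prime) (hx : orderOf x = p)
    (hC : centralizer ({x} : Set G) = zpowers x) {g : G} (hg : orderOf g = p) :
    Nat.card (ConjClasses.mk g).carrier * p = Nat.card G := by
  have h1 : Nat.card (ConjClasses.mk g).carrier = Nat.card (MulAction.orbit (ConjAct G) g) := by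
    rw [ConjAct.orbit_eq_carrier_conjClasses]
  have h2 := Nat.card_congr (MulAction.orbitEquivQuotientStabilizer (ConjAct G) g)
  have h3 := Subgroup.card_eq_card_quotient_mul_card_subgroup
    (MulAction.stabilizer (ConjAct G) g)
  have h4 : Nat.card (MulAction.stabilizer (ConjAct G) g) = p := by
    rw [← Subgroup.nat_card_centralizer_nat_card_stabilizer,
      centralizer_eq_of_orderOf hp hx hC hg, card_zpowers_eq hg]
  have h5 : Nat.card (ConjAct G) = Nat.card G := Nat.card_congr ConjAct.ofConjAct.toEquiv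
  rw [h1, h2, ← h5, h3, h4]

theorem card_orderOf_mul (hp : p.Prime) (hx : orderOf x = p)
    (hC : centralizer ({x} : Set G) = zpowers x) :
    Nat.card {g : G // orderOf g = p} * p =
      Nat.card {C : ConjClasses G // ∃ g ∈ C.carrier, orderOf g = p} * Nat.card G := by
  let f : {g : G // orderOf g = p} → {C : ConjClasses G // ∃ g ∈ C.carrier, orderOf g = p} :=
    fun y => ⟨ConjClasses.mk y.1, y.1, ConjClasses.mem_carrier_mk, y.2⟩
  have : Fintype {C : ConjClasses G // ∃ g ∈ C.carrier, orderOf g = p} := Fintype.ofFinite _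
  rw [← Nat.card_congr (Equiv.sigmaFiberEquiv f), Nat.card_sigma, Finset.sum_mul]
  have hfib : ∀ C : {C : ConjClasses G // ∃ g ∈ C.carrier, orderOf g = p},
      Nat.card {y // f y = C} * p = Nat.card G := by
    rintro ⟨C, g₀, hg₀, ho⟩
    have hC' : C = ConjClasses.mk g₀ := (ConjClasses.mem_carrier_iff_mk_eq.mp hg₀).symm
    subst hC'
    rw [← card_carrier_mul hp hx hC ho]
    congr 1
    apply Nat.card_congr
    refine ⟨fun y => ⟨y.1.1, ?_⟩, fun c => ⟨⟨c.1, ?_⟩, ?_⟩, ?_, ?_⟩
    · rw [ConjClasses.mem_carrier_iff_mk_eq]; exact congrArg Subtype.val y.2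
    · have h := ConjClasses.mem_carrier_iff_mk_eq.mp c.2
      rw [ConjClasses.mk_eq_mk_iff_isConj] at h
      obtain ⟨u, hu⟩ := isConj_iff.mp h
      have h6 := orderOf_conj_eq u c.1
      rw [hu] at h6
      rw [← h6, ho]
    · apply Subtype.ext; exact ConjClasses.mem_carrier_iff_mk_eq.mp c.2
    · intro y; rfl
    · intro c; rfl
  simp [hfib, Nat.card_eq_fintype_card]

theorem card_sylow_mul (hp : p.Prime) (hx : orderOf x = p)
    (hC : centralizer ({x} : Set G) = zpowers x) [Fact p.Prime] :
    Nat.card (Sylow p G) * Nat.card (normalizer (zpowers x : Set G)) = Nat.card G := by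
  let P₀ : Sylow p G := Sylow.ofCard (zpowers x)
    (by rw [card_zpowers_eq hx, factorization_eq_one hp hx hC, pow_one])
  have hP₀ : (P₀ : Subgroup G) = zpowers x := Sylow.coe_ofCard _ _
  rw [Sylow.card_eq_index_normalizer P₀]
  change (normalizer ((P₀ : Subgroup G) : Set G)).index * _ = _
  rw [hP₀]
  exact Subgroup.index_mul_card _

/-- The key counting identity: `t * |N_G(⟨x⟩)| = (p - 1) * p`. -/
theorem classes_mul_card_normalizer (hp : p.Prime) (hx : orderOf x = p)
    (hC : centralizer ({x} : Set G) = zpowers x) :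
    Nat.card {C : ConjClasses G // ∃ g ∈ C.carrier, orderOf g = p} *
      Nat.card (normalizer (zpowers x : Set G)) = (p - 1) * p := by
  have : Fact p.Prime := ⟨hp⟩
  have h1 := card_orderOf_eq hp hx hC
  have h2 := card_orderOf_mul hp hx hC
  have h3 := card_sylow_mul hp hx hC
  have hpos : 0 < Nat.card (Sylow p G) := Nat.card_pos
  rw [h1, ← h3] at h2
  apply Nat.eq_of_mul_eq_mul_left hpos
  generalize Nat.card {C : ConjClasses G // ∃ g ∈ C.carrier, orderOf g = p} = t at h2 ⊢
  generalize Nat.card (normalizer (zpowers x : Set G)) = n at h2 ⊢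
  generalize Nat.card (Sylow p G) = s at h2 ⊢
  generalize p - 1 = q at h2 ⊢
  nlinarith [h2]

theorem commute_of_mem_zpowers' {H : Type*} [Group H] {x a b : H} (ha : a ∈ zpowers x)
    (hb : b ∈ zpowers x) : Commute a b := by
  obtain ⟨i, rfl⟩ := ha
  obtain ⟨j, rfl⟩ := hb
  exact (Commute.refl x).zpow_zpow i j

/-- Case `N_G(⟨x⟩) = ⟨x⟩`: Burnside's transfer theorem gives a normal `p`-complement,
and it equals `G'`. -/
theorem commutator_of_card_normalizer_eq (hp : p.Prime) (hx : orderOf x = p)
    (hC : centralizer ({x} : Set G) = zpowers x)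
    (hN : Nat.card (normalizer (zpowers x : Set G)) = p) :
    ¬ p ∣ Nat.card (commutator G) ∧ (commutator G).index = p := by
  have : Fact p.Prime := ⟨hp⟩
  let P₀ : Sylow p G := Sylow.ofCard (zpowers x)
    (by rw [card_zpowers_eq hx, factorization_eq_one hp hx hC, pow_one])
  have hP₀ : (P₀ : Subgroup G) = zpowers x := Sylow.coe_ofCard _ _
  have hNZ : normalizer (zpowers x : Set G) = zpowers x := by
    symm
    apply Subgroup.eq_of_le_of_card_ge le_normalizer
    rw [hN, card_zpowers_eq hx]
  have hle : normalizer ((P₀ : Subgroup G) : Set G) ≤ centralizer ((P₀ : Subgroup G) : Set G) := by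
    rw [hP₀, hNZ]
    intro n hn
    rw [mem_centralizer_iff]
    intro z hz
    exact (commute_of_mem_zpowers' hz hn).eq
  have hcompl : (MonoidHom.transferSylow P₀ hle).ker.IsComplement' P₀ :=
    MonoidHom.ker_transferSylow_isComplement' P₀ hle
  have hKp : ¬ p ∣ Nat.card (MonoidHom.transferSylow P₀ hle).ker :=
    MonoidHom.not_dvd_card_ker_transferSylow P₀ hle
  have hidx : (MonoidHom.transferSylow P₀ hle).ker.index = p := by
    have h := hcompl.symm.index_eq_card
    rw [h, hP₀, card_zpowers_eq hx]
  have h1 : commutator G ≤ (MonoidHom.transferSylow P₀ hle).ker := by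
    rw [_root_.commutator_def, Subgroup.commutator_le]
    intro a _ b _
    show MonoidHom.transferSylow P₀ hle ⁅a, b⁆ = 1
    rw [map_commutatorElement, commutatorElement_eq_one_iff_commute]
    have hcomm : ∀ u v : (P₀ : Subgroup G), Commute u v := by
      intro u v
      apply Subtype.ext
      have hu : (u : G) ∈ zpowers x := hP₀ ▸ u.2
      have hv : (v : G) ∈ zpowers x := hP₀ ▸ v.2
      exact (commute_of_mem_zpowers' hu hv).eq
    exact hcomm _ _
  have h2 : (MonoidHom.transferSylow P₀ hle).ker ≤ commutator G := by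
    intro k hk
    obtain ⟨u, hu, hu'⟩ := exists_comm_eq hp hx hC hKp hk
    rw [← hu', _root_.commutator_def, ← commutatorElement_def]
    exact Subgroup.commutator_mem_commutator (mem_top u) (mem_top x)
  have h3 : commutator G = (MonoidHom.transferSylow P₀ hle).ker := le_antisymm h1 h2
  rw [h3]
  exact ⟨hKp, hidx⟩

theorem mem_commutator_of_card_normalizer_ne (hp : p.Prime) (hx : orderOf x = p)
    (hC : centralizer ({x} : Set G) = zpowers x)
    (hN : Nat.card (normalizer (zpowers x : Set G)) ≠ p) : x ∈ commutator G := by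
  have hnot : ¬ normalizer (zpowers x : Set G) ≤ zpowers x := by
    intro h
    apply hN
    rw [le_antisymm h le_normalizer, card_zpowers_eq hx]
  obtain ⟨n, hn, hnZ⟩ := SetLike.not_le_iff_exists.mp hnot
  have h1 := conj_mem_of_mem_normalizer hn
  have h2 : n * x * n⁻¹ * x⁻¹ ∈ zpowers x := mul_mem h1 (inv_mem (mem_zpowers x))
  have h3 : n * x * n⁻¹ * x⁻¹ ≠ 1 := by
    intro h
    apply hnZ
    rw [mem_zpowers_iff_commute hC]
    have h5 : n * x * n⁻¹ = x := by rwa [mul_inv_eq_one] at h
    show n * x = x * n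
    calc n * x = n * x * n⁻¹ * n := by group
      _ = x * n := by rw [h5]
  have h4 := zpowers_eq_of_mem hp hx h2 h3
  have h5 : n * x * n⁻¹ * x⁻¹ ∈ commutator G := by
    rw [_root_.commutator_def, ← commutatorElement_def]
    exact Subgroup.commutator_mem_commutator (mem_top n) (mem_top x)
  have h6 : zpowers (n * x * n⁻¹ * x⁻¹) ≤ commutator G := zpowers_le.mpr h5
  rw [h4] at h6
  exact h6 (mem_zpowers x)

theorem index_commutator_mul_le (hp : p.Prime) (hx : orderOf x = p)
    (hC : centralizer ({x} : Set G) = zpowers x) (hxD : x ∈ commutator G) :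
    (commutator G).index * p ≤ Nat.card (normalizer (zpowers x : Set G)) := by
  let φ : normalizer (zpowers x : Set G) →* G ⧸ commutator G :=
    (QuotientGroup.mk' (commutator G)).comp (normalizer (zpowers x : Set G)).subtype
  have hsurj : Function.Surjective φ := by
    intro q
    obtain ⟨g, rfl⟩ := QuotientGroup.mk_surjective q
    obtain ⟨s, hs, hn⟩ := frattini hp hx hC hxD g
    refine ⟨⟨s⁻¹ * g, hn⟩, ?_⟩
    show ((s⁻¹ * g : G) : G ⧸ commutator G) = (g : G ⧸ commutator G)
    rw [QuotientGroup.mk_mul, QuotientGroup.mk_inv, (QuotientGroup.eq_one_iff s).mpr hs]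
    simp
  have h1 : φ.ker.index = (commutator G).index := by
    rw [Subgroup.index_ker, MonoidHom.range_eq_top.mpr hsurj, Subgroup.index]
    exact Nat.card_congr Subgroup.topEquiv.toEquiv
  have h2 := Subgroup.index_mul_card φ.ker
  have h3 : p ≤ Nat.card φ.ker := by
    have hZ : zpowers (⟨x, le_normalizer (mem_zpowers x)⟩ : normalizer (zpowers x : Set G)) ≤
        φ.ker := by
      rw [zpowers_le, MonoidHom.mem_ker]
      exact (QuotientGroup.eq_one_iff x).mpr hxD
    have h4 := Nat.le_of_dvd Nat.card_pos (Subgroup.card_dvd_of_le hZ)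
    rwa [Nat.card_zpowers, ← Subgroup.orderOf_coe, hx] at h4
  rw [← h2, h1]
  exact Nat.mul_le_mul_left _ h3

/-- **S4495**. -/
theorem index_commutator_of_classes (hp : p.Prime) (hx : orderOf x = p)
    (hC : centralizer ({x} : Set G) = zpowers x) (t : ℕ)
    (ht : Nat.card {C : ConjClasses G // ∃ g ∈ C.carrier, orderOf g = p} = t) :
    (t ≠ p - 1 → (commutator G).index * t ≤ p - 1) ∧
      (t = p - 1 → (commutator G).index = p) := by
  have hcount := classes_mul_card_normalizer hp hx hC
  rw [ht] at hcount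
  have hp1 : 0 < p - 1 := Nat.sub_pos_of_lt hp.one_lt
  constructor
  · intro hne
    have hN : Nat.card (normalizer (zpowers x : Set G)) ≠ p := by
      intro h
      rw [h] at hcount
      exact hne (Nat.eq_of_mul_eq_mul_right hp.pos hcount)
    have hxD := mem_commutator_of_card_normalizer_ne hp hx hC hN
    have h1 := index_commutator_mul_le hp hx hC hxD
    have h2 : (commutator G).index * t * p ≤ (p - 1) * p := by
      calc (commutator G).index * t * p = t * ((commutator G).index * p) := by ring
        _ ≤ t * Nat.card (normalizer (zpowers x : Set G)) := Nat.mul_le_mul_left _ h1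
        _ = (p - 1) * p := hcount
    exact Nat.le_of_mul_le_mul_right h2 hp.pos
  · intro heq
    rw [heq] at hcount
    have hN : Nat.card (normalizer (zpowers x : Set G)) = p :=
      Nat.eq_of_mul_eq_mul_left hp1 hcount
    exact (commutator_of_card_normalizer_eq hp hx hC hN).2

end Counting

end Cfsg.Agent.Helper74
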