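import Cfsg.Agent.Helper74.SelfCent2
import Cfsg.Prelude.Def_Solvable

/-!
# The `p'`-core and the structure of `G'` (for S4497)
-/

set_option autoImplicit false
set_option linter.unusedSectionVars false
set_option linter.unusedVariables false

namespace Cfsg.Agent.Helper74

open Subgroup
open scoped Pointwise commutatorElement

section Core

theorem coprime_card_sup {H : Type*} [Group H] [Finite H] {p : ℕ} (A B : Subgroup H) [B.Normal]
    (hA : (Nat.card A).Coprime p) (hB : (Nat.card B).Coprime p) :
    (Nat.card (A ⊔ B : Subgroup H)).Coprime p := by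
  have h1 : Nat.card B * B.relIndex (A ⊔ B) = Nat.card (A ⊔ B : Subgroup H) := by
    have h := Subgroup.relIndex_mul_relIndex (H := ⊥) (K := B) (L := A ⊔ B) bot_le le_sup_right
    rwa [Subgroup.relIndex_bot_left, Subgroup.relIndex_bot_left] at h
  rw [← h1, Subgroup.relIndex_sup_right]
  exact Nat.Coprime.mul_left hB (Nat.Coprime.coprime_dvd_left (Subgroup.relIndex_dvd_card B A) hA)

/-- The `p'`-core of a finite group has order coprime to `p`. -/
theorem pPrimeCore_coprime {H : Type*} [Group H] [Finite H] (p : ℕ) :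
    (Nat.card (Cfsg.pPrimeCore p H)).Coprime p := by
  have hne : Nonempty {N : Subgroup H // N.Normal ∧ (Nat.card N).Coprime p} :=
    ⟨⟨⊥, inferInstance, by simp⟩⟩
  obtain ⟨⟨N₀, hN₀⟩, hmax⟩ := Finite.exists_max
    (fun N : {N : Subgroup H // N.Normal ∧ (Nat.card N).Coprime p} => Nat.card N.1)
  have hcore : Cfsg.pPrimeCore p H = N₀ := by
    apply le_antisymm
    · apply sSup_le
      intro N hN
      have hn0 : N₀.Normal := hN₀.1
      have hn : N.Normal := hN.1
      have h1 : (N ⊔ N₀).Normal ∧ (Nat.card (N ⊔ N₀ : Subgroup H)).Coprime p :=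
        ⟨inferInstance, coprime_card_sup N N₀ hN.2 hN₀.2⟩
      have h2 : Nat.card (N ⊔ N₀ : Subgroup H) ≤ Nat.card N₀ := hmax ⟨N ⊔ N₀, h1⟩
      have h3 : N₀ = N ⊔ N₀ := Subgroup.eq_of_le_of_card_ge le_sup_right h2
      rw [h3]
      exact le_sup_left
    · exact le_sSup hN₀
  rw [hcore]
  exact hN₀.2

theorem pPrimeCore_characteristic {H : Type*} [Group H] (p : ℕ) :
    (Cfsg.pPrimeCore p H).Characteristic := by
  rw [Subgroup.characteristic_iff_map_le]
  intro φ
  rw [Subgroup.map_le_iff_le_comap]
  apply sSup_le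
  intro N hN
  rw [← Subgroup.map_le_iff_le_comap]
  apply le_sSup
  refine ⟨Subgroup.Normal.map hN.1 φ.toMonoidHom φ.surjective, ?_⟩
  rw [Subgroup.card_map_of_injective φ.injective]
  exact hN.2

end Core

section Main

variable {G : Type*} [Group G] [Finite G] {p : ℕ} {x : G}

theorem pPrimeCore_le_commutator (hp : p.Prime) (hx : orderOf x = p)
    (hC : centralizer ({x} : Set G) = zpowers x) : Cfsg.pPrimeCore p G ≤ commutator G := by
  apply sSup_le
  intro N hN
  have hn : N.Normal := hN.1
  have hNp : ¬ p ∣ Nat.card N := (hp.coprime_iff_not_dvd).mp hN.2.symm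
  intro k hk
  obtain ⟨u, hu, hu'⟩ := exists_comm_eq hp hx hC hNp hk
  rw [← hu', _root_.commutator_def, ← commutatorElement_def]
  exact Subgroup.commutator_mem_commutator (mem_top u) (mem_top x)

theorem commutator_eq_pPrimeCore (hp : p.Prime) (hx : orderOf x = p)
    (hC : centralizer ({x} : Set G) = zpowers x)
    (hN : Nat.card (normalizer (zpowers x : Set G)) = p) :
    commutator G = Cfsg.pPrimeCore p G := by
  apply le_antisymm _ (pPrimeCore_le_commutator hp hx hC)
  apply le_sSup
  exact ⟨inferInstance,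
    ((hp.coprime_iff_not_dvd).mpr (commutator_of_card_normalizer_eq hp hx hC hN).1).symm⟩

theorem isSimpleGroup_quotient (hp : p.Prime) (hx : orderOf x = p)
    (hC : centralizer ({x} : Set G) = zpowers x) (hxD : x ∈ commutator G)
    (h : ((Cfsg.pPrimeCore p G).subgroupOf (commutator G)).Normal) :
    IsSimpleGroup (↥(commutator G) ⧸ (Cfsg.pPrimeCore p G).subgroupOf (commutator G)) := by
  have hcore : ¬ p ∣ Nat.card (Cfsg.pPrimeCore p G) :=
    (hp.coprime_iff_not_dvd).mp (pPrimeCore_coprime p).symm
  have hxT : x ∉ Cfsg.pPrimeCore p G := fun hmem =>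
    ne_one_of_orderOf hp hx (eq_one_of_mem_of_mem_zpowers hp hx hcore hmem (mem_zpowers x))
  have hx' : orderOf (⟨x, hxD⟩ : commutator G) = p := by
    rw [← Subgroup.orderOf_coe]; exact hx
  have hC' : centralizer ({(⟨x, hxD⟩ : commutator G)} : Set (commutator G)) =
      zpowers (⟨x, hxD⟩ : commutator G) := by
    ext c
    rw [mem_centralizer_singleton_iff]
    constructor
    · intro hc
      have h1 : (c : G) ∈ zpowers x := (mem_zpowers_iff_commute hC).mpr (congrArg Subtype.val hc)
      obtain ⟨k, hk⟩ := h1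
      exact ⟨k, Subtype.ext (by simpa using hk)⟩
    · rintro ⟨k, rfl⟩
      exact ((Commute.refl _).zpow_left k).eq
  have hnt : Nontrivial (↥(commutator G) ⧸ (Cfsg.pPrimeCore p G).subgroupOf (commutator G)) := by
    refine ⟨⟨QuotientGroup.mk (⟨x, hxD⟩ : commutator G), 1, ?_⟩⟩
    intro h1
    rw [QuotientGroup.eq_one_iff] at h1
    exact hxT (Subgroup.mem_subgroupOf.mp h1)
  refine { toNontrivial := hnt, eq_bot_or_eq_top_of_normal := ?_ }
  · intro Hq hHq
    have hM'n : (Hq.comap (QuotientGroup.mk' ((Cfsg.pPrimeCore p G).subgroupOf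
        (commutator G)))).Normal := Subgroup.Normal.comap hHq _
    by_cases hM : p ∣ Nat.card (Hq.comap (QuotientGroup.mk' ((Cfsg.pPrimeCore p G).subgroupOf
        (commutator G))))
    · right
      have hxM : (⟨x, hxD⟩ : commutator G) ∈ Hq.comap (QuotientGroup.mk'
          ((Cfsg.pPrimeCore p G).subgroupOf (commutator G))) := mem_of_dvd_card hp hx' hC' hM
      have hconj : ∀ g : G, ∃ m : commutator G, m ∈ Hq.comap (QuotientGroup.mk'
          ((Cfsg.pPrimeCore p G).subgroupOf (commutator G))) ∧ (m : G) = g * x * g⁻¹ := by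
        intro g
        obtain ⟨s, hs, hn⟩ := frattini hp hx hC hxD g
        obtain ⟨k, hk⟩ := conj_mem_of_mem_normalizer hn
        simp only at hk
        refine ⟨⟨s, hs⟩ * (⟨x, hxD⟩ : commutator G) ^ k * ⟨s, hs⟩⁻¹, ?_, ?_⟩
        · exact hM'n.conj_mem _ (zpow_mem hxM k) _
        · simp only [Subgroup.coe_mul, Subgroup.coe_zpow, Subgroup.coe_inv]
          rw [hk]; group
      have hL : Subgroup.normalClosure ({x} : Set G) ≤ (Hq.comap (QuotientGroup.mk'
          ((Cfsg.pPrimeCore p G).subgroupOf (commutator G)))).map (commutator G).subtype := by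
        rw [Subgroup.normalClosure, Subgroup.closure_le]
        intro y hy
        rw [Group.mem_conjugatesOfSet_iff] at hy
        obtain ⟨a, ha, hay⟩ := hy
        rw [Set.mem_singleton_iff] at ha
        subst ha
        obtain ⟨g, hg⟩ := isConj_iff.mp hay
        obtain ⟨m, hm, hmg⟩ := hconj g
        exact ⟨m, hm, hmg.trans hg⟩
      have hLp : p ∣ Nat.card (Subgroup.normalClosure ({x} : Set G)) := by
        have hxL : x ∈ Subgroup.normalClosure ({x} : Set G) :=
          Subgroup.subset_normalClosure (Set.mem_singleton x)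
        have h2 := orderOf_dvd_natCard (⟨x, hxL⟩ : Subgroup.normalClosure ({x} : Set G))
        rwa [← Subgroup.orderOf_coe, hx] at h2
      have hDL : commutator G ≤ Subgroup.normalClosure ({x} : Set G) :=
        commutator_le_of_dvd_card hp hx hC hLp
      rw [eq_top_iff]
      intro q _
      obtain ⟨d, rfl⟩ := QuotientGroup.mk_surjective q
      obtain ⟨m, hm, hmd⟩ := hL (hDL d.2)
      have hmd' : m = d := Subtype.ext hmd
      rw [hmd'] at hm
      exact hm
    · left
      have h1 : Hq.comap (QuotientGroup.mk' ((Cfsg.pPrimeCore p G).subgroupOf (commutator G))) ≤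
          Cfsg.pPrimeCore p (commutator G) :=
        le_sSup ⟨hM'n, ((hp.coprime_iff_not_dvd).mpr hM).symm⟩
      have hchar : (Cfsg.pPrimeCore p (commutator G)).Characteristic :=
        pPrimeCore_characteristic p
      have h2 : (Cfsg.pPrimeCore p (commutator G)).map (commutator G).subtype ≤
          Cfsg.pPrimeCore p G := by
        apply le_sSup
        refine ⟨ConjAct.normal_of_characteristic_of_normal, ?_⟩
        rw [Subgroup.card_map_of_injective (commutator G).subtype_injective]
        exact pPrimeCore_coprime p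
      rw [eq_bot_iff]
      intro q hq
      obtain ⟨d, rfl⟩ := QuotientGroup.mk_surjective q
      have hd : d ∈ Hq.comap (QuotientGroup.mk' ((Cfsg.pPrimeCore p G).subgroupOf
          (commutator G))) := hq
      rw [mem_bot, QuotientGroup.eq_one_iff, Subgroup.mem_subgroupOf]
      exact h2 ⟨d, h1 hd, rfl⟩

/-- **S4497**. -/
theorem commutator_structure (hp : p.Prime) (hx : orderOf x = p)
    (hC : centralizer ({x} : Set G) = zpowers x) (t : ℕ)
    (ht : Nat.card {C : ConjClasses G // ∃ g ∈ C.carrier, orderOf g = p} = t) :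
    Cfsg.pPrimeCore p G ≤ commutator G ∧
      (t ≠ p - 1 → ∀ h : ((Cfsg.pPrimeCore p G).subgroupOf (commutator G)).Normal,
        IsSimpleGroup (↥(commutator G) ⧸ (Cfsg.pPrimeCore p G).subgroupOf (commutator G))) ∧
      (t = p - 1 → commutator G = Cfsg.pPrimeCore p G) := by
  have hcount := classes_mul_card_normalizer hp hx hC
  rw [ht] at hcount
  have hp1 : 0 < p - 1 := Nat.sub_pos_of_lt hp.one_lt
  refine ⟨pPrimeCore_le_commutator hp hx hC, ?_, ?_⟩
  · intro hne h
    have hN : Nat.card (normalizer (zpowers x : Set G)) ≠ p := by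
      intro h'
      rw [h'] at hcount
      exact hne (Nat.eq_of_mul_eq_mul_right hp.pos hcount)
    exact isSimpleGroup_quotient hp hx hC (mem_commutator_of_card_normalizer_ne hp hx hC hN) h
  · intro heq
    rw [heq] at hcount
    have hN : Nat.card (normalizer (zpowers x : Set G)) = p :=
      Nat.eq_of_mul_eq_mul_left hp1 hcount
    exact commutator_eq_pPrimeCore hp hx hC hN

end Main

end Cfsg.Agent.Helper74
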