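import Mathlib
import Cfsg.Agent.Helper97.TGDefs

set_option autoImplicit false

/-!
Piece FIXE of CALL S2414 (helper97): the Levi embedding fixes `e_c` when `A` fixes the `c`-th
standard basis vector.
-/

universe u

namespace Cfsg.Agent.Helper74

open Cfsg Matrix Cfsg.Agent.Helper45 Cfsg.Agent.Helper98 Cfsg.Agent.Helper97.TG

variable {m : ℕ} {F : Type u} [Field F]

/-- FIXE -/
theorem tg_iota_fix_e (A : Matrix.SpecialLinearGroup (Fin m) F) (c : Fin m)
    (h : (A : Matrix (Fin m) (Fin m) F) *ᵥ Pi.single c 1 = Pi.single c 1) :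
    mv ⇑(QP m F) (iota m F A) (eV m F c) = eV m F c := by
  rw [mv_iota]
  have h1 : (eV m F c) ∘ Sum.inl = Pi.single c 1 := by
    funext j
    simp [Pi.single_apply]
  have h2 : (eV m F c) ∘ Sum.inr = 0 := by
    funext j
    simp
  rw [h1, h2, h, Matrix.mulVec_zero]
  funext x
  rcases x with j | j
  · simp [Pi.single_apply]
  · simp

end Cfsg.Agent.Helper74
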