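import Mathlib
import Cfsg.Agent.Helper74.TwoP4
import Cfsg.Agent.Helper4.TwoDegHall

/-!
# Groups with character degrees 1 and p (Isaacs 12.11): direct product of a `p`-group and an
abelian group
-/

set_option autoImplicit false

namespace Cfsg.Agent.Helper74

open Cfsg
open scoped ComplexConjugate Pointwise

universe u

theorem tp_general {G : Type u} [Group G] [Finite G] (p : ℕ) (hp : p.Prime)
    (hG : ∃ a b : G, a * b ≠ b * a)
    (hcd : ∀ χ : IrrCharacter G, charDegree (χ : G → ℂ) = 1 ∨ charDegree (χ : G → ℂ) = p)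
    (P A : Subgroup G) (hPn : P.Normal) (hAn : A.Normal) (hP : IsPGroup p P)
    (hAab : ∀ a ∈ A, ∀ b ∈ A, a * b = b * a) (hinf : P ⊓ A = ⊥) (hsup : P ⊔ A = ⊤) :
    (∃ B : Subgroup G, B.Normal ∧ (∀ a ∈ B, ∀ b ∈ B, a * b = b * a) ∧ B.index = p) ∨
      (Subgroup.center G).index = p ^ 3 := by
  classical
  haveI : Fact p.Prime := ⟨hp⟩
  have hcomm : ∀ x ∈ P, ∀ a ∈ A, x * a = a * x := fun x hx a ha =>
    (Subgroup.commute_of_normal_of_disjoint P A hPn hAn (disjoint_iff.mpr hinf) x a hx ha).eq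
  have hdec : ∀ g : G, ∃ x ∈ P, ∃ a ∈ A, x * a = g := by
    intro g
    have hg : g ∈ ((P ⊔ A : Subgroup G) : Set G) := by
      rw [hsup]; exact Set.mem_univ _
    rw [Subgroup.mul_normal] at hg
    exact Set.mem_mul.mp hg
  have hAZ : A ≤ Subgroup.center G := by
    intro a ha
    rw [Subgroup.mem_center_iff]
    intro g
    obtain ⟨x, hx, b, hb, rfl⟩ := hdec g
    rw [mul_assoc, hAab b hb a ha, ← mul_assoc, hcomm x hx a ha, mul_assoc]
  have hcdP : ∀ θ : IrrCharacter ↥P,
      charDegree (θ : ↥P → ℂ) = 1 ∨ charDegree (θ : ↥P → ℂ) = p := by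
    intro θ
    obtain ⟨χ, k, hk⟩ := Helper4.twoDeg_exists_irr_over P θ
    have hdvd : charDegree (θ : ↥P → ℂ) ∣ charDegree (χ : G → ℂ) := ⟨k, by rw [hk, mul_comm]⟩
    rcases hcd χ with h | h
    · rw [h] at hdvd
      exact Or.inl (Nat.dvd_one.mp hdvd)
    · rw [h] at hdvd
      exact (Nat.dvd_prime hp).mp hdvd
  -- the projection onto `P`
  let φ : ↥P →* G ⧸ A := (QuotientGroup.mk' A).comp P.subtype
  have hφinj : Function.Injective φ := by
    rw [injective_iff_map_eq_one]
    intro x hx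
    have h1 : (x : G) ∈ A := (QuotientGroup.eq_one_iff (x : G)).mp hx
    have h2 : (x : G) ∈ P ⊓ A := ⟨x.2, h1⟩
    rw [hinf, Subgroup.mem_bot] at h2
    exact Subtype.ext h2
  have hφsurj : Function.Surjective φ := by
    intro q
    obtain ⟨g, rfl⟩ := QuotientGroup.mk_surjective q
    obtain ⟨x, hx, a, ha, rfl⟩ := hdec g
    refine ⟨⟨x, hx⟩, ?_⟩
    show ((x : G) : G ⧸ A) = ((x * a : G) : G ⧸ A)
    rw [QuotientGroup.eq, inv_mul_cancel_left]
    exact ha
  let e : ↥P ≃* G ⧸ A := MulEquiv.ofBijective φ ⟨hφinj, hφsurj⟩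
  let π : G →* ↥P := (e.symm : G ⧸ A →* ↥P).comp (QuotientGroup.mk' A)
  have hπ : ∀ g : G, ((π g : ↥P) : G)⁻¹ * g ∈ A := by
    intro g
    rw [← QuotientGroup.eq]
    have h1 : e (π g) = (g : G ⧸ A) := e.apply_symm_apply _
    exact h1
  have hπP : ∀ x : ↥P, π (x : G) = x := by
    intro x
    have h1 : (QuotientGroup.mk' A) (x : G) = e x := rfl
    show e.symm ((QuotientGroup.mk' A) (x : G)) = x
    rw [h1, e.symm_apply_apply]
  have hπsurj : Function.Surjective π := fun x => ⟨(x : G), hπP x⟩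
  have hcomm2 : ∀ g h : G, ((π g : ↥P) : G) * ((π h : ↥P) : G) = ((π h : ↥P) : G) * ((π g : ↥P) : G) →
      g * h = h * g := by
    intro g h hxy
    have eg : g = ((π g : ↥P) : G) * (((π g : ↥P) : G)⁻¹ * g) := by group
    have eh : h = ((π h : ↥P) : G) * (((π h : ↥P) : G)⁻¹ * h) := by group
    have hca : ∀ y : G, Commute (((π g : ↥P) : G)⁻¹ * g) y := fun y =>
      (Subgroup.mem_center_iff.mp (hAZ (hπ g)) y).symm
    have hcb : ∀ y : G, Commute (((π h : ↥P) : G)⁻¹ * h) y := fun y =>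
      (Subgroup.mem_center_iff.mp (hAZ (hπ h)) y).symm
    have hc : Commute g h := by
      rw [eg, eh]
      exact Commute.mul_left (Commute.mul_right hxy (hcb _).symm) (hca _)
    exact hc
  rcases tp_pgroup_aux p (Nat.card ↥P) ↥P rfl hP hcdP with hPab | ⟨B, hBn, hBab, hBidx⟩ | hZ
  · exfalso
    obtain ⟨a, b, hab⟩ := hG
    exact hab (hcomm2 a b (congrArg Subtype.val (hPab (π a) (π b))))
  · left
    refine ⟨B.comap π, hBn.comap π, ?_, ?_⟩
    · intro g hg h hh
      rw [Subgroup.mem_comap] at hg hh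
      exact hcomm2 g h (congrArg Subtype.val (hBab _ hg _ hh))
    · rw [Subgroup.index_comap_of_surjective B hπsurj]
      exact hBidx
  · right
    have hZeq : Subgroup.center G = (Subgroup.center ↥P).comap π := by
      apply le_antisymm
      · intro z hz
        rw [Subgroup.mem_comap, Subgroup.mem_center_iff]
        intro y
        have h1 : π ((y : G) * z) = π (z * (y : G)) := by
          rw [Subgroup.mem_center_iff.mp hz (y : G)]
        rw [map_mul, map_mul, hπP y] at h1
        exact h1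
      · intro g hg
        rw [Subgroup.mem_comap, Subgroup.mem_center_iff] at hg
        rw [Subgroup.mem_center_iff]
        intro h
        exact hcomm2 h g (congrArg Subtype.val (hg (π h)))
    rw [hZeq, Subgroup.index_comap_of_surjective _ hπsurj]
    exact hZ

end Cfsg.Agent.Helper74
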